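import Mathlib
import Cfsg.Agent.H14.PermAmb

/-!
Rank three groups of degree 4060 with subdegrees 1755 and 2304: the graph.
-/

set_option autoImplicit false

namespace Cfsg.Agent.H7.Rv

open MulAction Finset Cfsg.Agent.H14

/-- a strongly regular relation. -/
structure Srg {Ω : Type*} (R : Ω → Ω → Prop) (l m : ℕ) : Prop where
  sy : ∀ x y, R x y → R y x
  ir : ∀ x, ¬ R x x
  val : ∀ x, {y | R x y}.ncard = 1755
  la : ∀ x y, R x y → {z | R x z ∧ R y z}.ncard = l
  mu : ∀ x y, x ≠ y → ¬ R x y → {z | R x z ∧ R y z}.ncard = m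

theorem rank3 {H Ω : Type*} [Group H] [Fintype Ω] [MulAction H Ω] [IsPretransitive H Ω]
    (hΩ : Fintype.card Ω = 4060) (a b c : Ω) (hb : (orbit (stabilizer H a) b).ncard = 1755)
    (hc : (orbit (stabilizer H a) c).ncard = 2304) : ∃ (R : Ω → Ω → Prop) (l m : ℕ), Srg R l m ∧
      (∀ (g : H) x y, R (g • x) (g • y) ↔ R x y) ∧ (∀ y, R a y ↔ y ∈ orbit (stabilizer H a) b) ∧
      c ≠ a ∧ ¬ R a c := by
  classical
  let R : Ω → Ω → Prop := fun x y => ∃ g : H, g • a = x ∧ g • b = y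
  have hR : ∀ (g : H) x y, R (g • x) (g • y) ↔ R x y := fun g x y =>
    ⟨fun ⟨k, h1, h2⟩ => ⟨g⁻¹ * k, by rw [mul_smul, h1, inv_smul_smul],
      by rw [mul_smul, h2, inv_smul_smul]⟩, fun ⟨k, h1, h2⟩ => ⟨g * k, by rw [mul_smul, h1],
      by rw [mul_smul, h2]⟩⟩
  have hRa : ∀ y, R a y ↔ y ∈ orbit (stabilizer H a) b := fun y =>
    ⟨fun ⟨k, h1, h2⟩ => ⟨⟨k, h1⟩, h2⟩, fun ⟨k, h⟩ => ⟨k.1, k.2, h⟩⟩
  have himg : ∀ (g : H) (P Q : Ω → Prop), (∀ x, Q (g • x) ↔ P x) → {x | Q x}.ncard = {x | P x}.ncard :=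
    fun g P Q h => ncard_smul_congr g h
  have hna : ∀ y, (orbit (stabilizer H a) y).ncard ≠ 1 → a ∉ orbit (stabilizer H a) y :=
    fun y h h' => h (by
      rw [← orbit_eq_iff.mpr h', Set.ncard_eq_one]
      exact ⟨a, Set.eq_singleton_iff_unique_mem.mpr ⟨mem_orbit_self a, by
        rintro _ ⟨k, rfl⟩; exact k.2⟩⟩)
  have ha1 := hna b (by omega)
  have ha2 := hna c (by omega)
  have hbc : Disjoint (orbit (stabilizer H a) b) (orbit (stabilizer H a) c) := by
    rw [Set.disjoint_left]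
    intro x h1 h2
    rw [← orbit_eq_iff.mpr h1, orbit_eq_iff.mpr h2] at hb
    omega
  have hall : ∀ y, y = a ∨ y ∈ orbit (stabilizer H a) b ∨ y ∈ orbit (stabilizer H a) c := by
    have : insert a (orbit (stabilizer H a) b ∪ orbit (stabilizer H a) c) = Set.univ := by
      apply Set.eq_of_subset_of_ncard_le (Set.subset_univ _)
      rw [Set.ncard_insert_of_notMem (by simp [ha1, ha2]), Set.ncard_union_eq hbc, hb, hc,
        Set.ncard_univ, Nat.card_eq_fintype_card, hΩ]
    intro y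
    have h : y ∈ insert a (orbit (stabilizer H a) b ∪ orbit (stabilizer H a) c) := this ▸ trivial
    exact h
  have hout : ∀ x, {y | R x y}.ncard = 1755 := fun x => by
    obtain ⟨g, rfl⟩ := exists_smul_eq H a x
    rw [himg g (R a) _ (hR g a), ← hb]
    congr 1; ext y; exact hRa y
  have hin : {x | R x a}.ncard = 1755 := by
    have h1 := card_mul_eq_card_mul R (s := univ) (t := univ) (m := 1755) (n := {x | R x a}.ncard)
      (fun x _ => by rw [← hout x, ← Set.ncard_coe_finset]; congr 1; ext; simp [bipartiteAbove])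
      (fun y _ => by
        obtain ⟨g, rfl⟩ := exists_smul_eq H a y
        rw [← himg g (fun x => R x a) (fun x => R x (g • a)) (fun x => hR g x a),
          ← Set.ncard_coe_finset]
        congr 1; ext; simp [bipartiteBelow])
    rw [card_univ, hΩ] at h1
    omega
  have hirr : ∀ x, ¬ R x x := fun x h => by
    obtain ⟨g, rfl⟩ := exists_smul_eq H a x
    exact ha1 ((hRa a).mp ((hR g a a).mp h))
  have hba : R b a := by
    have h1 : {x | R x a} ⊆ orbit (stabilizer H a) b := fun x hx => by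
      rcases hall x with rfl | h | h
      · exact absurd hx (hirr _)
      · exact h
      · exfalso
        have h2 : orbit (stabilizer H a) c ⊆ {x | R x a} := by
          rw [← orbit_eq_iff.mpr h]
          rintro _ ⟨k, rfl⟩
          have := (hR k.1 x a).mpr hx
          rwa [k.2] at this
        have := Set.ncard_le_ncard h2
        omega
    have := Set.eq_of_subset_of_ncard_le h1 (by omega)
    have h2 : b ∈ {x | R x a} := this ▸ mem_orbit_self b
    exact h2
  have hsym : ∀ x y, R x y → R y x := by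
    rintro _ _ ⟨g, rfl, rfl⟩; exact (hR g b a).mpr hba
  refine ⟨R, {x | R a x ∧ R b x}.ncard, {x | R a x ∧ R c x}.ncard, ⟨hsym, hirr, hout, ?_,
    fun v w h h' => ?_⟩, hR, hRa, fun h => ha2 (h ▸ mem_orbit_self c), fun h =>
      Set.disjoint_left.1 hbc ((hRa c).1 h) (mem_orbit_self c)⟩
  · rintro _ _ ⟨g, rfl, rfl⟩
    exact himg g _ _ fun x => and_congr (hR g a x) (hR g b x)
  · obtain ⟨g, rfl⟩ := exists_smul_eq H a v
    obtain ⟨w, rfl⟩ := MulAction.surjective g w
    rcases hall w with rfl | h1 | ⟨k, rfl⟩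
    · exact absurd rfl h
    · exact absurd ((hR g a w).mpr ((hRa w).mpr h1)) h'
    · refine himg (g * k.1) _ _ fun x => and_congr ?_ ?_
      · have := hR (g * k.1) a x
        rwa [mul_smul g k.1 a, k.2] at this
      · have := hR (g * k.1) c x
        rwa [mul_smul g k.1 c] at this

variable {Ω : Type*} [Fintype Ω] {R : Ω → Ω → Prop} {l m : ℕ}

theorem Srg.param (h : Srg R l m) (hΩ : Fintype.card Ω = 4060) : 1755 * (1754 - l) = 2304 * m := by
  classical
  let Γ : SimpleGraph Ω := ⟨R, ⟨h.sy⟩, ⟨h.ir⟩⟩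
  have e : ∀ s : Set Ω, Fintype.card s = s.ncard := fun s => by
    rw [← Nat.card_eq_fintype_card, Nat.card_coe_set_eq]
  have : Γ.IsSRGWith 4060 1755 l m := ⟨hΩ, fun v => by
      rw [← SimpleGraph.card_neighborSet_eq_degree, ← h.val v]; convert e _; rfl,
    fun v w a => by rw [← h.la v w a]; convert e _; rfl,
    fun v w a b => by rw [← h.mu v w a b]; convert e _; rfl⟩
  have := this.param_eq Γ (by norm_num)
  omega

theorem Srg.lt (h : Srg R l m) (hΩ : Fintype.card Ω = 4060) : l < 1754 := by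
  classical
  by_contra hl
  let N : Ω → Set Ω := fun x => insert x {y | R x y}
  have c1 : ∀ x, (N x).ncard = 1756 := fun x => by
    rw [Set.ncard_insert_of_notMem (s := {y | R x y}) (h.ir x), h.val]
  have c2 : ∀ x y, y ∈ N x → N x = N y := fun x y hy => by
    rcases hy with rfl | hy
    · rfl
    · have e1 : insert y {z | R x z ∧ R y z} = {z | R x z} := Set.eq_of_subset_of_ncard_le
        (Set.insert_subset hy fun z hz => hz.1) (by
          rw [Set.ncard_insert_of_notMem (fun a => h.ir y a.2), h.val, h.la x y hy]; omega)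
      refine Set.eq_of_subset_of_ncard_le (Set.insert_subset (Or.inr (h.sy _ _ hy)) ?_)
        (by rw [c1, c1])
      rw [← e1]
      exact Set.insert_subset (Or.inl rfl) fun z hz => Or.inr hz.2
  have c3 : ∀ x y, y ∉ N x → Disjoint (N x) (N y) := fun x y hy => Set.disjoint_left.2
    fun z a b => hy (by rw [c2 x z a, ← c2 y z b]; exact Or.inl rfl)
  have c4 : ∀ s : Set Ω, s.ncard < 4060 → ∃ y, y ∉ s := fun s hs => by
    by_contra hc
    push Not at hc
    rw [Set.eq_univ_of_forall hc, Set.ncard_univ, Nat.card_eq_fintype_card] at hs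
    omega
  obtain ⟨x, -⟩ := c4 ∅ (by simp)
  obtain ⟨y, hy⟩ := c4 (N x) (by rw [c1]; norm_num)
  have c5 := Set.ncard_union_eq (c3 x y hy)
  rw [c1, c1] at c5
  obtain ⟨z, hz⟩ := c4 (N x ∪ N y) (by omega)
  have c6 := Set.ncard_union_eq (Set.disjoint_union_left.2
    ⟨c3 x z fun a => hz (Or.inl a), c3 y z fun a => hz (Or.inr a)⟩)
  have c7 := Set.ncard_le_card (N x ∪ N y ∪ N z)
  rw [c6, c5, c1, Nat.card_eq_fintype_card] at c7
  omega

theorem conjp {H : Type*} [Group H] [Finite H] {p m : ℕ} (hp : p.Prime) (hH : Nat.card H = p * m)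
    (hm : ¬ p ∣ m) {K : Subgroup H} (hK : p ∣ Nat.card K) {s : H} (hs : orderOf s = p) :
    ∃ u : H, u⁻¹ * s * u ∈ K := by
  haveI : Fact p.Prime := ⟨hp⟩
  obtain ⟨t, ht⟩ := exists_prime_orderOf_dvd_card' p hK
  have c : ∀ x : H, orderOf x = p → ∃ P : Sylow p H, (P : Subgroup H) = Subgroup.zpowers x :=
    fun x hx => ⟨Sylow.ofCard (Subgroup.zpowers x) (by
      rw [Nat.card_zpowers, hx, hH, Nat.factorization_mul hp.ne_zero (by rintro rfl; simp at hm)]
      simp [Nat.factorization_eq_zero_of_not_dvd hm, hp.factorization_self]), rfl⟩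
  obtain ⟨P, hP⟩ := c t (by rw [Subgroup.orderOf_coe, ht])
  obtain ⟨Q, hQ⟩ := c s hs
  obtain ⟨u, hu⟩ := exists_smul_eq H P Q
  have : s ∈ (u • P : Sylow p H) := by
    rw [hu]; show s ∈ (Q : Subgroup H); rw [hQ]; exact Subgroup.mem_zpowers s
  refine ⟨u, (Subgroup.zpowers_le.2 t.2 : Subgroup.zpowers (t : H) ≤ K) ?_⟩
  rw [← hP]
  simpa [MulAut.smul_def] using (Subgroup.mem_pointwise_smul_iff_inv_smul_mem.1 this)

/-- extension of a homomorphism from a subgroup of index two -/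
theorem ext2 {G R : Type*} [Group G] [Group R] {C : Subgroup G} (hC : C.index = 2) (φ : C →* R)
    {x : G} (hx : x ∉ C) {y : R} (h1 : ∀ c d : C, x * c = d * x → y * φ c = φ d * y)
    (h2 : ∀ c : C, x * x = c → y * y = φ c) : ∃ ψ : G →* R, (∀ c : C, ψ c = φ c) ∧ ψ x = y := by
  classical
  have hn := Subgroup.normal_of_index_eq_two hC
  have m : ∀ {a b : G}, a * b ∈ C ↔ (a ∈ C ↔ b ∈ C) := Subgroup.mul_mem_iff_of_index_two hC
  have m1 : ∀ {a : G}, a ∉ C → a * x⁻¹ ∈ C := fun h => m.2 (by simp [h, hx])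
  have m2 : x * x ∈ C := m.2 Iff.rfl
  let f : G → R := fun a => if h : a ∈ C then φ ⟨a, h⟩ else φ ⟨a * x⁻¹, m1 h⟩ * y
  have f1 : ∀ c : C, f c = φ c := fun c => dif_pos c.2
  have f2 : ∀ c : C, f (c * x) = φ c * y := fun c => by
    have : (c : G) * x ∉ C := fun h => hx ((m.1 h).1 c.2)
    simp only [f, dif_neg this, mul_inv_cancel_right]
  have cs : ∀ a : G, (∃ c : C, a = c) ∨ ∃ c : C, a = c * x := fun a => by
    by_cases h : a ∈ C
    · exact Or.inl ⟨⟨a, h⟩, rfl⟩
    · exact Or.inr ⟨⟨_, m1 h⟩, by simp⟩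
  have cj : ∀ c : C, ∃ d : C, x * c = d * x := fun c => ⟨⟨_, hn.conj_mem _ c.2 x⟩, by simp⟩
  refine ⟨MonoidHom.mk' f fun a b => ?_, f1, by simpa using f2 1⟩
  rcases cs a with ⟨a, rfl⟩ | ⟨a, rfl⟩ <;> rcases cs b with ⟨b, rfl⟩ | ⟨b, rfl⟩
  · rw [f1, f1, ← map_mul, ← f1]; rfl
  · rw [f1, f2, ← mul_assoc, ← mul_assoc, ← map_mul, ← f2]; rfl
  · obtain ⟨d, e⟩ := cj b
    rw [f1, f2, mul_assoc, e, mul_assoc, h1 b d e, ← mul_assoc, ← mul_assoc, ← map_mul, ← f2]; rfl
  · obtain ⟨d, e⟩ := cj b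
    rw [f2, f2, mul_assoc (φ a), ← mul_assoc y, h1 b d e, mul_assoc (φ d), h2 ⟨_, m2⟩ rfl, ← map_mul,
      ← map_mul, ← f1, mul_assoc (a : G), ← mul_assoc x, e, mul_assoc (d : G)]; rfl

/-- an element of order `13` normalised by an element of order `4` -/
theorem frob {G : Type*} [Group G] [Finite G] {K : Subgroup G} (hK : Nat.card K = 15600) {s : G}
    (hs : orderOf s = 13) (hsK : s ∈ K) (hC : ∀ c ∈ K, c * s = s * c → c ∈ Subgroup.zpowers s) :
    ∃ n ∈ K, s * n = n * s ^ 5 := by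
  classical
  haveI : Fact (Nat.Prime 13) := ⟨by norm_num⟩
  haveI : Fact (Nat.Prime 2) := ⟨by norm_num⟩
  let s' : K := ⟨s, hsK⟩
  have hs' : orderOf s' = 13 := (Subgroup.orderOf_coe s').symm.trans hs
  let P : Sylow 13 K := Sylow.ofCard (Subgroup.zpowers s') (by
    rw [Nat.card_zpowers, hs', hK, show 15600 = 13 * 1200 from rfl,
      Nat.factorization_mul (by norm_num) (by norm_num)]
    simp [Nat.factorization_eq_zero_of_not_dvd (show ¬ 13 ∣ 1200 by norm_num),
      Nat.Prime.factorization_self (show Nat.Prime 13 by norm_num)])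
  let N := Subgroup.normalizer ((P : Subgroup K) : Set K)
  have a1 : ∀ n ∈ N, ∃ k < 13, s' * n = n * s' ^ k := fun n hn => by
    have : n⁻¹ * s' * n⁻¹⁻¹ ∈ Subgroup.zpowers s' :=
      (Subgroup.mem_normalizer_iff.1 (N.inv_mem hn) s').1 (Subgroup.mem_zpowers s')
    obtain ⟨k, hk, e⟩ := Finset.mem_image.1 (mem_zpowers_iff_mem_range_orderOf.1 this)
    exact ⟨k, hs' ▸ mem_range.1 hk, by rw [e]; group⟩
  have a2 : ∀ n m : K, ∀ k, s' * n = n * s' ^ k → s' * m = m * s' ^ k → n * m⁻¹ ∈ Subgroup.zpowers s' :=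
    fun n m k h1 h2 => by
      have e : n * m⁻¹ * s' = s' * (n * m⁻¹) := by
        rw [← mul_assoc, h1, mul_assoc, mul_assoc, eq_comm, mul_right_inj, mul_inv_eq_iff_eq_mul,
          mul_assoc, h2, inv_mul_cancel_left]
      obtain ⟨z, hz⟩ := hC _ (n * m⁻¹).2 (congrArg Subtype.val e)
      exact ⟨z, Subtype.ext hz⟩
  have a3 : Nat.card N ≤ 13 * 13 := by
    choose k hk e using a1
    choose r hr using fun j : Fin 13 => show ∃ r : K, ∀ n : N, k n n.2 = j → s' * r = r * s' ^ j.val by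
      by_cases h : ∃ n : N, k n n.2 = j
      · obtain ⟨n, h⟩ := h; exact ⟨n, fun _ _ => h ▸ e n n.2⟩
      · exact ⟨1, fun n hn => absurd ⟨n, hn⟩ h⟩
    have := Nat.card_le_card_of_injective (fun n : N => ((⟨k n n.2, hk n n.2⟩, ⟨n * (r ⟨_, hk n n.2⟩)⁻¹,
      a2 _ _ _ (e n n.2) (hr _ n rfl)⟩) : Fin 13 × Subgroup.zpowers s')) fun n m h => by
        have h1 := congrArg Prod.fst h
        have h2 := congrArg (fun z => z.2.1) h
        simp only at h1 h2
        rw [h1] at h2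
        exact Subtype.ext (mul_right_cancel h2)
    rwa [Nat.card_prod, Nat.card_fin, Nat.card_zpowers, hs'] at this
  have a4 := card_sylow_modEq_one 13 K
  rw [P.card_eq_index_normalizer] at a4
  have a5 := N.card_mul_index
  obtain ⟨d, a6⟩ : 13 ∣ Nat.card N := by
    have := Subgroup.card_dvd_of_le (Subgroup.le_normalizer : (P : Subgroup K) ≤ N)
    rwa [show Nat.card (P : Subgroup K) = 13 from (Nat.card_zpowers s').trans hs'] at this
  have a7 : d = 4 := by
    rw [hK, a6] at a5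
    change N.index % 13 = 1 % 13 at a4
    have : d ≤ 13 := by omega
    interval_cases d <;> omega
  obtain ⟨S, hS⟩ := Sylow.exists_subgroup_card_pow_prime (G := N) 2 (n := 2) (by rw [a6, a7]; norm_num)
  by_contra hc
  have b1 : ∀ n : S, n ≠ 1 → s' * n.1.1 = n.1.1 * s' ^ 12 := fun n hn => by
    obtain ⟨k, hk, e⟩ := a1 n.1.1 n.1.2
    have c0 : (n.1.1 : K) ^ 4 = 1 := by
      have := pow_card_eq_one' (x := n)
      rw [hS] at this
      exact congrArg (fun z : S => z.1.1) this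
    have c1 : ∀ i j, s' ^ i * n.1.1 ^ j = n.1.1 ^ j * s' ^ (k ^ j * i) := fun i j => by
      have d1 : ∀ i, s' ^ i * n.1.1 = n.1.1 * s' ^ (k * i) := fun i => by
        rw [pow_mul]; exact (SemiconjBy.pow_right (a := n.1.1) e.symm i).symm
      induction j with
      | zero => simp
      | succ j ih => rw [pow_succ, ← mul_assoc, ih, mul_assoc, d1, ← mul_assoc, pow_succ k]; congr 2; ring
    have c2 := c1 1 4
    rw [c0, mul_one, one_mul, pow_eq_pow_iff_modEq, hs'] at c2
    have c3 : k = 1 ∨ k = 5 ∨ k = 8 ∨ k = 12 := by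
      unfold Nat.ModEq at c2; interval_cases k <;> simp at c2 ⊢
    rcases c3 with rfl | rfl | rfl | rfl
    · have := orderOf_dvd_natCard (⟨_, a2 _ 1 1 e (by simp)⟩ : Subgroup.zpowers s')
      rw [Nat.card_zpowers, hs', ← Subgroup.orderOf_coe] at this
      have h4 := orderOf_dvd_of_pow_eq_one c0
      simp only [inv_one, mul_one] at this
      exact absurd (Subtype.ext (Subtype.ext (orderOf_eq_one_iff.1 (Nat.eq_one_of_dvd_coprimes
        (by norm_num : Nat.Coprime 13 4) this h4)))) hn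
    · exact absurd ⟨_, n.1.1.2, congrArg Subtype.val e⟩ hc
    · have := c1 1 3
      rw [pow_one, show 8 ^ 3 * 1 = 13 * 39 + 5 by norm_num, pow_add, pow_mul, ← hs', pow_orderOf_eq_one,
        one_pow, one_mul] at this
      exact absurd ⟨_, (n.1.1 ^ 3).2, congrArg Subtype.val this⟩ hc
    · exact e
  have b2 : ∀ n m : S, n ≠ 1 → m ≠ 1 → n = m := fun n m hn hm => by
    have := orderOf_dvd_natCard (⟨_, a2 _ _ _ (b1 n hn) (b1 m hm)⟩ : Subgroup.zpowers s')
    rw [Nat.card_zpowers, hs', ← Subgroup.orderOf_coe] at this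
    have h4 := orderOf_dvd_natCard (n * m⁻¹)
    rw [hS, ← Subgroup.orderOf_coe, ← Subgroup.orderOf_coe] at h4
    exact mul_inv_eq_one.1 (Subtype.ext (Subtype.ext (orderOf_eq_one_iff.1 (Nat.eq_one_of_dvd_coprimes
      (by norm_num : Nat.Coprime 13 (2 ^ 2)) this h4))))
  classical
  have := Nat.card_le_card_of_injective (fun n : S => decide (n = 1)) fun n m h => by
    by_cases h1 : n = 1 <;> by_cases h2 : m = 1
    · rw [h1, h2]
    · simp [h1, h2] at h
    · simp [h1, h2] at h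
    · exact b2 n m h1 h2
  rw [hS] at this
  simp at this

theorem two_elt {G : Type*} [Group G] [Finite G] {K : Subgroup G} (hK : 8 ∣ Nat.card K) {t : G}
    (ht : orderOf t = 4) (htK : t ∈ K) : ∃ u ∈ K, u ∉ Subgroup.zpowers t ∧
      u * u ∈ Subgroup.zpowers t ∧ (t * u = u * t ∨ t * u = u * t ^ 3) := by
  haveI : Fact (Nat.Prime 2) := ⟨by norm_num⟩
  let t' : K := ⟨t, htK⟩
  have ht' : orderOf t' = 4 := (Subgroup.orderOf_coe t').symm.trans ht
  obtain ⟨U, h1, h2⟩ := Sylow.exists_subgroup_card_pow_succ (p := 2) (n := 2) hK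
    (H := Subgroup.zpowers t') (by rw [Nat.card_zpowers, ht']; rfl)
  have h3 : ((Subgroup.zpowers t').subgroupOf U).index = 2 := by
    have := ((Subgroup.zpowers t').subgroupOf U).card_mul_index
    rw [Nat.card_congr (Subgroup.subgroupOfEquivOfLe h2).toEquiv, Nat.card_zpowers, ht', h1] at this
    omega
  have up : ∀ x : K, x ∈ Subgroup.zpowers t' ↔ x.1 ∈ Subgroup.zpowers t := fun x =>
    ⟨fun ⟨z, e⟩ => ⟨z, congrArg Subtype.val e⟩, fun ⟨z, e⟩ => ⟨z, Subtype.ext e⟩⟩
  obtain ⟨u, hu⟩ : ∃ u : U, u ∉ (Subgroup.zpowers t').subgroupOf U := by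
    by_contra hc
    push Not at hc
    rw [(Subgroup.eq_top_iff' _).2 hc] at h3
    simp at h3
  refine ⟨u.1.1, u.1.2, fun h => hu ((up _).2 h),
    (up _).1 (Subgroup.mul_self_mem_of_index_two h3 u), ?_⟩
  have h4 : (u.1.1 : G)⁻¹ * t * u.1.1 ∈ Subgroup.zpowers t := (up _).1
    ((Subgroup.normal_of_index_eq_two h3).conj_mem' ⟨t', h2 (Subgroup.mem_zpowers _)⟩
      (Subgroup.mem_zpowers t') u)
  classical
  obtain ⟨k, hk, e⟩ := Finset.mem_image.1 (mem_zpowers_iff_mem_range_orderOf.1 h4)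
  have h5 : orderOf (t ^ k) = 4 := by
    rw [e, ← ht]; simpa using (MulAut.conj (u.1.1 : G)⁻¹).orderOf_eq t
  have h6 : t * u.1.1 = u.1.1 * t ^ k := by rw [e]; group
  rw [ht, mem_range] at hk
  rw [orderOf_pow, ht] at h5
  interval_cases k
  · simp at h5
  · exact Or.inl (by simpa using h6)
  · simp at h5
  · exact Or.inr h6

end Cfsg.Agent.H7.Rv
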