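import Mathlib
import Cfsg.Agent.H7.Cub1

/-!
The isometry group of the cubic form in 27 variables is generated by root elements.
-/

set_option autoImplicit false
set_option maxRecDepth 100000

namespace Cfsg.Agent.H7.Cub

open Cfsg.Lie Cfsg.Agent.H12 Matrix

variable {F : Type*} [Field F]

theorem mem_iff {g : GL I27 F} : g ∈ E6univ F ↔ ∀ v, cubicT (g.1 *ᵥ v) = cubicT v := Iff.rfl

/-- lookup -/
def lk : List (I27 × I27 × ℤ) → I27 → I27 × ℤ :=
  List.rec (fun a => (a, 0)) fun x _ ih a => if x.1 = a then x.2 else ih a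

/-- the simple root elements and their negatives -/
def sim : List (ℕ × List (I27 × I27 × ℤ)) :=
  [(56, [((0, 0, 0), (0, 1, 0), 1), ((0, 0, 1), (0, 1, 1), 1), ((0, 0, 2), (0, 1, 2), 1), ((2, 0, 1), (2, 0, 0), -1), ((2, 1, 1), (2, 1, 0), -1), ((2, 2, 1), (2, 2, 0), -1)]),
    (46, [((1, 0, 2), (1, 0, 1), 1), ((1, 1, 2), (1, 1, 1), 1), ((1, 2, 2), (1, 2, 1), 1), ((2, 1, 0), (2, 2, 0), -1), ((2, 1, 1), (2, 2, 1), -1), ((2, 1, 2), (2, 2, 2), -1)]),
    (42, [((0, 1, 0), (0, 2, 0), 1), ((0, 1, 1), (0, 2, 1), 1), ((0, 1, 2), (0, 2, 2), 1), ((2, 0, 2), (2, 0, 1), -1), ((2, 1, 2), (2, 1, 1), -1), ((2, 2, 2), (2, 2, 1), -1)]),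
    (39, [((0, 2, 0), (1, 1, 2), 1), ((0, 2, 1), (1, 0, 2), -1), ((1, 2, 0), (2, 1, 2), 1), ((1, 2, 1), (2, 0, 2), -1), ((2, 2, 0), (0, 1, 2), 1), ((2, 2, 1), (0, 0, 2), -1)]),
    (37, [((0, 0, 2), (0, 0, 1), 1), ((0, 1, 2), (0, 1, 1), 1), ((0, 2, 2), (0, 2, 1), 1), ((1, 1, 0), (1, 2, 0), -1), ((1, 1, 1), (1, 2, 1), -1), ((1, 1, 2), (1, 2, 2), -1)]),
    (36, [((0, 0, 1), (0, 0, 0), 1), ((0, 1, 1), (0, 1, 0), 1), ((0, 2, 1), (0, 2, 0), 1), ((1, 0, 0), (1, 1, 0), -1), ((1, 0, 1), (1, 1, 1), -1), ((1, 0, 2), (1, 1, 2), -1)]),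
    (15, [((0, 1, 0), (0, 0, 0), 1), ((0, 1, 1), (0, 0, 1), 1), ((0, 1, 2), (0, 0, 2), 1), ((2, 0, 0), (2, 0, 1), -1), ((2, 1, 0), (2, 1, 1), -1), ((2, 2, 0), (2, 2, 1), -1)]),
    (25, [((1, 0, 1), (1, 0, 2), 1), ((1, 1, 1), (1, 1, 2), 1), ((1, 2, 1), (1, 2, 2), 1), ((2, 2, 0), (2, 1, 0), -1), ((2, 2, 1), (2, 1, 1), -1), ((2, 2, 2), (2, 1, 2), -1)]),
    (29, [((0, 2, 0), (0, 1, 0), 1), ((0, 2, 1), (0, 1, 1), 1), ((0, 2, 2), (0, 1, 2), 1), ((2, 0, 1), (2, 0, 2), -1), ((2, 1, 1), (2, 1, 2), -1), ((2, 2, 1), (2, 2, 2), -1)]),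
    (32, [((0, 0, 2), (2, 2, 1), -1), ((0, 1, 2), (2, 2, 0), 1), ((1, 0, 2), (0, 2, 1), -1), ((1, 1, 2), (0, 2, 0), 1), ((2, 0, 2), (1, 2, 1), -1), ((2, 1, 2), (1, 2, 0), 1)]),
    (34, [((0, 0, 1), (0, 0, 2), 1), ((0, 1, 1), (0, 1, 2), 1), ((0, 2, 1), (0, 2, 2), 1), ((1, 2, 0), (1, 1, 0), -1), ((1, 2, 1), (1, 1, 1), -1), ((1, 2, 2), (1, 1, 2), -1)]),
    (35, [((0, 0, 0), (0, 0, 1), 1), ((0, 1, 0), (0, 1, 1), 1), ((0, 2, 0), (0, 2, 1), 1), ((1, 1, 0), (1, 0, 0), -1), ((1, 1, 1), (1, 0, 1), -1), ((1, 1, 2), (1, 0, 2), -1)])]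

theorem X_mem_simple (r : Fin chevE6.nroots) (hr : r.1 ∈ sim.map Prod.fst) (t : F) :
    X r t ∈ E6univ F := mem_iff.2 fun v => by
  obtain ⟨x, hx, e⟩ := List.mem_map.1 hr
  have h := (show ∀ x ∈ sim, ∀ a, src x.1 a = (lk x.2 a).1 ∧ sg x.1 a = (lk x.2 a).2 by
    decide +kernel) x hx
  simp only [cubicT, mat3, det_fin_three, trace, diag, mul_apply, Fin.sum_univ_three, of_apply,
    X_mulVec, ← e, h]
  simp only [sim, List.mem_cons, List.not_mem_nil, or_false] at hx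
  rcases hx with rfl | rfl | rfl | rfl | rfl | rfl | rfl | rfl | rfl | rfl | rfl | rfl <;>
    simp [lk] <;> ring

theorem X_mem (r : Fin chevE6.nroots) (t : F) : X r t ∈ E6univ F := by
  have h : ∀ i, ((rsOf chevE6).simple i).1 ∈ sim.map Prod.fst ∧
    ((rsOf chevE6).neg ((rsOf chevE6).simple i)).1 ∈ sim.map Prod.fst := by decide +kernel
  induction r using (rsOf chevE6).root_induction generalizing t with
  | simple i => exact X_mem_simple _ (h i).1 t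
  | step i r ih =>
    have h1 := (chev_nc (st F)).m_conj_x i r ((cdOf chevE6).eta i r * t)
    have h2 : (st F).n ((rsOf chevE6).simple i) 1 ∈ E6univ F := mul_mem (mul_mem
      (X_mem_simple _ (h i).1 _) (X_mem_simple _ (h i).2 _)) (X_mem_simple _ (h i).1 _)
    rw [← mul_assoc (_ : F), CD.eta_sq, one_mul] at h1
    exact (show _ = X _ t from h1) ▸ mul_mem (mul_mem h2 (ih _)) (inv_mem h2)

/-- the five monomials of the adjoint -/
def star (k : I27) : List (I27 × I27 × ℤ) :=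
  [((k.1, k.2.1 + 1, k.2.2 + 1), (k.1, k.2.1 + 2, k.2.2 + 2), 1),
    ((k.1, k.2.1 + 1, k.2.2 + 2), (k.1, k.2.1 + 2, k.2.2 + 1), -1),
    ((k.1 + 1, k.2.2, 0), (k.1 + 2, 0, k.2.1), -1), ((k.1 + 1, k.2.2, 1), (k.1 + 2, 1, k.2.1), -1),
    ((k.1 + 1, k.2.2, 2), (k.1 + 2, 2, k.2.1), -1)]

/-- the bilinear map whose diagonal is the adjoint -/
def M (k : I27) (x y : I27 → F) : F := ((star k).map fun t => t.2.2 * (x t.1 * y t.2.1)).sum

theorem cubicT_add (x y : I27 → F) (s : F) : cubicT (x + s • y) = cubicT x +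
    s * (∑ k, y k * M k x x) + s ^ 2 * (∑ k, x k * M k y y) + s ^ 3 * cubicT y := by
  simp [cubicT, mat3, det_fin_three, trace, mul_apply, Fin.sum_univ_three, Fintype.sum_prod_type,
    M, star]
  ring

/-- the polar form of the adjoint -/
def B (k : I27) (x y : I27 → F) : F := M k x y + M k y x

theorem M_add (k : I27) (x y : I27 → F) : M k (x + y) (x + y) = M k x x + B k x y + M k y y := by
  simp [B, M, star]; ring

/-- third point on a line -/
def th (k a : I27) : I27 × ℤ := lk (star k ++ (star k).map fun t => (t.2.1, t.1, t.2.2)) a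

/-- basis vectors -/
abbrev e (a : I27) : I27 → F := Pi.single a 1

theorem sum_lk (a : I27) (w : I27 → F) (L : List (I27 × I27 × ℤ)) (h : (L.map Prod.fst).Nodup) :
    (L.map fun t => (t.2.2 : F) * (e a t.1 * w t.2.1)).sum = (lk L a).2 * w (lk L a).1 := by
  induction L with
  | nil => simp [lk]
  | cons x l ih =>
    rw [List.map_cons, List.nodup_cons] at h
    rw [List.map_cons, List.sum_cons]
    change _ = ((if x.1 = a then x.2 else lk l a).2 : F) * w (if x.1 = a then x.2 else lk l a).1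
    split_ifs with h1
    · rw [List.sum_eq_zero, h1]
      · simp
      · simp only [List.mem_map]
        rintro _ ⟨y, hy, rfl⟩
        rw [e, Pi.single_eq_of_ne fun h2 => h.1 (List.mem_map.2 ⟨y, hy, h2.trans h1.symm⟩)]
        simp
    · rw [ih h.2, e, Pi.single_eq_of_ne h1]; simp

theorem B_e (k a : I27) (w : I27 → F) : B k (e a) w = (th k a).2 * w (th k a).1 := by
  rw [th, ← sum_lk _ _ _ (by revert k; decide +kernel)]
  simp [B, M, Function.comp_def, mul_comm]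

/-- collinearity -/
def adj (a b : I27) : Prop := (a.1 = b.1 ∧ a.2.1 ≠ b.2.1 ∧ a.2.2 ≠ b.2.2) ∨
  (b.1 = a.1 + 1 ∧ b.2.1 = a.2.2) ∨ (a.1 = b.1 + 1 ∧ a.2.1 = b.2.2)

instance (a b : I27) : Decidable (adj a b) := by unfold adj; infer_instance

theorem adj_symm {a b : I27} (h : adj a b) : adj b a := by unfold adj at *; tauto

theorem th_spec : ∀ k a, (th k a).2 = 0 ∨ (th k a).2 * (th k a).2 = 1 ∧ adj a (th k a).1 ∧
    ∀ j, j = k ∨ (th j a).2 = 0 ∨ (th j a).1 ≠ (th k a).1 := by decide +kernel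

theorem exists_th : ∀ a l, adj a l → ∃ k, (th k a).1 = l ∧ (th k a).2 ≠ 0 ∧
    ∀ t ∈ star k, ¬ adj a t.1 ∨ ¬ adj a t.2.1 := by decide +kernel

theorem th_ne {k a : I27} (h : (th k a).2 ≠ 0) : ((th k a).2 : F) ≠ 0 := fun e => by
  have := congrArg (Int.cast : ℤ → F) ((th_spec k a).resolve_left h).1
  simp [e] at this

theorem M_e (k b : I27) : M k (e b) (e b : I27 → F) = 0 := List.sum_eq_zero fun y hy => by
  obtain ⟨t, ht, rfl⟩ := List.mem_map.1 hy
  have := (show ∀ k, ∀ t ∈ star k, t.1 ≠ t.2.1 by decide +kernel) k t ht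
  by_cases h : t.1 = b
  · rw [e, Pi.single_eq_of_ne (i' := t.2.1) (h ▸ this.symm)]; simp
  · rw [e, Pi.single_eq_of_ne h]; simp

theorem final {b : I27} {w : I27 → F} (h : ∀ k, M k w w = 0) (h1 : w b = 1)
    (h2 : ∀ m, m ≠ b → ¬ adj b m → w m = 0) : w = e b := by
  have h3 : ∀ m, ¬ adj b m → (w - e b : I27 → F) m = 0 := fun m hm => by
    by_cases e : m = b
    · simp [e, h1]
    · simp [e, h2 m e hm]
  refine sub_eq_zero.1 (funext fun m => by_contra fun hm => ?_)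
  obtain ⟨k, rfl, h4, h5⟩ := exists_th b m (by_contra fun e => hm (h3 m e))
  have h6 : M k (w - e b) (w - e b) = 0 := List.sum_eq_zero fun y hy => by
    obtain ⟨t, ht, rfl⟩ := List.mem_map.1 hy
    rcases h5 t ht with h | h <;> rw [h3 _ h] <;> simp
  have := M_add k (e b) (w - e b)
  rw [add_sub_cancel, h, M_e, h6, B_e, zero_add, add_zero] at this
  exact mul_ne_zero (th_ne h4) hm this.symm

theorem zero_of (g : GL I27 F) {f : I27 → F} (h : ∀ z, ∑ k, (g.1 *ᵥ z) k * f k = 0) (k : I27) :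
    f k = 0 := by
  have := h ((g⁻¹).1 *ᵥ e k)
  rw [mulVec_mulVec, Units.mul_inv, one_mulVec] at this
  simpa [Pi.single_apply] using this

section
variable {s : F} (h0 : s ≠ 0) (h1 : s ≠ 1) {g : GL I27 F} (hg : g ∈ E6univ F)
include h0 h1 hg

theorem inv_M (x y : I27 → F) :
    ∑ k, (g.1 *ᵥ y) k * M k (g.1 *ᵥ x) (g.1 *ᵥ x) = ∑ k, y k * M k x x := by
  have h := fun s : F => mem_iff.1 hg (x + s • y)
  simp only [mulVec_add, mulVec_smul, cubicT_add, mem_iff.1 hg] at h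
  refine mul_left_cancel₀ (mul_ne_zero h0 (sub_ne_zero.2 h1)) ?_
  linear_combination s ^ 2 * h 1 - h s

theorem inv_B (x y z : I27 → F) :
    ∑ k, (g.1 *ᵥ z) k * B k (g.1 *ᵥ x) (g.1 *ᵥ y) = ∑ k, z k * B k x y := by
  have := inv_M h0 h1 hg (x + y) z
  simp only [mulVec_add, M_add, mul_add, Finset.sum_add_distrib, inv_M h0 h1 hg] at this
  linear_combination this

theorem white (b k : I27) : M k (g.1 *ᵥ e b) (g.1 *ᵥ e b) = 0 :=
  zero_of g (f := fun k => M k _ _) (fun z => by simp only [inv_M h0 h1 hg, M_e, mul_zero, Finset.sum_const_zero]) k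

theorem zero_adj {a b l : I27} (ha : g.1 *ᵥ e a = e a) (h : ¬ adj a b) (hl : adj a l) :
    (g.1 *ᵥ e b) l = 0 := by
  obtain ⟨k, rfl, h2, -⟩ := exists_th a l hl
  have := zero_of g (f := fun k => B k (g.1 *ᵥ e a) (g.1 *ᵥ e b)) (fun z => by
    rw [inv_B h0 h1 hg]
    refine Finset.sum_eq_zero fun j _ => ?_
    rcases th_spec j a with h3 | h3
    · simp [B_e, h3]
    · rw [B_e, e, Pi.single_eq_of_ne fun e : (th j a).1 = b => h (e ▸ h3.2.1)]; simp) k
  rw [ha, B_e] at this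
  exact (mul_eq_zero.1 this).resolve_left (th_ne h2)

theorem row_one {a b : I27} (ha : g.1 *ᵥ e a = e a) (h : (th b a).2 ≠ 0)
    (ha' : g.1 *ᵥ e (th b a).1 = e (th b a).1) : (g.1 *ᵥ e b) b = 1 := by
  have h2 : ∀ z : I27 → F, ∑ k, z k * B k (e a) (e (th b a).1) = z b * (th b a).2 := fun z => by
    rw [Finset.sum_eq_single b (fun j _ hj => ?_) (by simp), B_e]
    · simp
    · rcases (((th_spec b a).resolve_left h).2.2 j).resolve_left hj with h3 | h3 <;> simp [B_e, h3]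
  have := inv_B h0 h1 hg (e a) (e (th b a).1) (e b)
  rw [ha, ha', h2, h2] at this
  simpa using mul_right_cancel₀ (th_ne h) this

theorem exists_adj {a b : I27} (ha : g.1 *ᵥ e a = e a) (h : adj a b) :
    ∃ l, adj a l ∧ (g.1 *ᵥ e b) l ≠ 0 := by
  by_contra hc
  push Not at hc
  obtain ⟨k, rfl, h2, -⟩ := exists_th a b h
  have := inv_B h0 h1 hg (e a) (e (th k a).1) (e k)
  rw [ha, Finset.sum_eq_zero fun j _ => ?_, Finset.sum_eq_single k (fun j _ hj => by simp [hj])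
    (by simp), B_e] at this
  · simp [(th_ne h2).symm] at this
  · rcases th_spec j a with h3 | h3
    · rw [B_e, h3]; simp
    · rw [B_e, hc _ h3.2.1]; simp

end

theorem exists_out {S : List I27} {g : GL I27 F} (h : ∀ a ∈ S, g.1 *ᵥ e a = e a) {b : I27}
    (hb : b ∉ S) : ∃ l ∉ S, (g.1 *ᵥ e b) l ≠ 0 := by
  by_contra hc
  push Not at hc
  have h1 : g.1 *ᵥ (g.1 *ᵥ e b) = g.1 *ᵥ e b := by
    conv_lhs => rw [pi_eq_sum_univ' (g.1 *ᵥ e b), mulVec_sum]
    conv_rhs => rw [pi_eq_sum_univ' (g.1 *ᵥ e b)]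
    refine Finset.sum_congr rfl fun i _ => ?_
    by_cases hi : i ∈ S
    · rw [mulVec_smul, h i hi]
    · simp [hc i hi]
  have h2 := congrArg ((g⁻¹).1 *ᵥ ·) h1
  simp only [mulVec_mulVec, ← mul_assoc, Units.inv_mul, one_mul, one_mulVec] at h2
  simpa [h2] using hc b hb

/-- admissible moves -/
def Adm (S : List I27) (l m : I27) : Prop :=
  ¬ adj l m ∧ m ≠ l ∧ ∀ a ∈ S, a ≠ l ∧ (adj m a → adj l a)

instance (S : List I27) (l m : I27) : Decidable (Adm S l m) := by unfold Adm; infer_instance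

theorem exists_root : ∀ l m, ¬ adj l m → m ≠ l → ∃ r < 72, src r m = l ∧ sg r m * sg r m = 1 ∧
    ∀ n, sg r n = 0 ∨ (n = m ∨ adj l n) ∧ (src r n = l ∨ adj m (src r n) ∧ ¬ adj l (src r n)) := by
  decide +kernel

variable (F) in
/-- the group generated by the root elements -/
noncomputable def G0 : Subgroup (GL I27 F) := ⨆ r, (st F).U r

theorem G0_le : G0 F ≤ E6univ F := iSup_le fun r => (st F).U_le.2 (X_mem r)

theorem move {S : List I27} {l m : I27} (h : Adm S l m) (t : F) : ∃ x ∈ G0 F,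
    (∀ a ∈ S, x.1 *ᵥ e a = e a) ∧ ∀ w, (x.1 *ᵥ w) m = w m + t * w l ∧
      ∀ n, ¬ adj l n → n ≠ m → (x.1 *ᵥ w) n = w n := by
  obtain ⟨r, hr, h1, h2, h3⟩ := exists_root l m h.1 h.2.1
  refine ⟨X ⟨r, hr⟩ (sg r m * t), le_iSup (st F).U _ ((st F).x_mem_U _ _), fun a ha => funext fun n => ?_,
    fun w => ⟨?_, fun n a b => ?_⟩⟩ <;> rw [X_mulVec]
  · rcases h3 n with h4 | ⟨-, h4⟩
    · simp [h4]
    · rw [e, Pi.single_eq_of_ne (i' := src r n), mul_zero, mul_zero, add_zero]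
      rintro rfl
      exact h4.elim (h.2.2 _ ha).1 fun h4 => h4.2 ((h.2.2 _ ha).2 h4.1)
  · have := congrArg (Int.cast : ℤ → F) h2
    push_cast at this
    rw [h1]
    linear_combination t * w l * this
  · simp [(h3 n).resolve_right fun h4 => h4.1.elim b a]

variable (F) in
/-- the stabiliser of the vectors in `S` is generated by root elements -/
def P (S : List I27) : Prop := ∀ g ∈ E6univ F, (∀ a ∈ S, g.1 *ᵥ e a = e a) → g ∈ G0 F

theorem red {S : List I27} {g x : GL I27 F} (hg : g ∈ E6univ F) (h : ∀ a ∈ S, g.1 *ᵥ e a = e a)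
    (hx : x ∈ G0 F) (h' : ∀ a ∈ S, x.1 *ᵥ e a = e a) (H : x * g ∈ E6univ F →
      (∀ a ∈ S, (x * g).1 *ᵥ e a = e a) → x * g ∈ G0 F) : g ∈ G0 F :=
  (mul_mem_cancel_left hx).1 (H (mul_mem (G0_le hx) hg) fun a ha => by
    rw [Units.val_mul, ← mulVec_mulVec, h a ha, h' a ha])

/-- paths of admissible moves -/
def Path (S : List I27) (b l : I27) : Prop := (∃ a ∈ S, ¬ adj a b ∧ adj a l) ∨ Adm S l b ∨
  ∃ m, Adm S l m ∧ Adm S m b

instance (S : List I27) (b l : I27) : Decidable (Path S b l) := by unfold Path; infer_instance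

/-- the check for one step -/
def Ok (S : List I27) (b : I27) : Prop := b ∉ S ∧ ((∃ a ∈ S, (th b a).2 ≠ 0 ∧ (th b a).1 ∈ S) ∨
  (∀ l ∉ S, Path S b l) ∨ ∃ a ∈ S, adj a b ∧ ∀ l, adj a l → Path S b l)

instance (S : List I27) (b : I27) : Decidable (Ok S b) := by unfold Ok; infer_instance

variable {s : F} (h0 : s ≠ 0) (h1 : s ≠ 1)
include h0 h1

theorem kill {S : List I27} {b : I27} (hP : P F (b :: S)) (hb : b ∉ S) (L : Finset I27) :
    ∀ g ∈ E6univ F, (∀ a ∈ S, g.1 *ᵥ e a = e a) → (g.1 *ᵥ e b) b = 1 →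
      (∀ m ∉ L, m ≠ b → ¬ adj b m → (g.1 *ᵥ e b) m = 0) → g ∈ G0 F := by
  induction L using Finset.induction_on with
  | empty => exact fun g hg h h2 h3 => hP g hg (List.forall_mem_cons.2
      ⟨final (white h0 h1 hg b) h2 fun m => h3 m (by simp), h⟩)
  | insert m L _ ih =>
    intro g hg h h2 h3
    by_cases hA : Adm S b m
    · obtain ⟨x, hx, h4, h5⟩ := move hA (-(g.1 *ᵥ e b) m)
      refine red hg h hx h4 fun a c => ih _ a c ?_ fun n hn h6 h7 => ?_ <;>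
        rw [Units.val_mul, ← mulVec_mulVec]
      · rw [(h5 _).2 b (by unfold adj; simp) hA.2.1.symm, h2]
      · by_cases e : n = m
        · rw [e, (h5 _).1, h2]; ring
        · rw [(h5 _).2 n h7 e, h3 n (by simp [e, hn]) h6 h7]
    · refine ih g hg h h2 fun n hn h6 h7 => by_contra fun h8 => ?_
      obtain rfl : n = m := by_contra fun e => h8 (h3 n (by simp [e, hn]) h6 h7)
      exact hA ⟨h7, h6, fun a ha => ⟨fun e => hb (e ▸ ha), fun h9 => by_contra fun h10 =>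
        h8 (zero_adj h0 h1 hg (h a ha) (fun e => h10 (adj_symm e)) (adj_symm h9))⟩⟩

theorem step {S : List I27} {b : I27} (hP : P F (b :: S)) (h : Ok S b) : P F S := by
  have k1 : ∀ g ∈ E6univ F, (∀ a ∈ S, g.1 *ᵥ e a = e a) → (g.1 *ᵥ e b) b = 1 → g ∈ G0 F :=
    fun g hg h2 h3 => kill h0 h1 hP h.1 Finset.univ g hg h2 h3 (by simp)
  have k2 : ∀ {l m}, Adm S l m → (∀ g ∈ E6univ F, (∀ a ∈ S, g.1 *ᵥ e a = e a) →
      (g.1 *ᵥ e b) m = 1 → g ∈ G0 F) → ∀ g ∈ E6univ F, (∀ a ∈ S, g.1 *ᵥ e a = e a) →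
      (g.1 *ᵥ e b) l ≠ 0 → g ∈ G0 F := fun {l m} hA H g hg h2 h3 => by
    obtain ⟨x, hx, h4, h5⟩ := move hA ((1 - (g.1 *ᵥ e b) m) / (g.1 *ᵥ e b) l)
    refine red hg h2 hx h4 fun a c => H _ a c ?_
    rw [Units.val_mul, ← mulVec_mulVec, (h5 _).1, div_mul_cancel₀ _ h3, add_sub_cancel]
  intro g hg h2
  have k3 : ∀ l, Path S b l → (g.1 *ᵥ e b) l ≠ 0 → g ∈ G0 F := by
    rintro l (⟨a, ha, h3, h4⟩ | h3 | ⟨m, h3, h4⟩) h5
    · exact absurd (zero_adj h0 h1 hg (h2 a ha) h3 h4) h5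
    · exact k2 h3 k1 g hg h2 h5
    · exact k2 h3 (fun g hg h2 h6 => k2 h4 k1 g hg h2 (by simp [h6])) g hg h2 h5
  rcases h.2 with ⟨a, ha, h3, h4⟩ | h3 | ⟨a, ha, h3, h4⟩
  · exact k1 g hg h2 (row_one h0 h1 hg (h2 a ha) h3 (h2 _ h4))
  · obtain ⟨l, h4, h5⟩ := exists_out h2 h.1
    exact k3 l (h3 l h4) h5
  · obtain ⟨l, h5, h6⟩ := exists_adj h0 h1 hg (h2 a ha) h3
    exact k3 l (h4 l h5) h6

theorem le_G0 : E6univ F ≤ G0 F := by
  have key : ∀ L : List I27, (∀ i < L.length, Ok (L.drop (i + 1)) (L.getD i default)) →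
      P F L → P F [] := fun L => by
    induction L with
    | nil => exact fun _ => id
    | cons b S ih => exact fun h hP => ih (fun i hi => h (i + 1) (by simpa)) (step h0 h1 hP (h 0 (by simp)))
  let L := List.map un [26, 25, 24, 23, 22, 21, 17, 13, 11, 16, 14, 10, 20, 19, 8, 4, 6, 5, 7, 3, 15, 12, 18, 9, 2, 1, 0]
  refine fun g hg => key L (by decide +kernel) (fun g _ h => ?_) g hg (by simp)
  have : g = 1 := Units.ext (Matrix.ext fun i j => by
    simpa [one_apply, Pi.single_apply] using congrFun (h j ((show ∀ j, j ∈ L by decide +kernel) j)) i)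
  exact this ▸ one_mem _

theorem equiv : Nonempty (E6 F ≃* chevE6.group F) := by
  have top := (st F).restrict_top _ X_mem (le_G0 h0 h1)
  haveI : Nontrivial (E6univ F) := ⟨⟨⟨_, X_mem ⟨56, by decide⟩ 1⟩, 1, fun h => by
    have := X_mulVec ⟨56, by decide⟩ (1 : F) (e (0, 1, 0)) (0, 0, 0)
    rw [show X _ (1 : F) = 1 from congrArg Subtype.val h, show src 56 (0, 0, 0) = (0, 1, 0) by
      decide +kernel, show sg 56 (0, 0, 0) = 1 by decide +kernel] at this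
    simp at this⟩⟩
  obtain ⟨f, hf⟩ := H17.exists_hom_of_ne _ (der_of_mem5 (by simp)) top
  exact (H17.equiv_quot_of_st _ top hf).map MulEquiv.symm

end Cfsg.Agent.H7.Cub
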