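import Mathlib
import Cfsg.Prelude.Def_Characters
import Cfsg.Agent.H4.PComp
import Cfsg.Agent.H7.Jordan

/-!
The theorem of Brauer and Leonard on linear groups with an abelian T.I. Sylow subgroup.
-/

namespace Cfsg.Agent.H7

open Cfsg
open scoped ComplexConjugate commutatorElement

section Gen

variable {G : Type*} [Group G] [Finite G]

theorem irr_sub_of_norm_two {α ψ : G → ℂ} (hα : IsGeneralizedCharacter G α) (h2 : ip α α = 2)
    (h1 : α 1 = 0) (hψ : IsIrrCharacter G ψ) {k : ℕ} (hk : ip ψ α = k) (h0 : k ≠ 0) :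
    IsIrrCharacter G (ψ - α) ∧ k = 1 := by
  classical
  letI := Fintype.ofFinite G
  obtain ⟨a, b, ha, hb, hab, rfl⟩ := H6.exists_sub_of_norm_two hα (ip_eq_classInner α α ▸ h2) h1
  rw [ip_sub_right, ip_irr hψ ha, ip_irr hψ hb] at hk
  split_ifs at hk with e1 e2 e2
  · exact absurd (e1.symm.trans e2) hab
  · exact ⟨by rwa [e1, sub_sub_cancel], by exact_mod_cast (sub_zero (1 : ℂ) ▸ hk).symm⟩
  · have : ((k + 1 : ℕ) : ℂ) = 0 := by push_cast; linear_combination -hk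
    exact absurd (Nat.cast_eq_zero.mp this) k.succ_ne_zero
  · exact absurd (Nat.cast_eq_zero.mp (sub_zero (0 : ℂ) ▸ hk).symm) h0

theorem apply_one_ne_zero_of_many {γ : G → ℂ} (hγ : IsGeneralizedCharacter G γ) {n : ℕ}
    (h : ip γ γ = n) (hn : n ≠ 0) (W : Finset (G → ℂ)) (hW : n ≤ W.card)
    (h1 : ∀ w ∈ W, IsIrrCharacter G w ∧ ∃ k : ℕ, k ≠ 0 ∧ ip w γ = k) : γ 1 ≠ 0 := by
  classical
  have hc := H6.isClassFunction_of_isGen hγ
  have h2 : ∀ w ∈ irrSet G, ip γ w = ipZ γ w := fun w hw =>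
    ipZ_spec hγ (H6.isGen_of_irr (mem_irrSet.mp hw))
  have h3 : ∀ w ∈ W, 1 ≤ ipZ γ w := fun w hw => by
    obtain ⟨-, k, hk, e⟩ := h1 w hw
    rw [ipZ_eq (n := k) (ip_natCast_comm e)]
    omega
  have hs : W ⊆ irrSet G := fun w hw => mem_irrSet.mpr (h1 w hw).1
  have h4 : ∑ w ∈ irrSet G, ipZ γ w ^ 2 = n := by
    rw [ip_expand hc, Finset.sum_congr rfl (g := fun w => ((ipZ γ w ^ 2 : ℤ) : ℂ))
      fun w hw => by rw [← ip_conj_symm γ w, h2 w hw]; simp [sq]] at h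
    exact_mod_cast h
  rw [← Finset.sum_sdiff hs] at h4
  have h5 : (W.card : ℤ) ≤ ∑ w ∈ W, ipZ γ w ^ 2 := by
    rw [Finset.card_eq_sum_ones, Nat.cast_sum]
    exact Finset.sum_le_sum fun w hw => by have := h3 w hw; push_cast; nlinarith
  have h6 := (Finset.sum_eq_zero_iff_of_nonneg fun w _ => sq_nonneg (ipZ γ w)).mp
    (le_antisymm (by omega) (Finset.sum_nonneg fun w _ => sq_nonneg (ipZ γ w)) :
      ∑ w ∈ irrSet G \ W, ipZ γ w ^ 2 = 0)
  have h7 : γ 1 = ((∑ w ∈ W, ipZ γ w * charDegree w : ℤ) : ℂ) := by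
    rw [congrFun (cf_expand hc) 1, Finset.sum_apply, ← Finset.sum_sdiff hs,
      Finset.sum_eq_zero fun w hw => by
        rw [h2 w (Finset.mem_sdiff.mp hw).1, pow_eq_zero_iff two_ne_zero |>.mp (h6 w hw)]; simp,
      zero_add, Int.cast_sum]
    exact Finset.sum_congr rfl fun w hw => by
      simp [h2 w (hs hw), char_one_eq (irr_char (h1 w hw).1)]
  rw [h7, Int.cast_ne_zero]
  refine (Finset.sum_pos (fun w hw => mul_pos (h3 w hw) ?_) (Finset.card_pos.mp (by omega))).ne'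
  exact_mod_cast irr_degree_pos (h1 w hw).1

end Gen

variable {G N C : Type*} [Group G] [Group N] [Group C] [Finite G] [Finite N] [Finite C]

/-- The situation of the theorem of Brauer and Leonard. -/
structure BL (ι : N →* G) (f : C →* N) (π : C →* C) : Prop where
  ne : IsNE f
  cen : ∀ c, π c ∈ Subgroup.center C
  idem : ∀ c, π (π c) = π c
  comm : ∀ n c, π (ne.cj n c) = ne.cj n (π c)
  fpf : ∀ n c, ne.cj n (π c) = π c → π c = 1 ∨ n ∈ f.range
  iso : ∀ α β : C → ℂ, (∀ c, π c = 1 → α c = 0) → (∀ c, π c = 1 → β c = 0) →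
    ip (ind ι (ind f α)) (ind ι (ind f β)) = ip (ind f α) (ind f β)

/-- The central character, inflated. -/
noncomputable def cc (π : C →* C) (ξ : C → ℂ) : C → ℂ := fun c => ξ (π c) / ξ 1

open Classical in
/-- The linear characters factoring through `π`. -/
noncomputable def lam (π : C →* C) : Finset (C → ℂ) :=
  (irrSet C).filter fun μ => μ 1 = 1 ∧ ∀ c, μ (π c) = μ c

variable {ι : N →* G} {f : C →* N} {π : C →* C}

theorem mem_lam {μ : C → ℂ} :
    μ ∈ lam π ↔ IsIrrCharacter C μ ∧ μ 1 = 1 ∧ ∀ c, μ (π c) = μ c := by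
  simp [lam, mem_irrSet]

theorem cc_of_mem_lam {μ : C → ℂ} (h : μ ∈ lam π) : cc π μ = μ := by
  ext c; simp [cc, (mem_lam.mp h).2.1, (mem_lam.mp h).2.2]

theorem one_mem_lam : (1 : C → ℂ) ∈ lam π := mem_lam.mpr ⟨irr_one, rfl, fun _ => rfl⟩

namespace BL

variable (h : BL ι f π)
include h

theorem apply_mul {ξ : C → ℂ} (hξ : IsIrrCharacter C ξ) (c x : C) :
    ξ (π c * x) = cc π ξ c * ξ x := by
  obtain ⟨l, hl⟩ := H6.exists_linear_of_le_center hξ _ le_rfl
  have := hl ⟨_, h.cen c⟩ 1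
  rw [mul_one] at this
  rw [cc, this, hl ⟨_, h.cen c⟩, mul_div_cancel_right₀ _ (irr_one_ne_zero hξ)]

theorem cc_mem {ξ : C → ℂ} (hξ : IsIrrCharacter C ξ) : cc π ξ ∈ lam π := by
  obtain ⟨l, hl⟩ := H6.exists_linear_of_le_center hξ _ le_rfl
  have : cc π ξ = linFun (l.comp (π.codRestrict _ h.cen)) := funext fun c => by
    have := hl ⟨_, h.cen c⟩ 1
    rw [mul_one] at this
    rw [cc, this, mul_div_cancel_right₀ _ (irr_one_ne_zero hξ)]; rfl
  exact mem_lam.mpr ⟨this ▸ irr_linFun _, this ▸ linFun_one_apply _, fun c => by simp [cc, h.idem]⟩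

theorem card_lam : (lam π).card = Nat.card π.range := by
  have hc : ∀ a b : π.range, a * b = b * a := by
    rintro ⟨_, a, rfl⟩ b
    exact Subtype.ext (Subgroup.mem_center_iff.mp (h.cen a) b).symm
  rw [← H6.card_irr_of_comm hc, ← card_irrSet]
  refine Finset.card_nbij' (fun μ x => μ x) (fun β c => β (π.rangeRestrict c)) (fun μ hμ => ?_)
    (fun β hβ => ?_) (fun μ hμ => funext (mem_lam.mp hμ).2.2) fun β hβ => funext ?_
  · exact mem_irrSet.mpr (irr_of_char_one (char_comp π.range.subtype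
      (irr_char (mem_lam.mp hμ).1)) (mem_lam.mp hμ).2.1)
  · refine mem_lam.mpr ⟨irr_comp_surjective _ π.rangeRestrict_surjective (mem_irrSet.mp hβ), ?_,
      fun c => congrArg β (Subtype.ext (h.idem c))⟩
    simpa using irr_one_eq_one_of_comm hc (mem_irrSet.mp hβ)
  · rintro ⟨_, a, rfl⟩
    exact congrArg β (Subtype.ext (h.idem a))

theorem cc_cjf (n : N) (ξ : C → ℂ) : cc π (h.ne.cjf n ξ) = h.ne.cjf n (cc π ξ) := by
  ext c; simp [cc, IsNE.cjf_apply, h.comm]

theorem cc_mem_orbit {ξ η : C → ℂ} (hξ : IsIrrCharacter C ξ) (hη : IsIrrCharacter C η)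
    (e : ip (ind f ξ) (ind f η) ≠ 0) : cc π η ∈ h.ne.orbit (cc π ξ) := by
  obtain ⟨n, rfl⟩ := h.ne.mem_orbit.mp (h.ne.mem_orbit_of_ip_ind hξ hη e)
  exact h.ne.mem_orbit.mpr ⟨n, (h.cc_cjf n ξ).symm⟩

theorem irr_ind {ξ : C → ℂ} (hξ : IsIrrCharacter C ξ) (h1 : cc π ξ ≠ 1) :
    IsIrrCharacter N (ind f ξ) := by
  refine (h.ne.irr_ind_iff hξ).mpr (le_antisymm (fun n hn => ?_)
    (h.ne.range_le_inertia (irr_cf hξ)))
  by_contra hn'
  obtain ⟨h2, h3, h4⟩ := mem_lam.mp (h.cc_mem hξ)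
  have h5 := h.cc_cjf n ξ
  rw [h.ne.mem_inertia.mp hn] at h5
  let F : π.range → π.range := fun u => ⟨h.ne.cj n u * u⁻¹, mul_mem (by
    obtain ⟨_, a, rfl⟩ := u; exact ⟨_, h.comm n a⟩) (inv_mem u.2)⟩
  have hF : Function.Injective F := by
    rintro ⟨_, a, rfl⟩ ⟨_, b, rfl⟩ e
    have e1 : h.ne.cj n (π a) * (π a)⁻¹ = h.ne.cj n (π b) * (π b)⁻¹ := congrArg Subtype.val e
    refine Subtype.ext (inv_mul_eq_one.mp ?_).symm
    rw [← map_inv, ← map_mul]
    refine (h.fpf n (b⁻¹ * a) ?_).resolve_right hn'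
    rw [map_mul, map_inv, map_mul, map_inv, inv_mul_eq_iff_eq_mul, ← mul_assoc, ← e1,
      inv_mul_cancel_right]
  refine h1 (funext fun c => ?_)
  obtain ⟨u, hu⟩ := Finite.surjective_of_injective hF ⟨_, c, rfl⟩
  rw [← h4, ← show h.ne.cj n u * (u : C)⁻¹ = π c from congrArg Subtype.val hu, linear_map_mul (irr_char h2) h3, 
    show cc π ξ (h.ne.cj n u) = cc π ξ u from (congrFun h5 u).symm,
    ← linear_map_mul (irr_char h2) h3, mul_inv_cancel, h3, Pi.one_apply]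

theorem card_orbit_le {μ : C → ℂ} (hμ : IsClassFunction C μ) :
    (h.ne.orbit μ).card ≤ f.range.index := by
  rw [h.ne.card_orbit]
  exact Subgroup.index_antitone (h.ne.range_le_inertia hμ)

open Classical in
theorem main (hι : Function.Injective ι) (he : f.range.index ^ 2 + 1 < Nat.card π.range)
    {ψ : G → ℂ} (hψ : IsIrrCharacter G ψ) (hψ1 : ψ ≠ 1) {S : Finset (C → ℂ)}
    (hS : S ⊆ (lam π).erase 1) (hS1 : f.range.index < S.card)
    (hS2 : ∀ ξ, IsIrrCharacter C ξ → cc π ξ ∈ S → ip (fun c => ψ (ι (f c))) ξ = 0)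
    {ξ₀ : C → ℂ} (h0 : IsIrrCharacter C ξ₀) (h1 : cc π ξ₀ ≠ 1)
    (h2 : ip (fun c => ψ (ι (f c))) ξ₀ ≠ 0) : ip (fun c => ψ (ι (f c))) 1 = 0 := by
  set e := f.range.index
  set l := cc π ξ₀
  obtain ⟨hl1, hl2, hl3⟩ : IsIrrCharacter C l ∧ l 1 = 1 ∧ ∀ c, l (π c) = l c :=
    mem_lam.mp (h.cc_mem h0)
  have hl : l ∈ (lam π).erase 1 := Finset.mem_erase.mpr ⟨h1, h.cc_mem h0⟩
  let X : (C → ℂ) → C → ℂ := fun ν => ξ₀ * star l * ν
  have hXl : X l = ξ₀ := by
    simp only [X]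
    rw [mul_assoc, mul_comm (star l), linear_mul_star (irr_char hl1) hl2, mul_one]
  have hX : ∀ ν ∈ (lam π).erase 1, IsIrrCharacter C (X ν) ∧ cc π (X ν) = ν ∧
      ∀ c, π c = 1 → X ν c = ξ₀ c := fun ν hν => by
    obtain ⟨a1, a2, a3⟩ := mem_lam.mp (Finset.mem_of_mem_erase hν)
    refine ⟨irr_mul_linear (irr_mul_linear h0 (char_star (irr_char hl1)) (by simp [hl2]))
      (irr_char a1) a2, funext fun c => ?_, fun c hc => ?_⟩
    · have := congrFun (linear_mul_star (irr_char hl1) hl2) c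
      have e1 : l c = ξ₀ (π c) / ξ₀ 1 := rfl
      simp only [cc, X, Pi.mul_apply, Pi.star_apply, hl2, a2, a3, hl3, star_one, mul_one,
        Pi.one_apply] at this ⊢
      linear_combination ν c * this - star (l c) * ν c * e1
    · simp only [X, Pi.mul_apply, Pi.star_apply]
      rw [← a3, ← hl3, hc, a2, hl2]; simp
  let T : (C → ℂ) → G → ℂ := fun α => ind ι (ind f α)
  let D : (C → ℂ) → (C → ℂ) → ℂ := fun α β => ip (ind f α) (ind f β)
  let m : (C → ℂ) → ℂ := fun ξ => ip (fun c => ψ (ι (f c))) ξ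
  have hT : ∀ {φ} (_ : IsClassFunction G φ) α, ip φ (T α) = ip (fun c => φ (ι (f c))) α :=
    fun hφ α => by rw [ip_ind_right _ _ hφ, ip_ind_right _ _ (cf_comp ι hφ)]
  have hTs : ∀ a b, ip ψ (T (a - b)) = m a - m b := fun a b => by
    rw [hT (irr_cf hψ), ip_sub_right]
  have hI : ∀ a b c d : C → ℂ, (∀ x, π x = 1 → a x = b x) → (∀ x, π x = 1 → c x = d x) →
      ip (T (a - b)) (T (c - d)) = D a c - D a d - D b c + D b d := fun a b c d e1 e2 => by
    rw [h.iso (a - b) (c - d) (fun x hx => sub_eq_zero.mpr (e1 x hx))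
      fun x hx => sub_eq_zero.mpr (e2 x hx)]
    simp only [ind_sub, ip_sub_left, ip_sub_right, D]; ring
  have hG : ∀ {a b}, IsIrrCharacter C a → IsIrrCharacter C b →
      IsGeneralizedCharacter G (T (a - b)) := fun ha hb =>
    gen_ind _ (gen_ind _ (H6.isGen_sub (H6.isGen_of_irr ha) (H6.isGen_of_irr hb)))
  have hT1 : ∀ a b : C → ℂ, a 1 = b 1 → T (a - b) 1 = 0 := fun a b e1 => by
    simp [T, ind_apply_one hι, ind_apply_one h.ne.inj, e1]
  have hR : ∀ ν ∈ (lam π).erase 1, IsIrrCharacter N (ind f (X ν)) := fun ν hν =>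
    h.irr_ind (hX ν hν).1 ((hX ν hν).2.1.symm ▸ Finset.ne_of_mem_erase hν)
  have hXX : ∀ ν ∈ (lam π).erase 1, ∀ ν' ∈ (lam π).erase 1, ∀ x, π x = 1 → X ν x = X ν' x :=
    fun ν hν ν' hν' x hx => ((hX ν hν).2.2 x hx).trans ((hX ν' hν').2.2 x hx).symm
  have hD0 : ∀ {a b}, IsIrrCharacter C a → IsIrrCharacter C b → m a ≠ 0 → m b = 0 →
      D a b = 0 ∧ D b a = 0 := fun {a b} ha hb e1 e2 => by
    suffices D a b = 0 from ⟨this, ip_eq_zero_comm.mp this⟩
    by_contra e3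
    obtain ⟨n, rfl⟩ := h.ne.mem_orbit.mp (h.ne.mem_orbit_of_ip_ind ha hb e3)
    exact e1 ((h.ne.ip_res_cjf (cf_comp ι (irr_cf hψ)) n a).symm.trans e2)
  have hA : ∀ ν ∈ (lam π).erase 1, ∀ ν' ∈ (lam π).erase 1, m (X ν) ≠ 0 → m (X ν') = 0 →
      IsIrrCharacter G (ψ - T (X ν - X ν')) ∧ ip ψ (T (X ν - X ν')) = 1 := by
    intro ν hν ν' hν' e1 e2
    obtain ⟨k, hk⟩ := ip_char_nat (char_comp (ι.comp f) (irr_char hψ)) (irr_char (hX ν hν).1)
    have e3 : ip ψ (T (X ν - X ν')) = k := by rw [hTs, e2, sub_zero]; exact hk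
    obtain ⟨e4, e5⟩ := hD0 (hX ν hν).1 (hX ν' hν').1 e1 e2
    obtain ⟨e6, rfl⟩ := irr_sub_of_norm_two (hG (hX ν hν).1 (hX ν' hν').1) (by
      rw [hI _ _ _ _ (hXX ν hν ν' hν') (hXX ν hν ν' hν'), e4, e5]
      simp only [D, ip_irr_self (hR ν hν), ip_irr_self (hR ν' hν')]; norm_num)
      (hT1 _ _ (hXX ν hν ν' hν' 1 (map_one π))) hψ e3 (by rintro rfl; exact e1 (hk.trans (by simp)))
    exact ⟨e6, by simpa using e3⟩
  have hmS : ∀ ν ∈ S, m (X ν) = 0 := fun ν hν =>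
    hS2 _ (hX ν (hS hν)).1 ((hX ν (hS hν)).2.1.symm ▸ hν)
  have hml : m (X l) ≠ 0 := hXl.symm ▸ h2
  have hcf : ∀ ν ∈ (lam π).erase 1, IsClassFunction C ν := fun ν hν =>
    irr_cf (mem_lam.mp (Finset.mem_of_mem_erase hν)).1
  obtain ⟨ν, hν⟩ : S.Nonempty := Finset.card_pos.mp (by omega)
  have hB : ∀ μ ∈ (lam π).erase 1, ind f (X μ) ≠ ind f (X l) → m (X μ) = 0 := by
    intro μ hμ e1
    by_contra e2
    obtain ⟨ν', hν', e3⟩ := Finset.exists_mem_notMem_of_card_lt_card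
      ((h.card_orbit_le (hcf ν (hS hν))).trans_lt hS1)
    obtain ⟨a1, a2⟩ := hA l hl ν (hS hν) hml (hmS ν hν)
    obtain ⟨b1, b2⟩ := hA μ hμ ν' (hS hν') e2 (hmS ν' hν')
    obtain ⟨k, hk⟩ := ip_char_nat (irr_char a1) (irr_char b1)
    rw [ip_sub_left, ip_sub_right, ip_sub_right, b2, ← ip_conj_symm ψ (T _), a2, ip_irr_self hψ,
      hI _ _ _ _ (hXX _ hl _ (hS hν)) (hXX _ hμ _ (hS hν')),
      (hD0 (hX l hl).1 (hX ν' (hS hν')).1 hml (hmS ν' hν')).1,
      (hD0 (hX μ hμ).1 (hX ν (hS hν)).1 e2 (hmS ν hν)).2,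
      show D (X l) (X μ) = 0 from ip_irr_ne (hR l hl) (hR μ hμ) e1.symm,
      show D (X ν) (X ν') = 0 from not_not.mp fun e4 => e3 (by
        simpa [(hX ν (hS hν)).2.1, (hX ν' (hS hν')).2.1] using
          h.cc_mem_orbit (hX ν (hS hν)).1 (hX ν' (hS hν')).1 e4)] at hk
    have : ((k + 1 : ℕ) : ℂ) = 0 := by push_cast; simp at hk; linear_combination -hk
    exact k.succ_ne_zero (Nat.cast_eq_zero.mp this)
  let Ψ : (C → ℂ) → G → ℂ := fun μ => ψ - T (X l - X μ)
  have hC : ∀ μ ∈ (lam π).erase 1, IsIrrCharacter G (Ψ μ) := fun μ hμ => by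
    by_cases e1 : ind f (X μ) = ind f (X l)
    · simpa [Ψ, T, ind_sub, e1] using hψ
    · exact (hA l hl μ hμ hml (hB μ hμ e1)).1
  have hC' : ∀ μ ∈ (lam π).erase 1, ∀ μ' ∈ (lam π).erase 1, Ψ μ = Ψ μ' → μ' ∈ h.ne.orbit μ := by
    intro μ hμ μ' hμ' e1
    have e2 : T (X μ - X μ') = 0 := by
      simp only [Ψ, T, ind_sub, sub_right_inj] at e1 ⊢
      rw [e1, sub_self]
    have e3 := hI _ _ _ _ (hXX μ hμ μ' hμ') (hXX μ hμ μ' hμ')
    by_contra e4
    have e5 : D (X μ) (X μ') = 0 := not_not.mp fun e5 => e4 (by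
      simpa [(hX μ hμ).2.1, (hX μ' hμ').2.1] using h.cc_mem_orbit (hX μ hμ).1 (hX μ' hμ').1 e5)
    rw [e2, ip_zero_left, e5, show D (X μ') (X μ) = 0 from ip_eq_zero_comm.mp e5] at e3
    simp only [D, ip_irr_self (hR μ hμ), ip_irr_self (hR μ' hμ')] at e3
    norm_num at e3
  obtain ⟨a1, a2, a3⟩ := mem_lam.mp (Finset.mem_of_mem_erase (hS hν))
  have hν1 := Finset.ne_of_mem_erase (hS hν)
  have hνc := cc_of_mem_lam (Finset.mem_of_mem_erase (hS hν))
  have a4 : ∀ x, π x = 1 → (1 : C → ℂ) x = ν x := fun x hx => by rw [← a3, hx, a2]; rfl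
  have hD1 : ∀ {a}, IsIrrCharacter C a → cc π a ≠ 1 → D 1 a = 0 ∧ D a 1 = 0 := fun {a} ha e1 => by
    suffices D 1 a = 0 from ⟨this, ip_eq_zero_comm.mp this⟩
    by_contra e2
    have := h.cc_mem_orbit irr_one ha e2
    rw [cc_of_mem_lam one_mem_lam, h.ne.orbit_of_inv fun _ => rfl, Finset.mem_singleton] at this
    exact e1 this
  have hmν : m ν = 0 := hS2 ν a1 (hνc.symm ▸ hν)
  obtain ⟨b, hb⟩ := ip_char_nat (char_comp (ι.comp f) (irr_char hψ)) char_one
  by_contra hb0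
  let U := (lam π).erase 1 \ h.ne.orbit ν
  have hU : ∀ μ ∈ U, μ ∈ (lam π).erase 1 := fun μ hμ => (Finset.mem_sdiff.mp hμ).1
  have hne : ∀ {a}, IsIrrCharacter C a → cc π a ≠ 1 → ip (1 : C → ℂ) a = 0 := fun ha e1 =>
    ip_irr_ne irr_one ha fun e2 => e1 (e2 ▸ cc_of_mem_lam one_mem_lam)
  refine apply_one_ne_zero_of_many (hG irr_one a1) (n := e + 1) ?_ e.succ_ne_zero
    (insert 1 (U.image Ψ)) ?_ ?_ (hT1 _ _ a2.symm)
  · rw [hI _ _ _ _ a4 a4, (hD1 a1 (hνc.symm ▸ hν1)).1, (hD1 a1 (hνc.symm ▸ hν1)).2]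
    simp only [D, ip_irr_self (h.irr_ind a1 (hνc.symm ▸ hν1)),
      h.ne.ip_ind_self_of_inv irr_one fun _ => rfl]
    push_cast; ring
  · rw [Finset.card_insert_of_notMem, add_le_add_iff_right]
    · have b1 := Finset.card_le_mul_card_image (f := Ψ) U e fun φ hφ => by
        obtain ⟨μ, hμ, rfl⟩ := Finset.mem_image.mp hφ
        refine (Finset.card_le_card fun μ' hμ' => ?_).trans (h.card_orbit_le (hcf μ (hU μ hμ)))
        rw [Finset.mem_filter] at hμ'
        exact hC' μ (hU μ hμ) μ' (hU μ' hμ'.1) hμ'.2.symm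
      have b2 : ((lam π).erase 1).card - (h.ne.orbit ν).card ≤ U.card := Finset.le_card_sdiff _ _
      rw [Finset.card_erase_of_mem one_mem_lam, h.card_lam] at b2
      have b3 := h.card_orbit_le (irr_cf a1)
      by_contra! b4
      have := Nat.mul_le_mul_left e (Nat.succ_le_of_lt b4)
      rw [Nat.mul_succ, ← sq] at this
      omega
    · rw [Finset.mem_image]
      rintro ⟨μ, hμ, e1⟩
      have := ip_irr_self (irr_one (G := G))
      conv_lhs at this => enter [2]; rw [← e1]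
      rw [ip_sub_right, ip_irr_ne irr_one hψ hψ1.symm, hT cf_one, ip_sub_right] at this
      erw [hne (hX l hl).1 ((hX l hl).2.1.symm ▸ h1), hne (hX μ (hU μ hμ)).1
        ((hX μ (hU μ hμ)).2.1.symm ▸ Finset.ne_of_mem_erase (hU μ hμ))] at this
      simp at this
  · intro w hw
    rcases Finset.mem_insert.mp hw with rfl | hw
    · refine ⟨irr_one, 1, one_ne_zero, ?_⟩
      rw [hT cf_one, ip_sub_right]
      erw [hne a1 (hνc.symm ▸ hν1), ip_one_one]
      simp
    · obtain ⟨μ, hμ, rfl⟩ := Finset.mem_image.mp hw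
      refine ⟨hC μ (hU μ hμ), b, by rintro rfl; exact hb0 (hb.trans (by simp)), ?_⟩
      rw [ip_sub_left, hTs, hmν, hI _ _ _ _ (hXX _ hl _ (hU μ hμ)) a4,
        (hD1 (hX l hl).1 ((hX l hl).2.1.symm ▸ h1)).2, (hD1 (hX μ (hU μ hμ)).1
          ((hX μ (hU μ hμ)).2.1.symm ▸ Finset.ne_of_mem_erase (hU μ hμ))).2,
        (hD0 (hX l hl).1 a1 hml hmν).1, show D (X μ) ν = 0 from ip_eq_zero_comm.mp (not_not.mp
          fun e1 => (Finset.mem_sdiff.mp hμ).2 (by
            simpa [hνc, (hX μ (hU μ hμ)).2.1] using h.cc_mem_orbit a1 (hX μ (hU μ hμ)).1 e1))]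
      simpa using hb

theorem exists_cc_ne {ψ : C → ℂ} (hψ : IsCharacter C ψ) (h1 : ¬ π.range ≤ H6.charKer ψ) :
    ∃ ξ, IsIrrCharacter C ξ ∧ cc π ξ ≠ 1 ∧ ip ψ ξ ≠ 0 := by
  letI := Fintype.ofFinite C
  by_contra! h2
  refine h1 ?_
  rintro _ ⟨c, rfl⟩
  refine H6.mem_charKer_of_forall_constituent (char_cf hψ) fun ξ hξ e x => ?_
  rw [h.apply_mul hξ, not_not.mp fun e' => e (ip_eq_classInner ψ ξ ▸ h2 ξ hξ e'), Pi.one_apply,
    one_mul]

theorem irr_res (hι : Function.Injective ι)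
    (hG : ∀ ψ, IsIrrCharacter G ψ → ψ ≠ 1 → ¬ π.range ≤ H6.charKer fun c => ψ (ι (f c)))
    {χ : G → ℂ} (hχ : IsIrrCharacter G χ) (h1 : χ ≠ 1)
    (hd : charDegree χ ^ 2 + 1 < Nat.card π.range) :
    IsIrrCharacter C (fun c => χ (ι (f c))) ∧ f.range.index = 1 := by
  classical
  have hc := char_comp (ι.comp f) (irr_char hχ)
  obtain ⟨ξ₀, a1, a2, a3⟩ := h.exists_cc_ne hc (hG χ hχ h1)
  have a4 := deg_le_of_under ι (irr_char hχ) (h.irr_ind a1 a2)
    (by rwa [ip_ind_right _ _ (cf_comp ι (irr_cf hχ))])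
  rw [deg_ind h.ne.inj (irr_char a1)] at a4
  have a5 := (Nat.le_mul_of_pos_right _ (irr_degree_pos a1)).trans a4
  suffices IsIrrCharacter C fun c => χ (ι (f c)) by
    refine ⟨this, ?_⟩
    rw [← irr_eq_of_ip_ne_zero this a1 a3] at a4
    erw [deg_comp (ι.comp f)] at a4
    have := irr_degree_pos hχ
    have := Nat.pos_of_ne_zero (Subgroup.index_ne_zero_of_finite (H := f.range))
    nlinarith
  have b1 := char_mul (irr_char hχ) (char_star (irr_char hχ))
  let k := ι.comp (f.comp π)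
  have b2 := char_comp k b1
  obtain ⟨n, hn⟩ := ip_char_nat b2 char_one
  have b3 : charDegree χ ≤ n := by
    have := deg_le_mul_ip (char_comp k (irr_char hχ)) (b := 1) (n := n) (fun μ hμ e => by
      refine ((deg_eq_one_iff hμ).mpr (le_trans ?_ ((H6.ker_le_charKer_comp k).trans
        (charKer_le_of_ip (char_comp k (irr_char hχ)) hμ e)))).le
      refine Subgroup.commutator_le.mpr fun a _ b _ => ?_
      rw [MonoidHom.mem_ker, MonoidHom.comp_apply, MonoidHom.comp_apply, map_commutatorElement π,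
        commutatorElement_eq_one_iff_mul_comm.mpr (Subgroup.mem_center_iff.mp (h.cen b) _),
        map_one, map_one]) (by rw [← hn, ← ip_one_right_eq]; rfl)
    rwa [deg_comp, one_mul] at this
  have b4 := char_sub_smul_irr b2 irr_one hn le_rfl
  have b5 := card_constituents_le b4
  have b6 : charDegree ((fun c => (χ * star χ) (k c)) - (n : ℂ) • (1 : C → ℂ)) + n =
      charDegree χ ^ 2 := by
    have := char_one_eq b4
    simp only [Pi.sub_apply, map_one, Pi.mul_apply, Pi.star_apply, char_one_eq (irr_char hχ),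
      star_natCast, Pi.smul_apply, Pi.one_apply, smul_eq_mul, mul_one, sub_eq_iff_eq_add] at this
    rw [sq]; exact_mod_cast this.symm
  let S := ((lam π).erase 1).filter (ip (fun c => (χ * star χ) (k c)) · = 0)
  have b7 : f.range.index < S.card := by
    have e1 := Finset.card_filter_add_card_filter_not (s := (lam π).erase 1)
      (ip (fun c => (χ * star χ) (k c)) · = 0)
    rw [Finset.card_erase_of_mem one_mem_lam, h.card_lam] at e1
    have e2 := (Finset.card_le_card (s := ((lam π).erase 1).filter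
      (¬ ip (fun c => (χ * star χ) (k c)) · = 0)) fun μ hμ => by
        simp only [Finset.mem_filter, Finset.mem_erase] at hμ ⊢
        refine ⟨mem_irrSet.mpr (mem_lam.mp hμ.1.2).1, ?_⟩
        rw [ip_sub_left, ip_smul_left, ip_irr_ne irr_one (mem_lam.mp hμ.1.2).1 hμ.1.1.symm]
        simpa using hμ.2).trans b5
    change S.card + _ = _ at e1
    omega
  have b8 := char_mul_star_sub_one hχ
  have b9 : ip (χ * star χ - 1) (ind (ι.comp f) 1) = 0 := by
    by_contra e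
    obtain ⟨ψ, c1, c2, c3⟩ := exists_common_irr (char_cf b8) e
    have c4 : ψ ≠ 1 := by
      rintro rfl
      exact c2 (by rw [ip_sub_left, ip_one_right_eq, ip_irr_self hχ, ip_one_one, sub_self])
    rw [ip_sub_left, ip_irr_ne irr_one c1 c4.symm, sub_zero] at c2
    obtain ⟨ξ, d1, d2, d3⟩ := h.exists_cc_ne (char_comp (ι.comp f) (irr_char c1)) (hG ψ c1 c4)
    rw [ip_ne_zero_comm, ip_ind_right _ _ (irr_cf c1)] at c3
    refine c3 (h.main hι (by nlinarith) c1 c4 (Finset.filter_subset _ _) b7 (fun η hη e1 => ?_)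
      d1 d2 d3)
    by_contra e2
    obtain ⟨e3, e4, -⟩ := mem_lam.mp (h.cc_mem hη)
    refine ip_comp_ne_zero_of_le k b1 c1 c2 (irr_char e3) (ip_comp_ne_zero_of_le π
      (char_comp (ι.comp f) (irr_char c1)) hη e2 (irr_char e3) ?_) (Finset.mem_filter.mp e1).2
    rw [show (fun c => η (π c)) = η 1 • cc π η from funext fun c => by
      rw [← mul_one (π c), h.apply_mul hη, mul_comm]; rfl, ip_smul_left, ip_irr_self e3, mul_one]
    exact irr_one_ne_zero hη
  rw [ip_ind_right _ _ (char_cf b8)] at b9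
  refine irr_of_ip_one hc ?_
  rw [← ip_one_right_eq, ← sub_eq_zero, ← b9, ← ip_one_one (G := C), ← ip_sub_left]
  rfl

end BL

omit [Finite N] [Finite C] in
theorem exists_powHom_of_center {a : ℕ} (ha : (Subgroup.center G).index ∣ a) :
    ∃ π : G →* G, ∀ x, π x = x ^ a := by
  obtain ⟨b, rfl⟩ := ha
  refine ⟨MonoidHom.mk' (· ^ (_ * b)) fun x y => ?_, fun _ => rfl⟩
  have := congrArg Subtype.val (map_mul (MonoidHom.transferCenterPow G) x y)
  simp only [MonoidHom.transferCenterPow_apply, Subgroup.coe_mul] at this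
  simp only [pow_mul]
  rw [this, Commute.mul_pow (Subgroup.mem_center_iff.mp (Subgroup.pow_index_mem _ y) _)]

/-- The theorem of Brauer and Leonard. -/
theorem brauer_leonard {p : ℕ} [hp : Fact p.Prime] (P : Sylow p G)
    (hstar : ∀ x ∈ (P : Subgroup G), x ≠ 1 → Subgroup.centralizer ({x} : Set G) =
      Subgroup.centralizer ((P : Subgroup G) : Set G))
    (hmin : ∀ K : Subgroup G, K.Normal → (P : Subgroup G) ≤ K → K = ⊤) {χ : G → ℂ}
    (hχ : IsIrrCharacter G χ) (h1 : χ ≠ 1) (hd : charDegree χ ^ 2 + 1 < Nat.card P) :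
    charDegree χ = 1 ∧ HasNormalPComplement p G := by
  classical
  set C := Subgroup.centralizer ((P : Subgroup G) : Set G)
  set N := Subgroup.normalizer ((P : Subgroup G) : Set G)
  have hPC : (P : Subgroup G) ≤ C := fun x hx => by
    by_cases e : x = 1
    · exact e ▸ one_mem C
    · exact hstar x hx e ▸ Subgroup.mem_centralizer_singleton_iff.mpr rfl
  have hCN : C ≤ N := Subgroup.centralizer_le_normalizer _
  have hZ : (P : Subgroup G).subgroupOf C ≤ Subgroup.center C := fun x hx =>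
    Subgroup.mem_center_iff.mpr fun c => Subtype.ext (c.2 x hx).symm
  haveI := normal_of_le_center' hZ
  obtain ⟨a, ha1, ha2⟩ := exists_piExp (m := ((P : Subgroup G).subgroupOf C).index)
    (n := Nat.card P) (P.card_coprime_index.symm.coprime_dvd_left
      (Subgroup.relIndex_dvd_index_of_le hPC))
  obtain ⟨π, hπ⟩ := exists_powHom_of_center ((Subgroup.index_dvd_of_le hZ).trans ha1)
  have h2 : ∀ c ∈ C, c ^ a ∈ (P : Subgroup G) := fun c hc => by
    obtain ⟨b, rfl⟩ := ha1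
    rw [pow_mul]
    exact pow_mem (Subgroup.pow_index_mem ((P : Subgroup G).subgroupOf C) ⟨c, hc⟩) b
  have h3 : ∀ u ∈ (P : Subgroup G), u ^ a = u := fun u hu =>
    (pow_eq_pow_iff_modEq.mpr (ha2.of_dvd (P.1.orderOf_dvd_natCard hu))).trans (pow_one u)
  have h4 : π.range = (P : Subgroup G).subgroupOf C := le_antisymm
    (by rintro _ ⟨c, rfl⟩; rw [hπ]; exact h2 c c.2)
    fun u hu => ⟨u, (hπ u).trans (Subtype.ext (h3 u hu))⟩
  have hf : IsNE (Subgroup.inclusion hCN) := isNE_inclusion hCN fun n hn c hc u hu => by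
    have := hc _ ((Subgroup.mem_normalizer_iff''.mp hn u).mp hu)
    calc u * (n * c * n⁻¹) = n * (n⁻¹ * u * n * c) * n⁻¹ := by group
      _ = _ := by rw [this]; group
  have hT : ∀ α : C → ℂ, (∀ c, π c = 1 → α c = 0) → ∀ x : N, (x : G) ∉ {g | g ∈ C ∧ g ^ a ≠ 1} →
      ind (Subgroup.inclusion hCN) α x = 0 := fun α hα x hx =>
    ind_apply_eq_zero _ _ fun y c e => hα c (by
      by_contra e1
      have e2 : x = Subgroup.inclusion hCN (hf.cj y c) := by rw [hf.cj_spec, e]; group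
      refine hx ⟨e2 ▸ (hf.cj y c).2, fun e3 => e1 ?_⟩
      rw [hπ, ← (hf.cj y).map_eq_one_iff, map_pow]
      exact Subtype.ext (by rw [e2] at e3; exact e3))
  have h : BL N.subtype (Subgroup.inclusion hCN) π := by
    refine ⟨hf, fun c => hZ (h4 ▸ ⟨c, rfl⟩), fun c => ?_, fun n c => by rw [hπ, hπ, map_pow],
      fun n c e => ?_, fun α β hα hβ => ?_⟩
    · rw [hπ]; exact Subtype.ext (h3 _ (h4.le ⟨c, rfl⟩))
    · refine or_iff_not_imp_left.mpr fun e1 => ?_
      have e2 := congrArg Subtype.val (hf.cj_spec n (π c))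
      rw [e] at e2
      refine ⟨⟨n, hstar _ (h4.le ⟨c, rfl⟩) (fun e3 => e1 (Subtype.ext e3)) ▸ ?_⟩, rfl⟩
      exact Subgroup.mem_centralizer_singleton_iff.mpr (eq_mul_inv_iff_mul_eq.mp e2).symm
    · letI := Fintype.ofFinite G
      letI := Fintype.ofFinite N
      rw [ind_subtype, ind_subtype, ip_eq_classInner, ip_eq_classInner]
      refine H6.classInner_indFun_of_TI N {g | g ∈ C ∧ g ^ a ≠ 1} (fun g hg t ht ht' => ?_)
        (ind_cf _ _) (hT α hα) (hT β hβ) (hT α hα 1 (by simp))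
      refine absurd (Subgroup.mem_normalizer_fintype fun u hu => ?_) hg
      rw [← h3 u hu, ← conj_pow]
      refine h2 _ (hstar _ (h2 _ ht'.1) ht'.2 ▸ ?_)
      have := Subgroup.mem_centralizer_singleton_iff.mp (hstar _ (h2 _ ht.1) ht.2 ▸ hPC hu)
      rw [Subgroup.mem_centralizer_singleton_iff, conj_pow]
      calc _ = g * (u * t ^ a) * g⁻¹ := by group
        _ = _ := by rw [this]; group
  obtain ⟨h5, h6⟩ := h.irr_res N.subtype_injective (fun ψ hψ e1 e2 => e1 (by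
    refine H6.irr_eq_one_of_charKer_eq_top hψ (hmin _ (H6.charKer_normal (irr_cf hψ)) fun u hu => ?_)
    exact (H6.mem_charKer_iff_irr hψ).mpr
      (H6.apply_eq_of_mem_charKer (e2 (h4.ge (show (⟨u, hPC hu⟩ : C) ∈ _ from hu))) :))) hχ h1
    (by rwa [h4, Nat.card_congr (Subgroup.subgroupOfEquivOfLe hPC).toEquiv])
  rw [range_inclusion_index, Subgroup.relIndex_eq_one] at h6
  refine ⟨?_, H4.hasNPC_of_normalizer_le_centralizer P h6⟩
  have h7 := hmin _ (H6.charCenter_normal (irr_cf hχ)) fun u hu =>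
    (H6.mem_charCenter_iff (irr_char hχ)).mpr ((H6.mem_charCenter_iff (irr_char h5)).mp
      (H6.center_le_charCenter h5 (hZ (show (⟨u, hPC hu⟩ : C) ∈ _ from hu))))
  have h8 := sq_eq_index_charCenter hχ (h7 ▸ le_top) (char_one_eq (irr_char hχ))
  rw [h7, Subgroup.index_top] at h8
  exact (Nat.pow_eq_one.mp h8).resolve_right two_ne_zero

end Cfsg.Agent.H7
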