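import Mathlib

/-!
Modular representations of groups with a cyclic trivial intersection Sylow subgroup.
-/

set_option autoImplicit false
set_option linter.unusedSectionVars false
set_option linter.unusedVariables false
set_option linter.style.haveILetI false

namespace Cfsg.Agent.H7

open Finset Subgroup Polynomial

theorem sum_eq_zero_of_free {P Ω M : Type*} [Group P] [Fintype P] [MulAction P Ω]
    [AddCommMonoid M] (g : Ω → M) (S : Finset Ω) (hS : ∀ u : P, ∀ c ∈ S, u • c ∈ S)
    (hf : ∀ c ∈ S, ∀ u : P, u • c = c → u = 1) (h0 : ∀ c ∈ S, ∑ u : P, g (u • c) = 0) :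
    ∑ c ∈ S, g c = 0 := by
  classical
  induction S using Finset.strongInduction with
  | H S ih =>
    rcases S.eq_empty_or_nonempty with rfl | ⟨c, hc⟩
    · simp
    have hsub : univ.image (fun u : P => u • c) ⊆ S := fun d hd => by
      obtain ⟨u, -, rfl⟩ := mem_image.1 hd
      exact hS u c hc
    rw [← sum_sdiff hsub, sum_image fun u _ v _ e => by
      have := hf c hc (v⁻¹ * u) (by rw [mul_smul, show u • c = v • c from e, inv_smul_smul])
      exact (inv_mul_eq_one.1 this).symm, h0 c hc, add_zero]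
    refine ih _ (sdiff_ssubset hsub ⟨c, mem_image.2 ⟨1, mem_univ _, one_smul _ _⟩⟩)
      (fun u d hd => ?_) (fun d hd => hf d (mem_sdiff.1 hd).1) fun d hd => h0 d (mem_sdiff.1 hd).1
    obtain ⟨h1, h2⟩ := mem_sdiff.1 hd
    refine mem_sdiff.2 ⟨hS u d h1, fun h3 => h2 ?_⟩
    obtain ⟨v, -, e⟩ := mem_image.1 h3
    exact mem_image.2 ⟨u⁻¹ * v, mem_univ _, by rw [mul_smul, e, inv_smul_smul]⟩

theorem geom_sum_char (F : Type*) [Field F] (p : ℕ) [Fact p.Prime] [CharP F p] (n : ℕ) :
    ∑ k ∈ range (p ^ n), (X : F[X]) ^ k = (X - 1) ^ (p ^ n - 1) := by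
  have h0 : (X - 1 : F[X]) ≠ 0 := by simpa using X_sub_C_ne_zero (1 : F)
  apply mul_right_cancel₀ h0
  rw [geom_sum_mul, ← pow_succ, Nat.sub_add_cancel (Nat.one_le_pow _ _ (Fact.out : p.Prime).pos),
    sub_pow_char_pow, one_pow]

theorem trace_kill {F A : Type*} [Field F] [Ring A] [Algebra F A] (p : ℕ) [Fact p.Prime]
    [CharP F p] (n : ℕ) (z : Aˣ) {l s : ℕ} (hl : ((z : A) - 1) ^ l = 0)
    (hs : 2 * l ≤ s + p ^ n) (φ : A) :
    ((z : A) - 1) ^ s * ∑ k ∈ range (p ^ n), (z : A) ^ k * φ * ((z⁻¹ : Aˣ) : A) ^ k = 0 := by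
  set Y : A := (z : A) - 1 with hY
  let W : Module.End F A := (LinearMap.mulLeft F (z : A)).comp (LinearMap.mulRight F ((z⁻¹ : Aˣ) : A))
  have hW : ∀ k : ℕ, (W ^ k) φ = (z : A) ^ k * φ * ((z⁻¹ : Aˣ) : A) ^ k := fun k => by
    induction k with
    | zero => simp
    | succ k ih =>
      rw [pow_succ', Module.End.mul_apply, ih, pow_succ' (z : A), pow_succ]
      simp [W, mul_assoc]
  have hc : Commute ((z⁻¹ : Aˣ) : A) Y := (Commute.units_inv_left (Commute.refl _)).sub_right
    (Commute.one_right _)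
  have key : ∀ m s r : ℕ, 2 * l ≤ s + r + m + 1 → Y ^ s * ((W - 1) ^ m) φ * Y ^ r = 0 := by
    intro m
    induction m with
    | zero =>
      intro s r h
      rcases le_or_gt l s with h1 | h1
      · rw [pow_eq_zero_of_le h1 hl, zero_mul, zero_mul]
      · rw [pow_eq_zero_of_le (show l ≤ r by omega) hl, mul_zero]
    | succ m ih =>
      intro s r h
      rw [pow_succ', Module.End.mul_apply]
      set ψ := ((W - 1) ^ m) φ
      have e : (W - 1) ψ = (Y * ψ - ψ * Y) * ((z⁻¹ : Aˣ) : A) := by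
        simp [W, hY, sub_mul, mul_sub, mul_assoc]
      have e1 := ih (s + 1) r (by omega)
      have e2 := ih s (r + 1) (by omega)
      rw [e, mul_assoc, mul_assoc, (hc.pow_right r).eq, ← mul_assoc, ← mul_assoc]
      rw [pow_succ] at e1
      rw [pow_succ'] at e2
      have : Y ^ s * (Y * ψ - ψ * Y) * Y ^ r = 0 := by
        rw [mul_sub, sub_mul, ← mul_assoc, e1, ← mul_assoc, mul_assoc _ Y, e2, sub_self]
      rw [this, zero_mul]
  have h1 := congrArg (fun q : F[X] => aeval W q φ) (geom_sum_char F p n)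
  simp only [map_sum, map_pow, aeval_X, map_sub, map_one, LinearMap.sum_apply, hW] at h1
  have h2 := key (p ^ n - 1) s 0 (by
    have := Nat.one_le_pow n p (Fact.out : p.Prime).pos
    omega)
  rw [h1, ← h2, pow_zero, mul_one]

theorem relIndex_dvd_of_cyclic {G : Type*} [Group G] [Finite G] {p : ℕ} [hp : Fact p.Prime]
    (P : Sylow p G) (hc : IsCyclic P) :
    (centralizer ((P : Subgroup G) : Set G)).relIndex (normalizer ((P : Subgroup G) : Set G)) ∣
      p - 1 := by
  obtain ⟨n, hn⟩ := P.isPGroup'.exists_card_eq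
  have h1 : (centralizer ((P : Subgroup G) : Set G)).relIndex
      (normalizer ((P : Subgroup G) : Set G)) ∣ Nat.totient (p ^ n) := by
    rw [← hn, ← IsCyclic.card_mulAut, relIndex, ← normalizerMonoidHom_ker, index_ker]
    exact card_subgroup_dvd_card _
  have h2 : (centralizer ((P : Subgroup G) : Set G)).relIndex
      (normalizer ((P : Subgroup G) : Set G)) ∣ (P : Subgroup G).index := by
    haveI := IsCyclic.isMulCommutative (α := P)
    exact (relIndex_dvd_index_of_le (centralizer_le_normalizer _)).trans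
      (index_dvd_of_le (le_centralizer (H := (P : Subgroup G))))
  have h3 : Nat.Coprime ((centralizer ((P : Subgroup G) : Set G)).relIndex
      (normalizer ((P : Subgroup G) : Set G))) p :=
    ((Nat.Prime.coprime_iff_not_dvd hp.out).2 fun h => P.not_dvd_index (h.trans h2)).symm
  rcases Nat.eq_zero_or_pos n with rfl | h0
  · exact h1.trans (by simp)
  · rw [Nat.totient_prime_pow hp.out h0] at h1
    exact (h3.pow_right _).dvd_of_dvd_mul_left h1

theorem cyc_TI_dim {G : Type*} [Group G] [Finite G] (p : ℕ) [hp : Fact p.Prime] (P : Sylow p G)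
    (hcyc : IsCyclic P) (n : ℕ) (hn : 2 ≤ n) (hPn : Nat.card P = p ^ n)
    (hTI : ∀ Q : Sylow p G, Q ≠ P → (P : Subgroup G) ⊓ (Q : Subgroup G) = ⊥)
    (F : Type*) [Field F] [CharP F p] (V : Type*) [AddCommGroup V] [Module F V]
    [FiniteDimensional F V] (ρ : Representation F G V) (hfaith : Function.Injective ρ)
    (hirr : ρ.IsIrreducible) : p ^ n - (p - 1) ≤ Module.finrank F V := by
  classical
  obtain ⟨x, hx⟩ := hcyc.exists_generator
  have hox : orderOf x = p ^ n := by rw [orderOf_eq_card_of_forall_mem_zpowers hx, hPn]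
  letI : CommGroup P := IsCyclic.commGroup
  haveI := Fintype.ofFinite G
  haveI := Fintype.ofFinite P
  set N := normalizer ((P : Subgroup G) : Set G) with hN
  haveI := Fintype.ofFinite N
  haveI := Fintype.ofFinite (G ⧸ N)
  have hp1 := hp.out.one_lt
  let z : (Module.End F V)ˣ := ρ.asGroupHom (x : G)
  have hz : ∀ k : ℕ, (z : Module.End F V) ^ k = ρ ((x ^ k : P) : G) := fun k => by
    simp [z, Representation.asGroupHom_apply]
  have hz' : ∀ k : ℕ, ((z⁻¹ : (Module.End F V)ˣ) : Module.End F V) ^ k =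
      ρ ((x ^ k : P) : G)⁻¹ := fun k => by
    rw [← Units.val_pow_eq_pow_val, inv_pow, ← map_pow, ← map_inv, Representation.asGroupHom_apply]
    simp
  set Y : Module.End F V := (z : Module.End F V) - 1 with hY
  have hV : Nontrivial V := by
    by_contra h
    rw [not_nontrivial_iff_subsingleton] at h
    have : (x : G) = 1 := hfaith (Subsingleton.elim _ _)
    rw [OneMemClass.coe_eq_one] at this
    rw [this, orderOf_one] at hox
    exact absurd hox.symm (Nat.one_lt_pow (by omega) hp1).ne'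
  haveI : CharP (Module.End F V) p := charP_of_injective_algebraMap
    (algebraMap F (Module.End F V)).injective p
  have hYp : ∀ k : ℕ, Y ^ p ^ k = ρ ((x ^ p ^ k : P) : G) - 1 := fun k => by
    rw [hY, sub_pow_char_pow_of_commute _ _ (Commute.one_right _), one_pow, hz]
  have hnil : IsNilpotent Y := ⟨p ^ n, by rw [hYp, ← hox, pow_orderOf_eq_one]; simp⟩
  have hd : Y ^ Module.finrank F V = 0 := by
    have := LinearMap.aeval_self_charpoly Y
    rwa [hnil.charpoly_eq_X_pow_finrank, map_pow, aeval_X] at this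
  set l := Nat.find hnil with hl
  have hl0 : Y ^ l = 0 := Nat.find_spec hnil
  have hl1 : l ≤ Module.finrank F V := Nat.find_min' hnil hd
  have hl2 : p < l := by
    by_contra h
    have h1 : Y ^ p ^ (n - 1) = 0 := pow_eq_zero_of_le ((not_lt.1 h).trans
      (Nat.le_self_pow (by omega) p)) hl0
    rw [hYp, sub_eq_zero, ← map_one ρ] at h1
    have h2 := orderOf_dvd_of_pow_eq_one (OneMemClass.coe_eq_one.1 (hfaith h1))
    rw [hox, Nat.pow_dvd_pow_iff_le_right hp1] at h2
    omega
  have hl3 : Y ^ (l - 1) ≠ 0 := Nat.find_min hnil (by omega)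
  -- the invariant element
  let c : N →* MulAut P := normalizerMonoidHom (P : Subgroup G)
  have hc : ∀ (m : N) (y : P), ((c m y : P) : G) = m * y * (m : G)⁻¹ := fun m y => rfl
  let O : Finset P := univ.image fun m : N => c m x
  have hO : #O ≤ p - 1 := by
    refine le_trans ?_ (Nat.le_of_dvd (by omega) (relIndex_dvd_of_cyclic P hcyc))
    rw [relIndex, ← normalizerMonoidHom_ker, index_ker]
    haveI := Fintype.ofFinite c.range
    rw [Nat.card_eq_fintype_card]
    refine le_trans (card_le_card (t := univ.image fun σ : c.range => σ.1 x) fun y hy => ?_)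
      card_image_le
    obtain ⟨m, -, rfl⟩ := mem_image.1 hy
    exact mem_image.2 ⟨⟨c m, m, rfl⟩, mem_univ _, rfl⟩
  have hxO : x ∈ O := mem_image.2 ⟨1, mem_univ _, by simp⟩
  let π : MonoidAlgebra F P →ₐ[F] Module.End F V :=
    MonoidAlgebra.lift F _ P (ρ.comp (P : Subgroup G).subtype)
  let δ : P →* MonoidAlgebra F P := MonoidAlgebra.of F P
  have hπ : ∀ y : P, π (δ y) = ρ y := fun y => by simp [π, δ]
  have hπx : π (δ x - 1) = Y := by rw [map_sub, hπ, map_one, hY, ← pow_one (z : Module.End F V), hz, pow_one]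
  have hdv : ∀ y y' : P, y' ∈ zpowers y → δ y - 1 ∣ δ y' - 1 := fun y y' h => by
    obtain ⟨k, rfl⟩ := mem_powers_iff_mem_zpowers.2 h
    simpa using sub_dvd_pow_sub_pow (δ y) 1 k
  let a : MonoidAlgebra F P := ∏ y ∈ O, (δ y - 1)
  have ha1 : δ x - 1 ∣ a := dvd_prod_of_mem _ hxO
  have ha2 : a ∣ (δ x - 1) ^ #O := by
    rw [← prod_const]
    refine prod_dvd_prod_of_dvd _ _ fun y hy => hdv _ _ ?_
    obtain ⟨m, -, rfl⟩ := mem_image.1 hy
    obtain ⟨k, hk⟩ := hx ((c m)⁻¹ x)
    exact ⟨k, by simp only []; rw [← map_zpow, show x ^ k = (c m)⁻¹ x from hk]; simp⟩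
  have ha3 : ∀ m : N, ρ m * π a * ρ (m : G)⁻¹ = π a := fun m => by
    let κ : Module.End F V →* Module.End F V :=
      { toFun := fun b => ρ m * b * ρ (m : G)⁻¹
        map_one' := by rw [mul_one, ← map_mul]; simp
        map_mul' := fun b b' => by
          simp only [mul_assoc]
          rw [← mul_assoc (ρ (m : G)⁻¹), ← map_mul]; simp }
    let τ : MonoidAlgebra F P →ₐ[F] MonoidAlgebra F P :=
      MonoidAlgebra.lift F _ P (δ.comp (c m).toMonoidHom)
    have hτ : ∀ y, τ (δ y) = δ (c m y) := fun y => by simp [τ, δ]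
    have h1 : ∀ r, ρ m * π r * ρ (m : G)⁻¹ = π (τ r) := fun r => by
      induction r using MonoidAlgebra.induction_on with
      | of y =>
        change ρ m * π (δ y) * _ = π (τ (δ y))
        rw [hτ, hπ, hπ, hc, map_mul, map_mul]
      | add f g hf hg => rw [map_add, map_add, map_add, mul_add, add_mul, hf, hg]
      | smul r f hf => rw [map_smul, map_smul, map_smul, mul_smul_comm, smul_mul_assoc, hf]
    rw [h1]
    congr 1
    simp only [a, map_prod, map_sub, map_one, hτ]
    refine prod_nbij (c m) (fun y hy => ?_) (c m).injective.injOn (fun y hy => ?_) fun _ _ => rfl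
    · obtain ⟨m', -, rfl⟩ := mem_image.1 hy
      exact mem_image.2 ⟨m * m', mem_univ _, by simp⟩
    · obtain ⟨m', -, rfl⟩ := mem_image.1 (mem_coe.1 hy)
      exact ⟨c (m⁻¹ * m') x, mem_coe.2 (mem_image.2 ⟨_, mem_univ _, rfl⟩), by simp⟩
  let f : G ⧸ N → Module.End F V := Quotient.lift (fun g => ρ g * π a * ρ g⁻¹) fun g g' h => by
    have h1 := ha3 ⟨_, QuotientGroup.leftRel_apply.1 h⟩
    change ρ g * π a * ρ g⁻¹ = ρ g' * π a * ρ g'⁻¹
    conv_lhs => rw [← h1]
    simp only [← mul_assoc, ← map_mul]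
    rw [mul_assoc _ (ρ _) (ρ _), ← map_mul]
    simp
  have hf : ∀ (g : G) (q : G ⧸ N), f (g • q) = ρ g * f q * ρ g⁻¹ := fun g q => by
    obtain ⟨k, rfl⟩ := QuotientGroup.mk_surjective q
    change ρ (g * k) * π a * ρ (g * k)⁻¹ = ρ g * (ρ k * π a * ρ k⁻¹) * ρ g⁻¹
    simp only [mul_inv_rev, map_mul, mul_assoc]
  set T := ∑ q, f q with hT
  have hTc : ∀ g, ρ g * T = T * ρ g := fun g => by
    have h1 : T = ρ g * T * ρ g⁻¹ := by
      rw [hT, mul_sum, sum_mul, ← Equiv.sum_comp (MulAction.toPerm g)]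
      exact sum_congr rfl fun q _ => hf g q
    conv_rhs => rw [h1]
    rw [mul_assoc, ← map_mul]; simp
  have hkill : ∀ s, 2 * l ≤ s + p ^ n → Y ^ s * T = Y ^ s * π a := fun s hs => by
    rw [hT, ← add_sum_erase _ _ (mem_univ ((1 : G) : G ⧸ N)), mul_add, mul_sum,
      sum_eq_zero_of_free (P := P) (fun q => Y ^ s * f q), add_zero]
    · change Y ^ s * (ρ 1 * π a * ρ 1⁻¹) = _
      simp
    · intro u q hq
      refine mem_erase.2 ⟨fun e => (mem_erase.1 hq).1 ?_, mem_univ _⟩
      rw [smul_eq_iff_eq_inv_smul] at e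
      rw [e]
      exact MulAction.mem_stabilizer_iff.1 (by
        change ((u⁻¹ : P) : G) ∈ MulAction.stabilizer G ((1 : G) : G ⧸ N)
        rw [MulAction.stabilizer_quotient]; exact le_normalizer (u⁻¹).2)
    · intro q hq u hu
      obtain ⟨g, rfl⟩ := QuotientGroup.mk_surjective q
      have h1 : g⁻¹ * u * g ∈ N := by
        have := QuotientGroup.eq.1 (show ((g : G) : G ⧸ N) = ((u * g : G) : G ⧸ N) from hu.symm)
        rwa [← mul_assoc] at this
      have h2 : g • P ≠ P := fun e => (mem_erase.1 hq).1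
        (QuotientGroup.eq.2 (by
          rw [mul_one]; exact inv_mem (Sylow.smul_eq_iff_mem_normalizer.1 e)))
      have h3 : g⁻¹ * u * g ∈ (P : Subgroup G) := by
        have h4 : IsPGroup p (zpowers (g⁻¹ * u * g)) := by
          rw [IsPGroup.iff_card, Nat.card_zpowers]
          obtain ⟨k, hk⟩ := IsPGroup.iff_orderOf.1 P.isPGroup' u
          refine ⟨k, ?_⟩
          rw [← hk, ← orderOf_coe]
          exact (SemiconjBy.orderOf_eq g (by simp [SemiconjBy, mul_assoc]))
        have h5 := h4.inf_normalizer_sylow P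
        exact (h5.le ⟨mem_zpowers _, h1⟩).2
      have h4 : (u : G) ∈ ((g • P : Sylow p G) : Subgroup G) := by
        rw [Sylow.coe_subgroup_smul, mem_pointwise_smul_iff_inv_smul_mem]
        simpa using h3
      exact Subtype.ext (mem_bot.1 (hTI _ h2 ▸ mem_inf.2 ⟨u.2, h4⟩))
    · intro q hq
      rw [← mul_sum, ← trace_kill (F := F) p n z hl0 hs (f q)]
      congr 1
      symm
      refine sum_nbij (fun k => x ^ k) (fun _ _ => mem_univ _) (fun i hi j hj e => ?_)
        (fun u _ => ?_) fun k _ => ?_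
      · exact pow_injOn_Iio_orderOf (by simpa [hox] using hi) (by simpa [hox] using hj) e
      · obtain ⟨k, hk, e⟩ := mem_image.1 ((mem_zpowers_iff_mem_range_orderOf).1 (hx u))
        exact ⟨k, by simpa [hox] using hk, e⟩
      · rw [hz, hz']
        exact (hf _ q).symm
  by_contra hlt
  let K : Subrepresentation ρ := ⟨LinearMap.ker T, fun g v hv => by
    rw [LinearMap.mem_ker] at hv ⊢
    rw [← Module.End.mul_apply, ← hTc, Module.End.mul_apply, hv, map_zero]⟩
  rcases hirr.eq_bot_or_eq_top K with e | e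
  · have h1 : Function.Injective T := LinearMap.ker_eq_bot.1 (congrArg (·.toSubmodule) e)
    obtain ⟨b, hb⟩ := ha1
    have h2 := hkill (l - 1) (by omega)
    rw [hb, map_mul, hπx, ← mul_assoc, ← pow_succ, Nat.sub_add_cancel (by omega), hl0,
      zero_mul] at h2
    have h3 : Commute Y T := (show Commute (z : Module.End F V) T from hTc x).sub_left
      (Commute.one_left _)
    rw [(h3.pow_left _).eq] at h2
    exact hl3 (LinearMap.ext fun v => h1 (by
      rw [← Module.End.mul_apply, h2]; simp))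
  · have h1 : T = 0 := LinearMap.ker_eq_top.1 (congrArg (·.toSubmodule) e)
    obtain ⟨b, hb⟩ := ha2
    have h2 := hkill (l - 1 - #O) (by omega)
    rw [h1, mul_zero] at h2
    apply hl3
    rw [show l - 1 = l - 1 - #O + #O by omega, pow_add, ← hπx, ← map_pow π _ #O, hb, map_mul,
      ← mul_assoc, hπx, ← h2, zero_mul]

end Cfsg.Agent.H7
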