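import Cfsg.Agent.H7.Gt9
set_option autoImplicit false
set_option maxRecDepth 100000

namespace Cfsg.Agent.H7.Gt
open Cfsg.Agent.H15 Cfsg.Agent.H14

theorem fz_0 : X24.τ.scan Az (PL.full X24.τ.n) Iz 0 51156 = true := by decide +kernel
theorem fz_51156 : X24.τ.scan Az (PL.full X24.τ.n) Iz 51156 102312 = true := by decide +kernel
theorem fz_102312 : X24.τ.scan Az (PL.full X24.τ.n) Iz 102312 153468 = true := by decide +kernel

end Cfsg.Agent.H7.Gt
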