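import Mathlib
import Cfsg.Prelude.Def_Characters
import Cfsg.Agent.H7.McKay2

/-!
The Isaacs correspondence: the step over an abelian factor.
-/

namespace Cfsg.Agent.H7

open Cfsg
open scoped ComplexConjugate commutatorElement Pointwise

universe u

/-- The Glauberman correspondence for an automorphism of prime order. -/
theorem glP_aut {G C : Type*} [Group G] [Group C] [Finite G] [Finite C] {p : ℕ} (hp : p.Prime)
    (hG : ¬ p ∣ Nat.card G) (α : MulAut G) (hα : α ^ p = 1) {j : C →* G}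
    (hj : Function.Injective j) (fix : ∀ g, g ∈ j.range ↔ α g = g) :
    (∀ χ, IsIrrCharacter G χ → (∀ g, χ (α g) = χ g) →
      ∃ β, IsIrrCharacter C β ∧ PCong p (fun c => χ (j c)) β) ∧
    (∀ χ χ' β, IsIrrCharacter G χ → (∀ g, χ (α g) = χ g) → IsIrrCharacter G χ' →
      (∀ g, χ' (α g) = χ' g) → IsIrrCharacter C β → PCong p (fun c => χ (j c)) β →
      PCong p (fun c => χ' (j c)) β → χ = χ') ∧
    ∀ β, IsIrrCharacter C β → ∃ χ, IsIrrCharacter G χ ∧ (∀ g, χ (α g) = χ g) ∧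
      PCong p (fun c => χ (j c)) β := by
  let Γ := G ⋊[(Subgroup.zpowers α).subtype] Subgroup.zpowers α
  haveI : Finite Γ := Finite.of_equiv _ SemidirectProduct.equivProd.symm
  let f : G →* Γ := SemidirectProduct.inl
  have hf : IsNE f := ⟨SemidirectProduct.inl_injective, by
    rw [SemidirectProduct.range_inl_eq_ker_rightHom]; infer_instance⟩
  let a : Subgroup.zpowers α := ⟨α, Subgroup.mem_zpowers α⟩
  let s : Γ := SemidirectProduct.inr a
  have hs : s ^ p ^ 1 = 1 := by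
    rw [pow_one, ← map_pow, show a ^ p = 1 from Subtype.ext hα, map_one]
  have e : ∀ g, f (α g) = s * f g * s⁻¹ := fun g => by
    rw [← map_inv]; exact SemidirectProduct.inl_aut a g
  have hc : CycSet f j s := ⟨hf, hj, ((hp.coprime_iff_not_dvd.mpr hG).symm).coprime_dvd_right
    (pow_one p ▸ orderOf_dvd_of_pow_eq_one hs), fun g => by
      rw [fix, ← hf.inj.eq_iff, e, mul_inv_eq_iff_eq_mul, eq_comm]; rfl⟩
  have gen : ∀ x, ∃ (k : ℤ) (n : G), x = s ^ k * f n := fun x => by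
    obtain ⟨k, hk⟩ := Subgroup.mem_zpowers_iff.mp x.right.2
    obtain ⟨n, hn⟩ := hf.normal.conj_mem _ ⟨x.left, rfl⟩ (s ^ k)⁻¹
    refine ⟨k, n, ?_⟩
    rw [hn, ← map_zpow, show a ^ k = x.right from Subtype.ext hk, inv_inv, ← mul_assoc, ← mul_assoc,
      mul_inv_cancel, one_mul, SemidirectProduct.inl_left_mul_inr_right]
  have hex : ∀ χ, IsIrrCharacter G χ → (∀ g, χ (α g) = χ g) →
      ∃ (χh : Γ → ℂ) (ε : ℤ) (β : C → ℂ), IsCharacter Γ χh ∧ (∀ g, χh (f g) = χ g) ∧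
        (ε = 1 ∨ ε = -1) ∧ IsIrrCharacter C β ∧ (∀ c, χh (f (j c) * s) = ε * β c) ∧
        PCong p (fun c => χ (j c)) β := by
    intro χ hχ hinv
    obtain ⟨χh, h1, h2, h3⟩ := hc.exists_canExt gen hχ (hc.inv_of_fix gen (irr_cf hχ)
      (funext fun g => by rw [IsNE.cjf_apply, hf.cj_eq (e g), hinv]))
    obtain ⟨ε, β, h4, h5, h6⟩ := hc.exists_corr gen hχ (irr_char h1) h2 h3
    refine ⟨χh, ε, β, irr_char h1, h2, h4, h5, h6, ?_⟩
    simpa only [h2] using hc.pCong hp hs (irr_char h1) h4 h5 h6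
  have hε : ∀ ε : ℤ, (ε = 1 ∨ ε = -1) → (ε : ℂ) ≠ 0 := by rintro _ (rfl | rfl) <;> simp
  refine ⟨fun χ hχ hinv => ?_, fun χ χ' β hχ hinv hχ' hinv' hβ e e' => ?_, fun β hβ => ?_⟩
  · obtain ⟨_, _, β, -, -, -, h1, -, h2⟩ := hex χ hχ hinv
    exact ⟨β, h1, h2⟩
  · obtain ⟨χh, ε, γ, h1, h2, h3, h4, h5, h6⟩ := hex χ hχ hinv
    obtain ⟨χh', ε', γ', h1', h2', h3', h4', h5', h6'⟩ := hex χ' hχ' hinv'
    obtain rfl := e.unique hp h6 hβ h4
    obtain rfl := e'.unique hp h6' hβ h4'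
    exact hc.corr_inj hχ hχ' h1 h1' h2 h2' (hε _ h3) (hε _ h3') hβ h5 h5'
  · obtain ⟨χh, ε, h1, h2, -, h4, h5⟩ := hc.corr_surj gen hβ
    exact ⟨_, h2, fun g => by rw [e, irr_cf h1], hc.pCong hp hs (irr_char h1) h4 hβ h5⟩

section Central

variable {Q : Type*} [Group Q] [Finite Q] {Z K S M : Subgroup Q}

/-- An involutory automorphism inverting `K / Z` and centralizing a supplement. -/
theorem exists_inverting [hK : K.Normal] (hZ : Z ≤ Subgroup.center Q) (hZK : Z ≤ K)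
    (hab : ⁅K, K⁆ ≤ Z) (hcop : (Nat.card S).Coprime (Nat.card K)) (hM : Nrm M S)
    (h1 : K ⊔ M = ⊤) (h2 : K ⊓ M ≤ Z) (h3 : K ⊓ Subgroup.centralizer (S : Set Q) ≤ M) :
    ∃ τ : MulAut Q, (∀ x, τ (τ x) = x) ∧ (∀ m ∈ M, τ m = m) ∧ ∀ k ∈ K, k * τ k ∈ Z := by
  have c : ∀ z ∈ Z, ∀ x, x * z = z * x := fun z hz => Subgroup.mem_center_iff.mp (hZ hz)
  have nZ : ∀ z ∈ Z, ∀ x, x * z * x⁻¹ ∈ Z := fun z hz x => by rwa [c z hz, mul_inv_cancel_right]
  have hc : ∀ x ∈ K, ∀ y ∈ K, ⁅x, y⁆ ∈ Z := fun x hx y hy =>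
    hab (Subgroup.commutator_mem_commutator hx hy)
  have r : ∀ {x y}, x ∈ K → x * y ∈ Z → y ∈ K := fun h h' => (K.mul_mem_cancel_left h).mp (hZK h')
  have r' : ∀ {x y}, x * y ∈ Z → y * x ∈ Z := fun {x y} h => by simpa [mul_assoc] using nZ _ h y
  let D : Subgroup (Q × Q) :=
    { carrier := {x | x.1 ∈ K ∧ x.1 * x.2 ∈ Z}
      one_mem' := ⟨one_mem _, by simp⟩
      mul_mem' := fun {x y} hx hy => ⟨mul_mem hx.1 hy.1, by
        convert Z.mul_mem (Z.mul_mem hx.2 (hc _ (inv_mem (r hx.1 hx.2)) _ hy.1)) hy.2 using 1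
        simp only [commutatorElement_def, Prod.fst_mul, Prod.snd_mul]
        group⟩
      inv_mem' := fun {x} hx => ⟨inv_mem hx.1, by simpa using Z.inv_mem (r' hx.2)⟩ }
  let Δ : Q →* Q × Q := (MonoidHom.id Q).prod (MonoidHom.id Q)
  have hΔ : Function.Injective Δ := fun a b e => congrArg Prod.fst e
  have nD : ∀ A : Subgroup Q, Nrm (A.map Δ) D := by
    rintro A _ ⟨a, -, rfl⟩ x hx
    exact ⟨hK.conj_mem _ hx.1 a, by simpa [Δ, mul_assoc] using nZ _ hx.2 a⟩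
  have nS : Nrm (M.map Δ) (S.map Δ) := nrm_iff.mpr (H1.le_normalizer_map Δ hM.le_normalizer)
  have hW : ⁅D, S.map Δ⁆ ≤ D := H1.commutator_le_left_of_le_normalizer (nD S).le_normalizer
  have nW : Nrm (M.map Δ) ⁅D, S.map Δ⁆ :=
    nrm_iff.mpr (H1.le_normalizer_commutator (nD M).le_normalizer nS.le_normalizer)
  have l1 : ∀ z ∈ Z, ∀ a b, ⁅a * z, b⁆ = ⁅a, b⁆ := fun z hz a b => by
    rw [show ⁅a * z, b⁆ = a * (z * b * z⁻¹) * a⁻¹ * b⁻¹ by rw [commutatorElement_def]; group,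
      ← c z hz b, mul_inv_cancel_right, commutatorElement_def]
  have hD : ⁅D, D⁆ ≤ Δ.range := Subgroup.commutator_le.mpr fun x hx y hy =>
    ⟨⁅x.1, y.1⁆, Prod.ext rfl (by
      change ⁅x.1, y.1⁆ = ⁅x.2, y.2⁆
      rw [← inv_mul_cancel_left x.1 x.2, ← inv_mul_cancel_left y.1 y.2, l1 _ hx.2,
        ← commutatorElement_inv _ x.1⁻¹, l1 _ hy.2, commutatorElement_inv,
        ← mul_inv_cancel_right ⁅x.1, y.1⁆ (y.1 * x.1)⁻¹, ← c _ (hc _ hx.1 _ hy.1)]
      simp only [commutatorElement_def]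
      group)⟩
  have hDc : (Nat.card (S.map Δ)).Coprime (Nat.card D) := by
    rw [Subgroup.card_map_of_injective hΔ]
    refine (hcop.mul_right hcop).coprime_dvd_right ?_
    rw [← Nat.card_prod, ← Nat.card_congr (K.prodEquiv K).toEquiv]
    exact Subgroup.card_dvd_of_le fun x hx => ⟨hx.1, r hx.1 hx.2⟩
  let T := ⁅D, S.map Δ⁆ ⊔ M.map Δ
  have mem : ∀ {x}, x ∈ T → ∃ w ∈ ⁅D, S.map Δ⁆, ∃ m ∈ M, x = w * Δ m := fun hx => by
    obtain ⟨w, hw, _, ⟨m, hm, rfl⟩, e⟩ := nW.mem_sup.mp hx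
    exact ⟨w, hw, m, hm, e⟩
  have diag : ∀ w ∈ ⁅D, S.map Δ⁆, w.1 ∈ Z → w.1 = w.2 := fun w hw h => by
    obtain ⟨y, hy⟩ := hD (H1.centralizer_inf_commutator_le _ _ (nD S).le_normalizer hDc
      ⟨⟨hW hw, by
        rintro _ ⟨s, -, rfl⟩
        exact Prod.ext (c _ h s) (c _ ((Z.mul_mem_cancel_left h).mp (hW hw).2) s)⟩, hw⟩)
    rw [← hy]; rfl
  let φ := (MonoidHom.fst Q Q).comp T.subtype
  have hφ : Function.Bijective φ := ⟨(injective_iff_map_eq_one φ).mpr fun x hx => by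
    obtain ⟨w, hw, m, hm, e⟩ := mem x.2
    have h4 : w.1 * m = 1 := (congrArg Prod.fst e).symm.trans hx
    have h5 := diag w hw (eq_inv_of_mul_eq_one_left h4 ▸ Z.inv_mem (h2 ⟨eq_inv_of_mul_eq_one_right h4 ▸
      K.inv_mem (hW hw).1, hm⟩))
    exact Subtype.ext (e.trans (Prod.ext h4 (h5 ▸ h4 : w.2 * m = 1))), by
      rw [← MonoidHom.range_eq_top, MonoidHom.range_comp, Subgroup.range_subtype, eq_top_iff, ← h1]
      have h4 : M ≤ T.map (MonoidHom.fst Q Q) := fun m hm =>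
        ⟨_, Subgroup.mem_sup_right ⟨m, hm, rfl⟩, rfl⟩
      refine sup_le ?_ h4
      rw [← H1.commutator_sup_centralizer S K Subgroup.le_normalizer_of_normal hcop
        (Or.inr (H1.isSolvable_of_le (K := K) le_rfl ⟨2, ?_⟩))]
      · refine sup_le (Subgroup.commutator_le.mpr fun k hk s hs => ⟨⁅(k, k⁻¹), Δ s⁆,
          Subgroup.mem_sup_left (Subgroup.commutator_mem_commutator ⟨hk, by simp⟩ ⟨s, hs, rfl⟩), rfl⟩)
          (h3.trans h4)
      · refine eq_bot_iff.mpr (Subgroup.commutator_le.mpr fun a ha b _ => ?_)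
        have : (a : Q) ∈ Z := commutator_le_range_inclusion hZK hab ha |>.elim
          fun z e => e ▸ z.2
        exact commutatorElement_eq_one_iff_mul_comm.mpr (Subtype.ext (c _ this b).symm)⟩
  let τ := ((MonoidHom.snd Q Q).comp T.subtype).comp (MulEquiv.ofBijective φ hφ).symm.toMonoidHom
  have t1 : ∀ x ∈ T, τ x.1 = x.2 := fun x hx =>
    congrArg (fun y : T => y.1.2) ((MulEquiv.ofBijective φ hφ).symm_apply_apply ⟨x, hx⟩)
  have t2 : ∀ x, (x, τ x) ∈ T := fun x => by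
    obtain ⟨y, rfl⟩ := hφ.2 x
    exact (t1 _ y.2).symm ▸ y.2
  have t3 : T ≤ T.comap (MulEquiv.prodComm : Q × Q ≃* Q × Q).toMonoidHom := sup_le
    (Subgroup.commutator_le.mpr fun x hx y hy => Subgroup.mem_sup_left
      (Subgroup.commutator_mem_commutator (g₁ := x.swap) (g₂ := y.swap) ⟨r hx.1 hx.2, r' hx.2⟩
        (by obtain ⟨s, hs, rfl⟩ := hy; exact ⟨s, hs, rfl⟩)))
    (by rintro _ ⟨m, hm, rfl⟩; exact Subgroup.mem_sup_right ⟨m, hm, rfl⟩)
  have t4 : ∀ x, τ (τ x) = x := fun x => t1 _ (t3 (t2 x))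
  refine ⟨{ τ with invFun := τ, left_inv := t4, right_inv := t4 }, t4,
    fun m hm => t1 _ (Subgroup.mem_sup_right ⟨m, hm, rfl⟩), fun k hk => ?_⟩
  obtain ⟨w, hw, m, hm, e⟩ := mem (t2 k)
  have h4 : k = w.1 * m := congrArg Prod.fst e
  have h5 : τ k = w.2 * m := congrArg Prod.snd e
  have h6 := h2 ⟨(K.mul_mem_cancel_left (hW hw).1).mp (h4 ▸ hk), hm⟩
  change k * τ k ∈ Z
  rw [h5, h4, ← mul_assoc, mul_assoc w.1, ← c m h6, ← mul_assoc]
  exact mul_mem (mul_mem (hW hw).2 h6) h6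

theorem exists_central_hom {Y : Subgroup Q} (h : Y ≤ K)
    (hY : Y ≤ Subgroup.centralizer (K : Set Q)) {θ : K → ℂ} (hθ : IsIrrCharacter K θ) :
    ∃ μ : Y →* ℂˣ, ∀ y x, θ (Subgroup.inclusion h y * x) = μ y * θ x := by
  obtain ⟨ψ, h1, h2⟩ := exists_irr_under (Subgroup.inclusion h) hθ
  obtain ⟨μ, rfl⟩ := exists_linFun (irr_char h1) (irr_one_eq_one_of_comm
    (fun a b => Subtype.ext (hY b.2 _ (h a.2))) h1)
  exact ⟨μ, central_mul (fun n => Subgroup.mem_center_iff.mpr fun x => Subtype.ext (hY n.2 _ x.2))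
    hθ h1 h2⟩

/-- The invariant character over a faithful central character is unique. -/
theorem eq_of_sInv_central (hZ : Z ≤ Subgroup.center Q) (hZK : Z ≤ K) (hab : ⁅K, K⁆ ≤ Z)
    (hcop : (Nat.card S).Coprime (Nat.card K)) (hS : Nrm S K)
    (h3 : K ⊓ Subgroup.centralizer (S : Set Q) ≤ Z) {lam : Z →* ℂˣ} (hl : Function.Injective lam)
    {θ θ' : K → ℂ} (hθ : IsIrrCharacter K θ) (hθ' : IsIrrCharacter K θ') (hi : SInv S K θ)
    (hi' : SInv S K θ') (ho : Ov hZK θ (linFun lam)) (ho' : Ov hZK θ' (linFun lam)) : θ = θ' := by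
  let Y := K ⊓ Subgroup.centralizer (K : Set Q)
  have hY : Nrm S Y := hS.inf_right hS.cent
  have hZY : Z ≤ Y := le_inf hZK (hZ.trans (Subgroup.center_le_centralizer _))
  have key : ∀ θ : K → ℂ, IsIrrCharacter K θ → SInv S K θ → Ov hZK θ (linFun lam) →
      ∃ μ : Y →* ℂˣ, (∀ y : Y, θ (Subgroup.inclusion inf_le_left y) = μ y * θ 1) ∧
        (∀ z, μ (Subgroup.inclusion hZY z) = lam z) ∧ ⁅Y, S⁆ ≤ μ.ker.map Y.subtype ∧
        ∀ x : K, (x : Q) ∉ Y → θ x = 0 := fun θ hθ hi ho => by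
    obtain ⟨μ, h⟩ := exists_central_hom (Y := Y) inf_le_left inf_le_right hθ
    have h0 := irr_one_ne_zero hθ
    have h1 : ∀ y : Y, θ (Subgroup.inclusion inf_le_left y) = μ y * θ 1 := fun y => by
      rw [← h, mul_one]
    have h2 := central_mul (f := Subgroup.inclusion hZK) (fun n => Subgroup.mem_center_iff.mpr
      fun x => Subtype.ext (Subgroup.mem_center_iff.mp (hZ n.2) x)) hθ (irr_linFun lam) ho
    refine ⟨μ, h1, fun z => Units.ext (mul_right_cancel₀ h0 ((h _ 1).symm.trans (h2 z 1))),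
      Subgroup.commutator_le.mpr fun y hy s hs => ⟨⟨y, hy⟩ * (cjHom s (hY s hs) ⟨y, hy⟩)⁻¹, ?_,
        by simp [cjHom_coe, commutatorElement_def, mul_assoc]⟩, fun x hx => ?_⟩
    · rw [SetLike.mem_coe, MonoidHom.mem_ker, map_mul, map_inv, mul_inv_eq_one]
      exact Units.ext (mul_right_cancel₀ h0 ((h1 _).symm.trans ((hi s hs _ _ rfl).symm.trans (h1 _))))
    · obtain ⟨g, hg, e⟩ : ∃ g ∈ K, g * x ≠ x * g := by
        by_contra! H
        exact hx ⟨x.2, H⟩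
      let z : Z := ⟨⁅g, x⁆, hab (Subgroup.commutator_mem_commutator hg x.2)⟩
      refine vanish_of_commutator (x := ⟨g, hg⟩) (irr_cf hθ) (H6.mem_charCenter.mpr ⟨_,
        (lam z).ne_zero, h2 z⟩) fun a => e (commutatorElement_eq_one_iff_mul_comm.mp
          (congrArg Subtype.val ((injective_iff_map_eq_one lam).mp hl z (Units.ext
            (mul_right_cancel₀ h0 ?_)))))
      exact (h2 z 1).symm.trans ((a 1).trans (one_mul _).symm)
  obtain ⟨μ, a1, a2, a3, a4⟩ := key θ hθ hi ho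
  obtain ⟨μ', b1, b2, b3, b4⟩ := key θ' hθ' hi' ho'
  have e : θ' 1 • θ = θ 1 • θ' := funext fun x => by
    by_cases hx : (x : Q) ∈ Y
    · obtain ⟨n, hn, z, hz, e⟩ := H1.exists_eq_commutator_mul_centralizer S Y hY.le_normalizer
        (hcop.coprime_dvd_right (Subgroup.card_dvd_of_le inf_le_left)) (Or.inr
          (Group.isSolvable_of_comm fun a b => Subtype.ext (b.2.2 _ a.2.1))) _ hx
      obtain ⟨n, h1, rfl⟩ := a3 hn
      obtain ⟨n', h2, e'⟩ := b3 hn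
      obtain rfl : n' = n := Subtype.ext e'
      have e1 : x = Subgroup.inclusion inf_le_left
        (n' * Subgroup.inclusion hZY ⟨z, h3 ⟨hz.1.1, hz.2⟩⟩) := Subtype.ext e
      rw [Pi.smul_apply, Pi.smul_apply, e1, a1, b1, map_mul, map_mul, a2, b2,
        (MonoidHom.mem_ker).mp h1, (MonoidHom.mem_ker).mp h2, smul_eq_mul, smul_eq_mul]
      ring
    · simp [a4 x hx, b4 x hx]
  refine (irr_eq_of_ip_ne_zero hθ' hθ fun a => irr_one_ne_zero hθ' ?_).symm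
  simpa [ip_smul_left, ip_irr_self hθ, a] using congrArg (ip · θ) e

end Central

/-- `ψ` has odd multiplicity in the restriction of `χ`. -/
def OddM {G H : Type*} [Group G] [Group H] [Finite H] (j : H →* G) (χ : G → ℂ) (ψ : H → ℂ) : Prop :=
  ∃ m : ℕ, ip (fun h => χ (j h)) ψ = m ∧ Odd m

/-- Odd multiplicity defines a bijection. -/
structure OddCor {G H : Type*} [Group G] [Group H] [Finite H] (j : H →* G) (A : (G → ℂ) → Prop)
    (B : (H → ℂ) → Prop) : Prop where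
  ex : ∀ χ, A χ → ∃ ψ, B ψ ∧ OddM j χ ψ
  uniq : ∀ χ ψ ψ', A χ → B ψ → B ψ' → OddM j χ ψ → OddM j χ ψ' → ψ = ψ'
  inj : ∀ χ χ' ψ, A χ → A χ' → B ψ → OddM j χ ψ → OddM j χ' ψ → χ = χ'
  surj : ∀ ψ, B ψ → ∃ χ, A χ ∧ OddM j χ ψ

/-- `r` is the graph of a bijection between `A` and `A'`. -/
structure RelBij {X Y : Type*} (A : X → Prop) (A' : Y → Prop) (r : X → Y → Prop) : Prop where
  right : ∀ x, A x → ∃ y, A' y ∧ r x y
  left : ∀ y, A' y → ∃ x, A x ∧ r x y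
  uright : ∀ x y y', A x → A' y → A' y' → r x y → r x y' → y = y'
  uleft : ∀ x x' y, A x → A x' → A' y → r x y → r x' y → x = x'

theorem OddCor.transfer {G H G' H' : Type*} [Group G] [Group H] [Finite H] [Group G'] [Group H']
    [Finite H'] {j : H →* G} {j' : H' →* G'} {A B A' B'} (h : OddCor j' A' B') {r s}
    (hr : RelBij A A' r) (hs : RelBij B B' s)
    (e : ∀ χ χ' ψ ψ', A χ → A' χ' → B ψ → B' ψ' → r χ χ' → s ψ ψ' →
      ip (fun h => χ (j h)) ψ = ip (fun h => χ' (j' h)) ψ') : OddCor j A B := by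
  have e' : ∀ {χ χ' ψ ψ'}, A χ → A' χ' → B ψ → B' ψ' → r χ χ' → s ψ ψ' →
      (OddM j χ ψ ↔ OddM j' χ' ψ') := fun a b c d f g => by rw [OddM, e _ _ _ _ a b c d f g, OddM]
  refine ⟨fun χ a => ?_, fun χ ψ φ a b c d f => ?_, fun χ ξ ψ a b c d f => ?_, fun ψ a => ?_⟩
  · obtain ⟨χ', a', r1⟩ := hr.right χ a
    obtain ⟨ψ', b', o⟩ := h.ex χ' a'
    obtain ⟨ψ, b, s1⟩ := hs.left ψ' b'
    exact ⟨ψ, b, (e' a a' b b' r1 s1).mpr o⟩
  · obtain ⟨χ', a', r1⟩ := hr.right χ a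
    obtain ⟨ψ', b', s1⟩ := hs.right ψ b
    obtain ⟨φ', c', s2⟩ := hs.right φ c
    obtain rfl := h.uniq χ' ψ' φ' a' b' c' ((e' a a' b b' r1 s1).mp d) ((e' a a' c c' r1 s2).mp f)
    exact hs.uleft _ _ _ b c b' s1 s2
  · obtain ⟨χ', a', r1⟩ := hr.right χ a
    obtain ⟨ξ', b', r2⟩ := hr.right ξ b
    obtain ⟨ψ', c', s1⟩ := hs.right ψ c
    obtain rfl := h.inj χ' ξ' ψ' a' b' c' ((e' a a' c c' r1 s1).mp d) ((e' b b' c c' r2 s1).mp f)
    exact hr.uleft _ _ _ a b a' r1 r2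
  · obtain ⟨ψ', a', s1⟩ := hs.right ψ a
    obtain ⟨χ', b', o⟩ := h.surj ψ' a'
    obtain ⟨χ, b, r1⟩ := hr.left χ' b'
    exact ⟨χ, b, (e' b b' a a' r1 s1).mpr o⟩

section Ambient

variable {Γ : Type*} [Group Γ] [Finite Γ]

theorem OddM.ne_zero {G H : Type*} [Group G] [Group H] [Finite H] {j : H →* G} {χ : G → ℂ}
    {ψ : H → ℂ} (h : OddM j χ ψ) : ip (fun h => χ (j h)) ψ ≠ 0 := by
  obtain ⟨m, h1, h2⟩ := h
  exact h1 ▸ Nat.cast_ne_zero.mpr h2.pos.ne'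

/-- Invariant irreducible characters over `φ`. -/
def IOv (S : Subgroup Γ) {L G : Subgroup Γ} (h : L ≤ G) (φ : L → ℂ) (χ : G → ℂ) : Prop :=
  IsIrrCharacter G χ ∧ SInv S G χ ∧ Ov h χ φ

theorem Ov.cjHom {L G : Subgroup Γ} {h : L ≤ G} {χ : G → ℂ} {φ : L → ℂ} (ho : Ov h χ φ) {x : Γ}
    (hG : ∀ g ∈ G, x * g * x⁻¹ ∈ G) (hL : ∀ g ∈ L, x * g * x⁻¹ ∈ L) :
    Ov h (fun g => χ (cjHom x hG g)) fun l => φ (cjHom x hL l) :=
  fun a => ho ((ip_cjHom x hL _ _).symm.trans a)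

theorem exists_sInv_under' {S G N : Subgroup Γ} (hG : Nrm S G) (hN : N ≤ G) (hn : Nrm G N)
    (hSN : Nrm S N) (hcop : (Nat.card S).Coprime (Nat.card G)) (ho : Odd (Nat.card G))
    {χ : G → ℂ} (hχ : IsIrrCharacter G χ) (hi : SInv S G χ) :
    ∃ θ, IsIrrCharacter N θ ∧ SInv S N θ ∧ Ov hN χ θ :=
  haveI := hn.normal_subgroupOf
  haveI := hSN.normal_subgroupOf
  haveI := FT.odd_order_solvable ho
  exists_sInv_under hG hN hn hSN ((hcop.coprime_dvd_left (Subgroup.index_dvd_card _)).coprime_dvd_right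
    (Subgroup.index_dvd_card _)) (Or.inr inferInstance) hχ hi

theorem oddCor_central {Z K H G S : Subgroup Γ} [hK : K.Normal] [hG : G.Normal]
    (hZ : Z ≤ Subgroup.center Γ) (hZK : Z ≤ K) (hZH : Z ≤ H) (hab : ⁅K, K⁆ ≤ Z) (e : K ⊔ H = G)
    (e' : G ⊔ S = ⊤) (hcop : (Nat.card S).Coprime (Nat.card G)) (ho : Odd (Nat.card G))
    (h1 : H ≤ Subgroup.centralizer (S : Set Γ)) (h3 : K ⊓ Subgroup.centralizer (S : Set Γ) ≤ Z)
    {lam : Z →* ℂˣ} (hl : Function.Injective lam) (hHG : H ≤ G) :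
    OddCor (Subgroup.inclusion hHG) (IOv S (hZH.trans hHG) (linFun lam)) (IOv S hZH (linFun lam)) := by
  have hKG : K ≤ G := e ▸ le_sup_left
  have nK : Nrm ⊤ K := fun g _ x hx => hK.conj_mem x hx g
  have nG : Nrm ⊤ G := fun g _ x hx => hG.conj_mem x hx g
  have nZ : Nrm ⊤ Z := nrm_of_cent (Subgroup.le_centralizer_iff.mp
    (hZ.trans (Subgroup.center_le_centralizer _)))
  have iZ : SInv ⊤ Z (linFun lam) :=
    sInv_of_centralizer (hZ.trans (Subgroup.center_le_centralizer _)) _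
  have hSH : Nrm S H := nrm_of_cent (Subgroup.le_centralizer_iff.mp h1)
  have hcK := hcop.coprime_dvd_right (Subgroup.card_dvd_of_le hKG)
  obtain ⟨τ, t1, t2, t3⟩ := exists_inverting (M := H ⊔ S) hZ hZK hab hcK
    ((nrm_of_cent h1).sup (nrm_self S)) (by rw [← sup_assoc, e, e']) (fun x hx => by
      obtain ⟨h, hh, s, hs, rfl⟩ := hSH.mem_sup.mp hx.2
      obtain rfl := Subgroup.disjoint_def.mp (Subgroup.disjoint_of_coprime_natCard hcop) hs
        ((G.mul_mem_cancel_left (hHG hh)).mp (hKG hx.1))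
      exact h3 ⟨hx.1, by simpa using h1 hh⟩) (h3.trans (hZH.trans le_sup_left))
  have dec : ∀ g ∈ G, ∃ k ∈ K, ∃ h ∈ H, g = k * h := fun g hg => (nK.mono le_top).mem_sup.mp (e.ge hg)
  have t4 : ∀ k ∈ K, τ k ∈ K := fun k hk => (K.mul_mem_cancel_left hk).mp (hZK (t3 k hk))
  have t5 : ∀ g ∈ G, τ g * g⁻¹ ∈ K := fun g hg => by
    obtain ⟨k, hk, h, hh, rfl⟩ := dec g hg
    simpa [t2 h (Subgroup.mem_sup_left hh), mul_assoc] using mul_mem (t4 k hk) (inv_mem hk)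
  have res : ∀ U : Subgroup Γ, K ≤ U → U ≤ G → ∃ α : MulAut U, ∀ x, (α x : Γ) = τ x := fun U a b => by
    have m : ∀ x : U, τ x ∈ U := fun x => by simpa using U.mul_mem (a (t5 x (b x.2))) x.2
    exact ⟨{ toFun := fun x => ⟨τ x, m x⟩, invFun := fun x => ⟨τ x, m x⟩,
             left_inv := fun x => Subtype.ext (t1 x), right_inv := fun x => Subtype.ext (t1 x),
             map_mul' := fun x y => Subtype.ext (map_mul τ _ _) }, fun _ => rfl⟩
  have cj : ∀ {U : Subgroup Γ} {α : MulAut U} (_ : ∀ x, (α x : Γ) = τ x) (s) (_ : s ∈ S)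
      (h : ∀ g ∈ U, s * g * s⁻¹ ∈ U) (x : U), α (cjHom s h x) = cjHom s h (α x) :=
    fun hα s hs h x => Subtype.ext (by simp [hα, cjHom_coe, t2 s (Subgroup.mem_sup_right hs)])
  obtain ⟨α, hα⟩ := res G hKG le_rfl
  have h2 : ¬ 2 ∣ Nat.card G := even_iff_two_dvd.not.mp (Nat.not_even_iff_odd.mpr ho)
  obtain ⟨X1, X2, X3⟩ := glP_aut Nat.prime_two h2 α (MulEquiv.ext fun x => Subtype.ext (by
    simp [pow_two, hα, t1])) (Subgroup.inclusion_injective hHG) fun g => by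
      refine ⟨by rintro ⟨h, rfl⟩; exact Subtype.ext ((hα _).trans (t2 _ (Subgroup.mem_sup_left h.2))),
        fun a => ⟨⟨g, ?_⟩, rfl⟩⟩
      obtain ⟨k, hk, h, hh, e⟩ := dec g g.2
      have a1 : τ k = k := by
        simpa [e, t2 h (Subgroup.mem_sup_left hh)] using (hα g).symm.trans (congrArg Subtype.val a)
      refine e ▸ mul_mem (hZH (H4.mem_of_pow_mem_of_coprime (m := 2) ?_ ?_)) hh
      · exact (Nat.coprime_two_left.mpr ho).coprime_dvd_right
          (Subgroup.orderOf_dvd_natCard _ (hKG hk))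
      · simpa [a1, pow_two] using t3 k hk
  have inv : ∀ χ, IOv S (hZH.trans hHG) (linFun lam) χ → ∀ g, χ (α g) = χ g := by
    rintro χ ⟨a1, a2, a3⟩ g
    obtain ⟨θ, b1, b2, b3⟩ := exists_sInv_under' (nG.mono le_top) hKG (nK.mono le_top)
      (nK.mono le_top) hcop ho a1 a2
    have b4 : Ov hZK θ (linFun lam) := b3.of_under (nZ.mono le_top) a3 a1 b1 (irr_linFun _)
      (iZ.mono le_top)
    have u : ∀ θ', IsIrrCharacter K θ' → SInv S K θ' → Ov hZK θ' (linFun lam) → θ' = θ :=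
      fun θ' c1 c2 c3 => eq_of_sInv_central hZ hZK hab hcK (nK.mono le_top) h3 hl c1 b1 c2 b2 c3 b4
    have b5 : SInv G K θ := e ▸ (sInv_self (irr_cf b1)).sup ((sInv_iff (nK.mono le_top)).mpr
      fun h hh => u _ (irr_cjHom _ _ b1) (b2.cjHom _ (nrm_of_cent h1 h hh)) (by
        rw [← (sInv_iff nZ).mp iZ h trivial]; exact b4.cjHom _ _)) (nrm_self K) (nK.mono le_top)
    obtain ⟨β, hβ⟩ := res K le_rfl hKG
    have b6 := u (fun k => θ (β k)) (irr_comp_surjective β.toMonoidHom β.surjective b1)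
      ((sInv_iff (nK.mono le_top)).mpr fun s hs => funext fun k => by
        rw [cj hβ s hs]; exact b2 s hs _ _ rfl) (by
      rw [Ov, show (fun l => θ (β (Subgroup.inclusion hZK l))) = _ from funext fun l => congrArg θ
        (Subtype.ext ((hβ _).trans (t2 _ (Subgroup.mem_sup_left (hZH l.2)))))]
      exact b4)
    let U := K ⊔ Subgroup.zpowers (g : Γ)
    have hU : U ≤ G := sup_le hKG (Subgroup.zpowers_le.mpr g.2)
    obtain ⟨γ, hγ⟩ := res U le_sup_left hU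
    have hf := isNE_inclusion (le_sup_left : K ≤ U) (nK.mono le_top)
    have gen : ∀ x : U, ∃ (k : ℤ) (n : K), x = ⟨g, Subgroup.mem_sup_right (Subgroup.mem_zpowers _)⟩ ^ k *
        Subgroup.inclusion le_sup_left n := fun x => by
      obtain ⟨i, n, hn, e⟩ := exists_zpow_mul_of_mem_sup (nK.mono le_top) x.2
      exact ⟨i, ⟨n, hn⟩, Subtype.ext e⟩
    obtain ⟨η, c1, c2⟩ := hf.exists_ext_of_cyclic b1 ((inv_inclusion_iff _ hf θ).mpr (b5.mono hU)) _ gen
    have c3 : (fun n => η (Subgroup.inclusion le_sup_left n)) = θ := funext c2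
    have c4 := cf_expand (cf_comp (Subgroup.inclusion hU) (irr_cf a1))
    let g' : U := ⟨g, Subgroup.mem_sup_right (Subgroup.mem_zpowers _)⟩
    rw [show α g = Subgroup.inclusion hU (γ g') from Subtype.ext ((hα _).trans (hγ g').symm)]
    refine (congrFun c4 _).trans (Eq.trans ?_ (congrFun c4 g').symm)
    simp only [Finset.sum_apply, Pi.smul_apply]
    refine Finset.sum_congr rfl fun ξ hξ => ?_
    by_cases c5 : ip (fun x => χ (Subgroup.inclusion hU x)) ξ = 0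
    · simp [c5]
    rw [mem_irrSet] at hξ
    obtain ⟨l, c6, c7⟩ := hf.exists_linear_of_abelian (hf.commutator_le_of_gen gen) c1 hξ
      (c3 ▸ Ov.of_under (h := le_sup_left) (nK.mono le_top) c5 b3 a1 hξ b1 b5)
    have c8 : ∀ n, ξ (Subgroup.inclusion le_sup_left n) = θ n := fun n => by
      simp [c7, linFun_apply, c6, c2]
    exact congrArg (_ • ·) <| hf.comp_eq_of_ext γ.toMonoidHom (m := 2) (fun x => Subtype.ext (by simp [hγ, t1]))
      (fun x => ⟨⟨_, t5 x (hU x.2)⟩, Subtype.ext (by simp [hγ])⟩)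
      ((Nat.coprime_two_left.mpr ho).coprime_dvd_right ((Subgroup.index_dvd_card _).trans
        (Subgroup.card_dvd_of_le hU))) (irr_char hξ) (funext c8 ▸ b1) (fun n => by
          rw [c8, ← congrFun b6 n, ← c8]
          exact congrArg ξ (Subtype.ext ((hγ _).trans (hβ n).symm))) g'
  have odd : ∀ {χ β}, IsIrrCharacter G χ → IsIrrCharacter H β →
      PCong 2 (fun c => χ (Subgroup.inclusion hHG c)) β → OddM (Subgroup.inclusion hHG) χ β :=
    fun a b c => by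
      obtain ⟨m, hm⟩ := ip_char_nat (char_comp (Subgroup.inclusion hHG) (irr_char a)) (irr_char b)
      exact ⟨m, hm, Nat.not_even_iff_odd.mp fun d => c.not_dvd Nat.prime_two b
        (m := m) hm (Int.natCast_dvd_natCast.mpr d.two_dvd)⟩
  have odd' : ∀ {χ β ψ}, IsIrrCharacter H β → IsIrrCharacter H ψ →
      PCong 2 (fun c => χ (Subgroup.inclusion hHG c)) β → OddM (Subgroup.inclusion hHG) χ ψ →
      β = ψ := fun a b c ⟨m, d, d'⟩ => c.eq_of_not_dvd a b (m := m) d fun f =>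
    Nat.not_even_iff_odd.mpr d' (even_iff_two_dvd.mpr (Int.natCast_dvd_natCast.mp f))
  refine ⟨fun χ a => ?_, fun χ ψ ψ' a b c d f => ?_, fun χ χ' ψ a b c d f => ?_, fun ψ a => ?_⟩
  · obtain ⟨β, b, c⟩ := X1 χ a.1 (inv χ a)
    exact ⟨β, ⟨b, sInv_of_centralizer h1 _, Ov.of_under (nZ.mono le_top)
      (c.ip_ne_zero Nat.prime_two b) a.2.2 a.1 b (irr_linFun _) (iZ.mono le_top)⟩, odd a.1 b c⟩
  · obtain ⟨β, b', c'⟩ := X1 χ a.1 (inv χ a)
    exact (odd' b' b.1 c' d).symm.trans (odd' b' c.1 c' f)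
  · obtain ⟨β, b1, c1⟩ := X1 χ a.1 (inv χ a)
    obtain ⟨β', b2, c2⟩ := X1 χ' b.1 (inv χ' b)
    exact X2 χ χ' ψ a.1 (inv χ a) b.1 (inv χ' b) c.1 (odd' b1 c.1 c1 d ▸ c1) (odd' b2 c.1 c2 f ▸ c2)
  · obtain ⟨χ, b, c, d⟩ := X3 ψ a.1
    refine ⟨χ, ⟨b, (sInv_iff (nG.mono le_top)).mpr fun s hs => X2 _ _ ψ (irr_cjHom _ _ b)
      (fun g => by rw [← cj hα s hs, c]) b c a.1 ?_ d, Ov.trans (d.ip_ne_zero Nat.prime_two a.1)
      a.2.2 (irr_char b) a.1 (char_linFun _)⟩, odd b a.1 d⟩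
    convert d using 3 with c
    exact Subtype.ext (by simp [cjHom_coe, h1 c.2 s hs])

theorem oddCor_of_inv {L K H G S : Subgroup Γ} (hLK : L ≤ K) (hLH : L ≤ H) (hHG : H ≤ G)
    (hL : Nrm G L) (hK : Nrm G K) (hSL : Nrm S L) (hSK : Nrm S K) (hSG : Nrm S G)
    (hab : ⁅K, K⁆ ≤ L) (e : K ⊔ H = G) (hcop : (Nat.card S).Coprime (Nat.card G))
    (ho : Odd (Nat.card G)) (h1 : ∀ h ∈ H, ∀ s ∈ S, s * h * s⁻¹ * h⁻¹ ∈ L)
    (h3 : ∀ k ∈ K, (∀ s ∈ S, s * k * s⁻¹ * k⁻¹ ∈ L) → k ∈ L) {φ : L → ℂ}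
    (hφ : IsIrrCharacter L φ) (hi : SInv G L φ) (hi' : SInv S L φ) :
    OddCor (Subgroup.inclusion hHG) (IOv S (hLH.trans hHG) φ) (IOv S hLH φ) := by
  have hKG : K ≤ G := e ▸ le_sup_left
  have hLG := hLH.trans hHG
  have hG : G ≤ G ⊔ S := le_sup_left
  have hP : L ⊔ S ≤ G ⊔ S := sup_le_sup_right hLG _
  have hf := isNE_inclusion (hLG.trans hG) (hL.sup hSL)
  have hf' := isNE_inclusion (le_sup_left : L ≤ L ⊔ S) ((nrm_self L).sup hSL)
  have d1 : L.relIndex (L ⊔ S) ∣ Nat.card S := hSL.relIndex_sup ▸ Subgroup.index_dvd_card _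
  obtain ⟨η, a1, a2, -⟩ := hf'.exists_ext_of_hall (by
    rw [range_inclusion_index]
    exact (hcop.coprime_dvd_left d1).coprime_dvd_right (Subgroup.card_dvd_of_le hLG)) hφ
    ((inv_sup_iff hSL hf' (irr_cf hφ)).mpr hi') (char_one_eq (irr_char hφ)) (irr_degree_dvd_card hφ)
  obtain ⟨E, Q, _, _, _, _, π, q, θ', Z, lam, X, hZ⟩ := hf.exists_ct' hφ
    ((inv_inclusion_iff _ hf φ).mpr (hi.sup hi' hL hSL)) (k := Subgroup.inclusion le_sup_left)
    (Subgroup.inclusion_injective hP) (fun _ => rfl) (irr_char a1) a2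
  have cor : ∀ {T : Subgroup Γ}, L ≤ T →
      ∃ U : Subgroup Q, (T.subgroupOf (G ⊔ S)).comap π = U.comap q :=
    fun a => X.exists_cor_right _ (by
      rw [Subgroup.inclusion_range]; exact Subgroup.subgroupOf_mono _ a)
  obtain ⟨K', cK⟩ := cor hLK
  obtain ⟨H', cH⟩ := cor hLH
  obtain ⟨G', cG⟩ := cor hLG
  obtain ⟨P, cP⟩ := cor (le_sup_left : L ≤ L ⊔ S)
  have cZ := X.comap_eq
  rw [Subgroup.inclusion_range] at cZ
  have m : ∀ {T : Subgroup Γ} {U : Subgroup Q}, (T.subgroupOf (G ⊔ S)).comap π = U.comap q →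
      ∀ x, (π x : Γ) ∈ T ↔ q x ∈ U := fun c x => Subgroup.ext_iff.mp c x
  have d2 : H1.IsPiNum {r | r ∣ Nat.card G} (Nat.card Z) := fun r hr a => by
    haveI := Fact.mk hr
    obtain ⟨z, hz⟩ := exists_prime_orderOf_dvd_card' r a
    have := orderOf_dvd_of_pow_eq_one (hZ z)
    rw [hz, range_inclusion_index, show G ⊔ S = L ⊔ S ⊔ G by
      rw [sup_right_comm, sup_eq_right.mpr hLG], H1.relIndex_sup_of_le_normalizer
        ((nrm_of_le hLG).sup hSG).le_normalizer] at this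
    exact this.trans (Subgroup.index_dvd_card _)
  have d3 : H1.IsPiNum {r | r ∣ Nat.card G} (Nat.card G') := by
    rw [← H4.card_mul_relIndex (X.Z_le_of_cor cG), ← X.relIndex_of_cor cZ cG,
      Subgroup.relIndex_subgroupOf hG]
    exact d2.mul ((H1.isPiNum_dvd_self _).of_dvd (Subgroup.index_dvd_card _))
  have d4 : H1.IsPiNum {r | r ∣ Nat.card G}ᶜ (Z.relIndex P) := by
    rw [← X.relIndex_of_cor cZ cP, Subgroup.relIndex_subgroupOf hP]
    exact (H1.isPiNum_compl_of_coprime hcop).of_dvd d1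
  haveI := X.normal_Z
  obtain ⟨R, b1, -, b2, b3, -⟩ := H1.exists_complement_in Z P (X.Z_le_of_cor cP)
    Subgroup.le_normalizer_of_normal (d2.coprime d4)
  haveI := (X.normal_iff_of_cor cK).mp (hK.sup hSK).normal_subgroupOf
  haveI := (X.normal_iff_of_cor cG).mp ((nrm_self G).sup hSG).normal_subgroupOf
  have hHG' : H' ≤ G' := (X.le_iff_of_cor cH cG).mp (Subgroup.subgroupOf_mono _ hHG)
  have hc' : (Nat.card R).Coprime (Nat.card G') := (d3.coprime (b3 ▸ d4)).symm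
  have hSH : Nrm S H := fun s hs h hh => by simpa using H.mul_mem (hLH (h1 h hh s hs)) hh
  have nP : ∀ {T : Subgroup Γ} {U : Subgroup Q}, (T.subgroupOf (G ⊔ S)).comap π = U.comap q →
      Nrm (L ⊔ S) T → Nrm P U := fun c a y hy u hu => by
    obtain ⟨y, rfl⟩ := X.q_surj y
    obtain ⟨u, rfl⟩ := X.q_surj u
    simpa using (m c (y * u * y⁻¹)).mp (by simpa using a _ ((m cP y).mpr hy) _ ((m c u).mpr hu))
  have hZc := X.cen.trans (Subgroup.center_le_centralizer (R : Set Q))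
  have key := oddCor_central (S := R) X.cen (X.Z_le_of_cor cK) (X.Z_le_of_cor cH)
    (Subgroup.commutator_le.mpr fun x hx y hy => by
      obtain ⟨x, rfl⟩ := X.q_surj x
      obtain ⟨y, rfl⟩ := X.q_surj y
      rw [← map_commutatorElement, ← m cZ, map_commutatorElement]
      exact hab (Subgroup.commutator_mem_commutator ((m cK x).mpr hx) ((m cK y).mpr hy)))
    ((X.eq_iff_of_cor (X.sup_of_cor cK cH) cG).mp (by
      rw [← Subgroup.subgroupOf_sup (hKG.trans hG) (hHG.trans hG), e]))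
    (by
      rw [← sup_eq_left.mpr (X.Z_le_of_cor cG), sup_assoc, b2]
      refine (X.eq_iff_of_cor (X.sup_of_cor cG cP) (H' := ⊤) (U' := ⊤) rfl).mp ?_
      rw [← Subgroup.subgroupOf_sup hG hP, ← sup_assoc, sup_eq_left.mpr hLG, Subgroup.subgroupOf_self])
    hc' (Nat.not_even_iff_odd.mp fun a => Nat.not_even_iff_odd.mpr ho
      (even_iff_two_dvd.mpr (d3 2 Nat.prime_two a.two_dvd)))
    (Subgroup.le_centralizer_iff.mp (H1.le_centralizer_of_stabilizes_chain R H' Z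
      ((nP cH ((nrm_of_le hLH).sup hSH)).mono b1).le_normalizer
      (hc'.coprime_dvd_right (Subgroup.card_dvd_of_le hHG'))
      (Subgroup.commutator_le.mpr fun x hx y hy => by
        obtain ⟨x, rfl⟩ := X.q_surj x
        obtain ⟨y, rfl⟩ := X.q_surj y
        rw [← map_commutatorElement, ← m cZ, map_commutatorElement]
        obtain ⟨l, hl, s, hs, e⟩ := hSL.mem_sup.mp ((m cP y).mpr (b1 hy))
        have hx := (m cH x).mpr hx
        convert L.mul_mem (L.mul_mem (hL _ (hHG hx) _ hl) (L.inv_mem (h1 _ hx s hs)))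
          (L.inv_mem hl) using 1
        simp only [commutatorElement_def, Subgroup.coe_mul, Subgroup.coe_inv, e]
        group)
      (Subgroup.le_centralizer_iff.mp hZc)))
    (fun x hx => by
      obtain ⟨x, rfl⟩ := X.q_surj x
      refine (m cZ x).mp (h3 _ ((m cK x).mpr hx.1) fun s hs => ?_)
      obtain ⟨y, hy⟩ := X.π_surj ⟨s, Subgroup.mem_sup_right hs⟩
      have c1 : P ≤ Subgroup.centralizer {q x} := b2 ▸ sup_le
        (X.cen.trans (Subgroup.center_le_centralizer _))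
        fun r hr => Subgroup.mem_centralizer_singleton_iff.mpr (hx.2 r hr)
      have c2 := Subgroup.mem_centralizer_singleton_iff.mp (c1 ((m cP y).mp
        (hy ▸ Subgroup.mem_sup_right hs)))
      simpa [hy] using (m cZ (y * x * y⁻¹ * x⁻¹)).mpr (by simp [c2])) X.inj hHG'
  have bij : ∀ {T : Subgroup Γ} {U : Subgroup Q} (c : (T.subgroupOf (G ⊔ S)).comap π = U.comap q)
      (a : L ≤ T) (b : T ≤ G ⊔ S), Nrm S T → RelBij (IOv S a φ) (IOv R (X.Z_le_of_cor c) (linFun lam))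
        (ctR π q θ' (Subgroup.inclusion b) U.subtype) := by
    intro T U c a b n
    have c' : CtCor π q (Subgroup.inclusion b) U.subtype := ⟨Subgroup.inclusion_injective _,
      U.subtype_injective, by rwa [Subgroup.inclusion_range, Subgroup.range_subtype]⟩
    have n1 := (nrm_of_le a).sup n
    have n2 := nP c n1
    have ov := fun {ψ β} (r : ctR π q θ' (Subgroup.inclusion b) U.subtype ψ β) => X.ip_base c'
      (k := Subgroup.inclusion a) (fun _ => rfl) (z := Subgroup.inclusion (X.Z_le_of_cor c))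
      (fun _ => rfl) r
    have cj := fun {ψ β} (r : ctR π q θ' (Subgroup.inclusion b) U.subtype ψ β) y
      (hy : (π y : Γ) ∈ L ⊔ S) => X.R_conj r y (ι' := Subgroup.inclusion b) (κ' := U.subtype)
      (a := cjHom (π y : Γ) (n1 _ hy)) (b := cjHom (q y) (n2 _ ((m cP y).mp hy)))
      (fun _ => rfl) fun _ => rfl
    refine ⟨fun ψ ⟨c1, c2, c3⟩ => ?_, fun β ⟨c1, c2, c3⟩ => ?_,
      fun _ _ _ _ _ _ r r' => X.right_unique c' r r', fun _ _ _ _ _ _ r r' => X.left_unique c' r r'⟩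
    · obtain ⟨β, c4, r⟩ := X.exists_right c' (k := Subgroup.inclusion a) (fun _ => rfl) c1 c3
      refine ⟨β, ⟨c4, SInv.mono ((sInv_iff n2).mpr fun y hy => ?_) b1,
        fun h => c3 ((ov r).trans h)⟩, r⟩
      obtain ⟨y, rfl⟩ := X.q_surj y
      have := cj r y ((m cP y).mpr hy)
      rw [(sInv_iff n1).mp (((sInv_self (irr_cf c1)).mono a).sup c2 (nrm_of_le a) n) _
        ((m cP y).mpr hy)] at this
      exact X.right_unique c' this r
    · obtain ⟨ψ, c4, r⟩ := X.exists_left c' (z := Subgroup.inclusion (X.Z_le_of_cor c))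
        (fun _ => rfl) c1 c3
      refine ⟨ψ, ⟨c4, (sInv_iff n).mpr fun s hs => ?_, fun h => c3 ((ov r).symm.trans h)⟩, r⟩
      obtain ⟨y, hy⟩ := X.π_surj ⟨s, Subgroup.mem_sup_right hs⟩
      obtain rfl : (π y : Γ) = s := congrArg Subtype.val hy
      have := cj r y (Subgroup.mem_sup_right hs)
      rw [(sInv_iff n2).mp (b2 ▸ ((sInv_self (irr_cf c1)).mono (X.Z_le_of_cor c)).sup c2
        (nrm_of_le (X.Z_le_of_cor c)) (n2.mono b1)) _ ((m cP y).mp (Subgroup.mem_sup_right hs))] at this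
      exact X.left_unique c' this r
  refine key.transfer (bij cG hLG hG hSG) (bij cH hLH (hHG.trans hG) hSH)
    fun χ χ' ψ ψ' _ _ _ _ r s => X.ip_eq ⟨Subgroup.inclusion_injective _,
      H'.subtype_injective, by rwa [Subgroup.inclusion_range, Subgroup.range_subtype]⟩
      (r.comp (Subgroup.inclusion hHG) (Subgroup.inclusion hHG') (fun _ => rfl) fun _ => rfl) s

theorem ip_res_eq_of_sub {A B C : Type*} [Group A] [Group B] [Group C] [Finite A] [Finite B]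
    [Finite C] (f : B →* A) (k : C →* B) {χ η : A → ℂ} (h : IsCharacter A (χ - η)) {ξ : B → ℂ}
    (hξ : IsIrrCharacter B ξ) {φ : C → ℂ} (hφ : IsCharacter C φ) (h1 : ip (fun c => ξ (k c)) φ ≠ 0)
    (h2 : ip (fun c => χ (f (k c))) φ = ip (fun c => η (f (k c))) φ) :
    ip (fun b => χ (f b)) ξ = ip (fun b => η (f b)) ξ := by
  rw [← sub_eq_zero, ← ip_sub_left] at h2 ⊢
  by_contra b2
  exact ip_comp_comp_ne_zero f k h hξ hφ b2 h1 h2

theorem relBij_clifford {L T G S : Subgroup Γ} (h : L ≤ T) (h' : T ≤ G) (hn : Nrm G L)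
    (hSL : Nrm S L) (hST : Nrm S T) (hSG : Nrm S G) {φ : L → ℂ} (hφ : IsIrrCharacter L φ)
    (hi : SInv S L φ) (hT : G ⊓ stab L φ ≤ T) :
    RelBij (IOv S (h.trans h') φ) (IOv S h φ) (Ov h') ∧
      ∀ χ η, IsIrrCharacter G χ → IOv S h φ η → Ov h' χ η → ind (Subgroup.inclusion h') η = χ ∧
        ip (fun l => η (Subgroup.inclusion h l)) φ =
          ip (fun l => χ (Subgroup.inclusion (h.trans h') l)) φ := by
  have hf := isNE_inclusion (h.trans h') hn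
  have hι := Subgroup.inclusion_injective h'
  have hk : ∀ n, Subgroup.inclusion h' (Subgroup.inclusion h n) =
    Subgroup.inclusion (h.trans h') n := fun n => rfl
  have hT' : hf.inertia φ ≤ (Subgroup.inclusion h').range := fun x hx => by
    rw [inertia_inclusion hn] at hx
    exact ⟨⟨x, hT ⟨x.2, hx⟩⟩, rfl⟩
  have aux := fun {η χ} a b c d => hf.corr_aux hι hk hφ hT' (ψ := η) (χ := χ) a b c d
  have ov : ∀ {η}, IsIrrCharacter T η → Ov h η φ → Ov h' (ind (Subgroup.inclusion h') η) η :=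
    fun a b => by
      rw [Ov, ← ip_ind_right _ _ (ind_cf _ _), ip_irr_self (hf.corr_irr hι hk hφ hT' a b)]
      exact one_ne_zero
  refine ⟨⟨fun χ ⟨a, b, c⟩ => ?_, fun η ⟨a, b, c⟩ => ?_, fun χ η η' a b c d e =>
    hf.corr_inj hι hk hφ hT' b.1 b.2.2 c.1 c.2.2 ((aux b.1 b.2.2 a.1 d).1.trans
      (aux c.1 c.2.2 a.1 e).1.symm), fun χ χ' η a b c d e =>
    (aux c.1 c.2.2 a.1 d).1.symm.trans (aux c.1 c.2.2 b.1 e).1⟩,
    fun χ η a b c => aux b.1 b.2.2 a c⟩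
  · obtain ⟨η, d, rfl, e⟩ := hf.corr_surj hι hk hφ hT' a c
    have e' : Ov h η φ := fun x => c (e.symm.trans x)
    refine ⟨η, ⟨d, (sInv_iff hST).mpr fun s hs => hf.corr_unique hι hk hφ hT' d e' (irr_cjHom _ _ d)
      ?_ ?_, e'⟩, ov d e'⟩
    · rw [← (sInv_iff hSL).mp hi s hs]
      exact e'.cjHom _ _
    · rw [← (sInv_iff hSG).mp b s hs]
      exact (ov d e').cjHom _ _
  · have d := hf.corr_irr hι hk hφ hT' a c
    refine ⟨_, ⟨d, (sInv_iff hSG).mpr fun s hs => (aux a c (irr_cjHom _ _ d) ?_).1.symm,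
      fun x => c ((hf.corr_ip hι hk hφ hT' a c).symm.trans x)⟩, ov a c⟩
    nth_rw 2 [← (sInv_iff hST).mp b s hs]
    exact (ov a c).cjHom _ _

section Main

variable {L K H G S : Subgroup Γ} (hLK : L ≤ K) (hLH : L ≤ H) (hHG : H ≤ G)
    (hL : Nrm G L) (hK : Nrm G K) (hSL : Nrm S L) (hSK : Nrm S K) (hSG : Nrm S G)
    (hab : ⁅K, K⁆ ≤ L) (e : K ⊔ H = G) (hcop : (Nat.card S).Coprime (Nat.card G))
    (ho : Odd (Nat.card G)) (h1 : ∀ h ∈ H, ∀ s ∈ S, s * h * s⁻¹ * h⁻¹ ∈ L)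
    (h2 : G ⊓ Subgroup.centralizer (S : Set Γ) ≤ H) (h3 : K ⊓ H ≤ L)
include hLK hL hK hSL hSK hSG hab e hcop ho h1 h2 h3

theorem oddCor_over {φ : L → ℂ} (hφ : IsIrrCharacter L φ) (hi : SInv S L φ) :
    OddCor (Subgroup.inclusion hHG) (IOv S (hLH.trans hHG) φ) (IOv S hLH φ) := by
  have hKG : K ≤ G := e ▸ le_sup_left
  have hSH : Nrm S H := fun s hs h hh => by simpa using H.mul_mem (hLH (h1 h hh s hs)) hh
  have hLs : L ≤ stab L φ := le_stab_iff.mpr ⟨nrm_self L, sInv_self (irr_cf hφ)⟩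
  have hSs : S ≤ stab L φ := le_stab_iff.mpr ⟨hSL, hi⟩
  have n := nrm_of_le hSs
  have sol : ∀ {U : Subgroup Γ}, U ≤ G → Group.IsSolvable U := fun a =>
    H1.isSolvable_of_le a (FT.odd_order_solvable ho)
  have a1 : H ⊓ stab L φ ≤ G ⊓ stab L φ := inf_le_inf_right _ hHG
  have cd : ∀ {U : Subgroup Γ}, U ≤ G → Nat.card U ∣ Nat.card G := Subgroup.card_dvd_of_le
  obtain ⟨X1, X2⟩ := relBij_clifford (le_inf (hLH.trans hHG) hLs) inf_le_left hL hSL
    (hSG.inf_right n) hSG hφ hi le_rfl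
  obtain ⟨Y1, Y2⟩ := relBij_clifford (le_inf hLH hLs) inf_le_left (hL.mono hHG) hSL
    (hSH.inf_right n) hSH hφ hi le_rfl
  refine (oddCor_of_inv (K := K ⊓ stab L φ) (le_inf hLK hLs) (le_inf hLH hLs) a1
    (hL.mono inf_le_left) ((hK.mono inf_le_left).inf_right (nrm_of_le inf_le_right)) hSL
    (hSK.inf_right n) (hSG.inf_right n) ((Subgroup.commutator_mono inf_le_left inf_le_left).trans hab)
    (le_antisymm (sup_le (inf_le_inf_right _ hKG) a1) fun t ht => ?_)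
    (hcop.coprime_dvd_right (cd inf_le_left)) (ho.of_dvd_nat (cd inf_le_left))
    (fun h hh => h1 h hh.1) (fun k hk a => ?_) hφ (le_stab_iff.mp inf_le_right).2 hi).transfer X1 Y1
    fun χ η ψ ξ a b c d r s => ?_
  · obtain ⟨n, hn, a⟩ := H1.exists_mul_mem_centralizer S (K ⊓ stab L φ)
      (hSK.inf_right n).le_normalizer (hcop.coprime_dvd_right (cd (inf_le_left.trans hKG)))
      (Or.inr (sol (inf_le_left.trans hKG))) t fun s hs => Subgroup.mem_inf.mpr ⟨by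
        obtain ⟨k, hk, h, hh, rfl⟩ := (hK.mono hHG).mem_sup.mp (e.ge ht.1)
        convert K.mul_mem (K.mul_mem (hSK s hs k hk) (hLK (h1 h hh s hs))) (K.inv_mem hk) using 1
        group, mul_mem (n s hs t ht.2) ((stab L φ).inv_mem ht.2)⟩
    simpa using Subgroup.mul_mem_sup (inv_mem hn) (Subgroup.mem_inf.mpr
      ⟨h2 ⟨mul_mem (hKG hn.1) ht.1, a⟩, mul_mem hn.2 ht.2⟩)
  · obtain ⟨n, hn, b⟩ := H1.exists_mul_mem_centralizer S L hSL.le_normalizer
      (hcop.coprime_dvd_right (cd (hLH.trans hHG))) (Or.inr (sol (hLH.trans hHG))) k a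
    have b' := mul_mem (hLK hn) hk.1
    exact (L.mul_mem_cancel_left hn).mp (h3 ⟨b', h2 ⟨hKG b', b⟩⟩)
  · rw [← (Y2 ψ ξ c.1 d s).1, ip_ind_right _ _ (cf_comp _ (irr_cf a.1))]
    exact ip_res_eq_of_sub (Subgroup.inclusion a1) _ (char_sub_irr (char_comp
      (Subgroup.inclusion inf_le_left) (irr_char a.1)) b.1 r) d.1 (irr_char hφ) d.2.2
      (X2 χ η a.1 b r).2.symm

include hLH in
/-- The step of the Isaacs correspondence over an abelian factor. -/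
theorem oddCor_abelian : OddCor (Subgroup.inclusion hHG) (fun χ => IsIrrCharacter G χ ∧ SInv S G χ)
    fun ψ => IsIrrCharacter H ψ ∧ SInv S H ψ := by
  have hSH : Nrm S H := fun s hs h hh => by simpa using H.mul_mem (hLH (h1 h hh s hs)) hh
  have X := fun φ => oddCor_over hLK hLH hHG hL hK hSL hSK hSG hab e hcop ho h1 h2 h3 (φ := φ)
  have un : ∀ ψ, IsIrrCharacter H ψ → SInv S H ψ →
      ∃ φ, IsIrrCharacter L φ ∧ SInv S L φ ∧ Ov hLH ψ φ := fun ψ =>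
    exists_sInv_under' hSH hLH (hL.mono hHG) hSL (hcop.coprime_dvd_right
      (Subgroup.card_dvd_of_le hHG)) (ho.of_dvd_nat (Subgroup.card_dvd_of_le hHG))
  have tr : ∀ {χ ψ φ}, IsIrrCharacter G χ → IsIrrCharacter H ψ → IsIrrCharacter L φ →
      OddM (Subgroup.inclusion hHG) χ ψ → Ov hLH ψ φ → Ov (hLH.trans hHG) χ φ :=
    fun a b c d f => Ov.trans d.ne_zero f (irr_char a) b (irr_char c)
  refine ⟨fun χ a => ?_, fun χ ψ ψ' a b c d f => ?_, fun χ χ' ψ a b c d f => ?_, fun ψ a => ?_⟩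
  · obtain ⟨φ, b1, b2, b3⟩ := exists_sInv_under' hSG (hLH.trans hHG) hL hSL hcop ho a.1 a.2
    obtain ⟨ψ, c, d⟩ := (X φ b1 b2).ex χ ⟨a.1, a.2, b3⟩
    exact ⟨ψ, ⟨c.1, c.2.1⟩, d⟩
  · obtain ⟨φ, b1, b2, b3⟩ := un ψ b.1 b.2
    obtain ⟨φ', c1, c2, c3⟩ := un ψ' c.1 c.2
    refine (X φ b1 b2).uniq χ ψ ψ' ⟨a.1, a.2, tr a.1 b.1 b1 d b3⟩ ⟨b.1, b.2, b3⟩ ⟨c.1, c.2, ?_⟩ d f
    have hf := isNE_inclusion (hLH.trans hHG) hL
    obtain ⟨g, hg⟩ := hf.mem_orbit.mp (hf.mem_orbit_of_under a.1 c1 b1 (tr a.1 c.1 c1 f c3)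
      (tr a.1 b.1 b1 d b3))
    rw [cjf_inclusion hL, ← cj_iff] at hg
    obtain ⟨x, hx, t⟩ := H1.exists_centralizer_mul_mem_of_coprime S G (stab L φ') hSG.le_normalizer
      hcop (Or.inr (FT.odd_order_solvable ho)) (le_stab_iff.mpr ⟨hSL, c2⟩) g⁻¹ (inv_mem g.2)
      fun s hs => by simpa using H4.conj_smul_le_iff.mp (hg.le_stab (hL g g.2)
        (le_stab_iff.mpr ⟨hSL, b2⟩)) s hs
    refine c3.cj (hL.mono hHG) (irr_cf c.1) (inv_mem (h2 hx)) fun m m' e' => ?_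
    rw [hg m ⟨_, hL g g.2 m m.2⟩ rfl]
    exact t.2 _ _ (by simp [e', mul_assoc])
  · obtain ⟨φ, b1, b2, b3⟩ := un ψ c.1 c.2
    exact (X φ b1 b2).inj χ χ' ψ ⟨a.1, a.2, tr a.1 c.1 b1 d b3⟩ ⟨b.1, b.2, tr b.1 c.1 b1 f b3⟩
      ⟨c.1, c.2, b3⟩ d f
  · obtain ⟨φ, b1, b2, b3⟩ := un ψ a.1 a.2
    obtain ⟨χ, c, d⟩ := (X φ b1 b2).surj ψ ⟨a.1, a.2, b3⟩
    exact ⟨χ, ⟨c.1, c.2.1⟩, d⟩

end Main

end Ambient

end Cfsg.Agent.H7
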