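import Mathlib

/-! Jordan's counting argument, in abstract form. -/

set_option autoImplicit false
set_option linter.unusedSectionVars false

namespace Cfsg.Agent.H7.Jor

open Subgroup

local notation "𝐂" Q:max => Subgroup.centralizer (SetLike.coe Q)
local notation "𝐍" Q:max => Subgroup.normalizer (SetLike.coe Q)
local notation "𝐙" g:max => Subgroup.centralizer (Singleton.singleton g)

variable {G : Type*} [Group G] [Finite G]

theorem card_dvd_sum {Ω : Type*} [Fintype Ω] (act : G → Ω → Ω) (h1 : ∀ a, act 1 a = a)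
    (h2 : ∀ g h a, act (g * h) a = act g (act h a)) (St : Ω → Subgroup G)
    (hS : ∀ g a, g ∈ St a ↔ act g a = a) (μ : Ω → ℕ) (hμ : ∀ g a, μ (act g a) = μ a)
    (h : ∀ a, Nat.card (St a) ∣ μ a) : Nat.card G ∣ ∑ a, μ a := by
  classical
  let _ : MulAction G Ω := { smul := act, one_smul := h1, mul_smul := h2 }
  rw [← Finset.sum_fiberwise Finset.univ (Quotient.mk (MulAction.orbitRel G Ω))]
  refine Finset.dvd_sum fun ω _ => ?_
  obtain ⟨a, rfl⟩ := ω.exists_rep
  have e1 : ∀ b ∈ Finset.univ.filter fun b => Quotient.mk (MulAction.orbitRel G Ω) b =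
      Quotient.mk (MulAction.orbitRel G Ω) a, μ b = μ a := fun b hb => by
    obtain ⟨g, rfl⟩ := Quotient.exact (Finset.mem_filter.1 hb).2
    exact hμ g a
  rw [Finset.sum_congr rfl e1, Finset.sum_const, smul_eq_mul]
  have e2 : St a = MulAction.stabilizer G a := by ext g; exact hS g a
  have e3 : (Finset.univ.filter fun b => Quotient.mk (MulAction.orbitRel G Ω) b =
      Quotient.mk (MulAction.orbitRel G Ω) a).card = (MulAction.stabilizer G a).index := by
    rw [MulAction.index_stabilizer, ← Set.ncard_coe_finset]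
    congr 1
    ext b
    simp only [Finset.coe_filter, Finset.mem_univ, true_and, Set.mem_setOf_eq]
    exact ⟨fun h => Quotient.exact h, fun h => Quotient.sound h⟩
  rw [e3, ← e2, ← (St a).index_mul_card]
  exact Nat.mul_dvd_mul_left _ (h a)

/-- conjugate of a subgroup -/
def cj (x : G) (H : Subgroup G) : Subgroup G := H.map (MulAut.conj x).toMonoidHom

theorem mem_cj {x y : G} {H : Subgroup G} : y ∈ cj x H ↔ x⁻¹ * y * x ∈ H :=
  ⟨by rintro ⟨y, hy, rfl⟩; simpa [mul_assoc] using hy, fun h => ⟨_, h, by simp [mul_assoc]⟩⟩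

theorem cj_one (H : Subgroup G) : cj 1 H = H := by ext; simp [mem_cj]

theorem cj_mul (x y : G) (H : Subgroup G) : cj (x * y) H = cj x (cj y H) := by
  ext; simp [mem_cj, mul_assoc]

theorem cj_inv_cj (x : G) (H : Subgroup G) : cj x⁻¹ (cj x H) = H := by
  rw [← cj_mul, inv_mul_cancel, cj_one]

theorem cj_cj_inv (x : G) (H : Subgroup G) : cj x (cj x⁻¹ H) = H := by
  rw [← cj_mul, mul_inv_cancel, cj_one]

theorem cj_mono (x : G) {H K : Subgroup G} (h : H ≤ K) : cj x H ≤ cj x K := map_mono h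

theorem card_cj (x : G) (H : Subgroup G) : Nat.card (cj x H) = Nat.card H :=
  card_map_of_injective (MulAut.conj x).injective

theorem cj_eq_iff {x : G} {H : Subgroup G} : x ∈ 𝐍 H ↔ cj x H = H :=
  mem_normalizer_iff_map_conj_eq

theorem cj_cent (x : G) (H : Subgroup G) : 𝐂 (cj x H) = cj x (𝐂 H) := by
  ext y
  rw [mem_cj]
  constructor
  · intro h a ha
    have := h (x * a * x⁻¹) (mem_cj.2 (by simpa [mul_assoc] using ha))
    calc a * (x⁻¹ * y * x) = x⁻¹ * (x * a * x⁻¹ * y) * x := by group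
      _ = _ := by rw [this]; group
  · intro h a ha
    have := h _ (mem_cj.1 ha)
    calc a * y = x * (x⁻¹ * a * x * (x⁻¹ * y * x)) * x⁻¹ := by group
      _ = _ := by rw [this]; group

theorem cj_cent1 (x g : G) : 𝐙 (x * g * x⁻¹) = cj x (𝐙 g) := by
  ext y
  rw [mem_cj, mem_centralizer_singleton_iff, mem_centralizer_singleton_iff]
  constructor
  · intro h
    calc x⁻¹ * y * x * g = x⁻¹ * (y * (x * g * x⁻¹)) * x := by group
      _ = _ := by rw [h]; group
  · intro h
    calc y * (x * g * x⁻¹) = x * (x⁻¹ * y * x * g) * x⁻¹ := by group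
      _ = _ := by rw [h]; group

theorem cj_center (x : G) : cj x (center G) = center G :=
  cj_eq_iff.1 (by rw [normalizer_eq_top_iff.2 inferInstance]; trivial)

theorem conj_mem_center {x g : G} : x * g * x⁻¹ ∈ center G ↔ g ∈ center G := by
  conv_rhs => rw [← cj_center x⁻¹, mem_cj, inv_inv]

theorem card_rel {A H : Subgroup G} (h : A ≤ H) : A.relIndex H * Nat.card A = Nat.card H := by
  rw [relIndex, ← (A.subgroupOf H).index_mul_card, Nat.card_congr (subgroupOfEquivOfLe h).toEquiv]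

theorem card_eq_ncard (H : Subgroup G) : Nat.card H = (H : Set G).ncard := rfl

theorem rel_ne (A H : Subgroup G) : A.relIndex H ≠ 0 := index_ne_zero_of_finite

theorem card_dvd_of_stable {E : Subgroup G} (S : Finset G) (h : ∀ g ∈ S, ∀ e ∈ E, g * e ∈ S) :
    Nat.card E ∣ S.card := by
  classical
  have := Fintype.ofFinite G
  have h1 := card_dvd_sum (G := E) (Ω := G) (fun e g => g * (e : G)⁻¹) (by simp)
    (by simp [mul_assoc]) (fun _ => ⊥) (by simp) (fun g => if g ∈ S then 1 else 0) (fun e g => by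
      congr 1
      exact propext ⟨fun h1 => by simpa using h _ h1 e e.2, fun h1 => h _ h1 _ (inv_mem e.2)⟩)
    (by simp)
  simpa using h1

/-- counting an invariant set through an equivariant map to subgroups -/
theorem card_dvd_of_map (S : Finset G) (κ : G → Subgroup G) (K : ℕ)
    (hS : ∀ x g, g ∈ S → x * g * x⁻¹ ∈ S) (hκ : ∀ x g, κ (x * g * x⁻¹) = cj x (κ g))
    (h : ∀ g ∈ S, ∃ E : Subgroup G, E ≤ 𝐍 (κ g) ∧ E.relIndex (𝐍 (κ g)) ≤ K ∧
      ∀ y ∈ S, κ y = κ g → ∀ e ∈ E, y * e ∈ S ∧ κ (y * e) = κ g) :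
    Nat.card G ∣ K.factorial * S.card := by
  classical
  have := Fintype.ofFinite (Subgroup G)
  have h1 := card_dvd_sum (G := G) cj cj_one cj_mul (fun F => 𝐍 F) (fun _ _ => cj_eq_iff)
    (fun F => K.factorial * (S.filter fun g => κ g = F).card) (fun x F => by
      congr 1
      refine Finset.card_bij (fun g _ => x⁻¹ * g * x⁻¹⁻¹) (fun g hg => ?_) (fun _ _ _ _ e => by
        simpa using e) fun g hg => ?_
      · obtain ⟨h1, h2⟩ := Finset.mem_filter.1 hg
        exact Finset.mem_filter.2 ⟨hS _ _ h1, by rw [hκ, h2, cj_inv_cj]⟩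
      · obtain ⟨h1, h2⟩ := Finset.mem_filter.1 hg
        exact ⟨x * g * x⁻¹, Finset.mem_filter.2 ⟨hS _ _ h1, by rw [hκ, h2]⟩, by group⟩)
    (fun F => by
      rcases (S.filter fun g => κ g = F).eq_empty_or_nonempty with e | ⟨g, hg⟩
      · rw [e]; simp
      obtain ⟨h1, rfl⟩ := Finset.mem_filter.1 hg
      obtain ⟨E, h2, h3, h4⟩ := h g h1
      rw [← card_rel h2]
      exact Nat.mul_dvd_mul (Nat.dvd_factorial (Nat.pos_of_ne_zero (rel_ne _ _)) h3)
        (card_dvd_of_stable _ fun y hy e he => Finset.mem_filter.2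
          (h4 y (Finset.mem_filter.1 hy).1 (Finset.mem_filter.1 hy).2 e he)))
  rwa [← Finset.mul_sum, ← Finset.card_eq_sum_card_fiberwise (f := κ) (t := Finset.univ)
    (fun _ _ => Finset.mem_univ _)] at h1

/-- abelian subgroups -/
def Ab (B : Subgroup G) : Prop := B ≤ 𝐂 B

theorem Ab.mono {A B : Subgroup G} (h : Ab B) (hA : A ≤ B) : Ab A :=
  hA.trans (h.trans (centralizer_le hA))

theorem cent_sup (A B : Subgroup G) : 𝐂 (A ⊔ B) = 𝐂 A ⊓ 𝐂 B :=
  le_antisymm (le_inf (centralizer_le (le_sup_left (b := B))) (centralizer_le (le_sup_right (a := A))))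
    (le_centralizer_iff.1 (sup_le (le_centralizer_iff.1 inf_le_left)
      (le_centralizer_iff.1 inf_le_right)))

theorem Ab.sup {A B : Subgroup G} (hA : Ab A) (hB : Ab B) (h : A ≤ 𝐂 B) : Ab (A ⊔ B) := by
  unfold Ab
  rw [cent_sup]
  exact sup_le (le_inf hA h) (le_inf (le_centralizer_iff.1 h) hB)

theorem center_le_cent (A : Subgroup G) : center G ≤ 𝐂 A := center_le_centralizer _

theorem cent_center : 𝐂 (center G) = ⊤ := eq_top_iff.2 (le_centralizer_iff.1 (center_le_cent ⊤))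

theorem ab_center : Ab (center G) := center_le_cent _

theorem cent_sup_center (A : Subgroup G) : 𝐂 (A ⊔ center G) = 𝐂 A := by
  rw [cent_sup, cent_center, inf_top_eq]

/-- Jordan's fans -/
def Fan (M : ℕ) (B : Subgroup G) : Prop :=
  center G ≤ B ∧ Ab B ∧ ∀ X ≤ B, X.relIndex B < M → 𝐂 X ≤ 𝐂 B

variable {M : ℕ}

theorem fan_center : Fan M (center G) :=
  ⟨le_rfl, ab_center, fun _ _ _ => by rw [cent_center]; exact le_top⟩

theorem Fan.cent_le {B : Subgroup G} (h : Fan M B) {X : Subgroup G} (hX : X.relIndex B < M) :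
    𝐂 X ≤ 𝐂 B :=
  (centralizer_le inf_le_left).trans (h.2.2 (X ⊓ B) inf_le_right (by rwa [inf_relIndex_right]))

theorem Fan.cj {B : Subgroup G} (h : Fan M B) (x : G) : Fan M (cj x B) := by
  refine ⟨cj_center x ▸ cj_mono x h.1, ?_, fun X hX h1 => ?_⟩
  · unfold Ab; rw [cj_cent]; exact cj_mono x h.2.1
  · rw [← cj_cj_inv x X] at h1 ⊢
    rw [show (Jor.cj x (Jor.cj x⁻¹ X)).relIndex (Jor.cj x B) = (Jor.cj x⁻¹ X).relIndex B from
      relIndex_map_map_of_injective _ _ (MulAut.conj x).injective] at h1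
    rw [cj_cent, cj_cent x B]
    exact cj_mono x (h.cent_le h1)

theorem Fan.sup {B B' : Subgroup G} (h : Fan M B) (h' : Fan M B') (hc : B ≤ 𝐂 B') :
    Fan M (B ⊔ B') :=
  ⟨h.1.trans le_sup_left, h.2.1.sup h'.2.1 hc, fun X _ h1 => by
    rw [cent_sup]
    exact le_inf (h.cent_le ((relIndex_le_of_le_right le_sup_left (rel_ne _ _)).trans_lt h1))
      (h'.cent_le ((relIndex_le_of_le_right le_sup_right (rel_ne _ _)).trans_lt h1))⟩

theorem Fan.card_ge {B : Subgroup G} (h : Fan M B) (hB : B ≠ center G) :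
    M * Nat.card (center G) ≤ Nat.card B := by
  rw [← card_rel h.1]
  refine Nat.mul_le_mul_right _ (not_lt.1 fun h1 => hB (le_antisymm ?_ h.1))
  have := h.cent_le h1
  rw [cent_center] at this
  exact fun b hb => mem_center_iff.2 fun g => (this (mem_top g) b hb).symm

theorem exists_fan {L : ℕ} (d : Subgroup G → ℕ) (hL : ∀ X, d X ≤ L)
    (hd : ∀ X Y : Subgroup G, X ≤ Y → ¬ 𝐂 X ≤ 𝐂 Y → d Y < d X) (hM : 1 ≤ M) (k : ℕ) :
    ∀ A : Subgroup G, Ab A → center G ≤ A → L - d A ≤ k →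
      ∃ B, Fan M B ∧ B ≤ A ∧ B.relIndex A ≤ M ^ k := by
  induction k with
  | zero =>
    intro A h1 h2 h3
    refine ⟨A, ⟨h2, h1, fun X hX _ => by_contra fun h4 => ?_⟩, le_rfl, by simp⟩
    have := hd X A hX h4
    have := hL X
    omega
  | succ k ih =>
    intro A h1 h2 h3
    by_cases hA : Fan M A
    · exact ⟨A, hA, le_rfl, by simpa using Nat.one_le_pow _ _ hM⟩
    have : ∃ X ≤ A, X.relIndex A < M ∧ ¬ 𝐂 X ≤ 𝐂 A := by
      by_contra! h4
      exact hA ⟨h2, h1, h4⟩
    obtain ⟨X, h4, h5, h6⟩ := this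
    have h7 : X ⊔ center G ≤ A := sup_le h4 h2
    have h8 := hd _ A h7 (by rwa [cent_sup_center])
    obtain ⟨B, e1, e2, e3⟩ := ih (X ⊔ center G) (h1.mono h7) le_sup_right (by
      have := hL (X ⊔ center G); omega)
    refine ⟨B, e1, e2.trans h7, ?_⟩
    rw [← relIndex_mul_relIndex _ _ _ e2 h7, pow_succ]
    exact Nat.mul_le_mul e3 ((relIndex_le_of_le_left le_sup_left (rel_ne _ _)).trans h5.le)

/-- the join of the fans in `H` -/
def mf (M : ℕ) (H : Subgroup G) : Subgroup G := sSup {B | Fan M B ∧ B ≤ H}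

theorem mf_le (H : Subgroup G) : mf M H ≤ H := sSup_le fun _ h => h.2

theorem Fan.le_mf {B H : Subgroup G} (h : Fan M B) (hH : B ≤ H) : B ≤ mf M H := le_sSup ⟨h, hH⟩

theorem mf_cj (x : G) (H : Subgroup G) : mf M (cj x H) = cj x (mf M H) := by
  have key : ∀ (x : G) (H : Subgroup G), mf M (cj x H) ≤ cj x (mf M H) := fun x H =>
    sSup_le fun B hB => by
      rw [← cj_cj_inv x B]
      exact cj_mono x ((hB.1.cj x⁻¹).le_mf (cj_inv_cj x H ▸ cj_mono x⁻¹ hB.2))
  refine le_antisymm (key x H) ?_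
  have := cj_mono x (key x⁻¹ (cj x H))
  rwa [cj_inv_cj, cj_cj_inv] at this

/-- the hypotheses of the counting argument -/
structure Hyp (G : Type*) [Group G] (f c L : ℕ) : Prop where
  h1 : ∀ g : G, g ∉ center G → ∃ A : Subgroup G, A ≤ 𝐙 g ∧ Ab A ∧ A.relIndex (𝐙 g) ≤ f
  h2 : ∀ X : Subgroup G, Ab X → (𝐂 X).relIndex (𝐍 X) ≤ c
  h3 : ∃ d : Subgroup G → ℕ, (∀ X, d X ≤ L) ∧
    ∀ X Y : Subgroup G, X ≤ Y → ¬ 𝐂 X ≤ 𝐂 Y → d Y < d X

variable {f c L : ℕ}

theorem Hyp.mf_spec (h : Hyp G f c L) (hM : f < M) {g : G} (hg : g ∉ center G) {H : Subgroup G}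
    (hH : H ≤ 𝐙 g) (hZ : center G ≤ H) : Fan M (mf M H) ∧ (mf M H).relIndex H ≤ f * M ^ L := by
  obtain ⟨A₀, h1, h2, h3⟩ := h.h1 g hg
  obtain ⟨d, hL, hd⟩ := h.h3
  have h4 : ∀ B, Fan M B → B ≤ H → A₀ ≤ 𝐂 B ∧ 𝐂 A₀ ≤ 𝐂 B := fun B hB hBH =>
    have := hB.cent_le (X := A₀)
      (((relIndex_le_of_le_right (hBH.trans hH) (rel_ne _ _)).trans h3).trans_lt hM)
    ⟨h2.trans this, this⟩
  have h5 : ∀ B B', Fan M B → B ≤ H → Fan M B' → B' ≤ H → B ≤ 𝐂 B' := fun B B' a b a' b' =>
    (le_centralizer_iff.1 (h4 B a b).1).trans (h4 B' a' b').2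
  obtain ⟨F, hF, hmax⟩ := Set.Finite.exists_maximal (s := {B | Fan M B ∧ B ≤ H}) (Set.toFinite _)
    ⟨center G, fan_center, hZ⟩
  have e : mf M H = F := le_antisymm (sSup_le fun B hB => le_sup_right.trans
    (hmax ⟨hF.1.sup hB.1 (h5 _ _ hF.1 hF.2 hB.1 hB.2), sup_le hF.2 hB.2⟩ le_sup_left))
    (hF.1.le_mf hF.2)
  refine ⟨e ▸ hF.1, ?_⟩
  have h6 : A₀ ⊓ H ⊔ center G ≤ H := sup_le inf_le_right hZ
  obtain ⟨B, e1, e2, e3⟩ := exists_fan d hL hd (M := M) (by omega) L (A₀ ⊓ H ⊔ center G)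
    ((h2.mono inf_le_left).sup ab_center (by rw [cent_center]; exact le_top)) le_sup_right
    (Nat.sub_le _ _)
  refine (relIndex_le_of_le_left (e1.le_mf (e2.trans h6)) (rel_ne _ _)).trans ?_
  rw [← relIndex_mul_relIndex _ _ _ e2 h6, mul_comm]
  refine Nat.mul_le_mul ((relIndex_le_of_le_left le_sup_left (rel_ne _ _)).trans ?_) e3
  rw [inf_relIndex_right]
  exact (relIndex_le_of_le_right hH (rel_ne _ _)).trans h3

theorem le_cent1 {F : Subgroup G} {g : G} : F ≤ 𝐙 g ↔ g ∈ 𝐂 F :=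
  ⟨fun h a ha => mem_centralizer_singleton_iff.1 (h ha),
    fun h a ha => mem_centralizer_singleton_iff.2 (h a ha)⟩

theorem center_le_cent1 (g : G) : center G ≤ 𝐙 g := center_le_centralizer _

theorem cent1_mul {g e : G} (he : e ∈ center G) : 𝐙 (g * e) = 𝐙 g := by
  ext y
  rw [mem_centralizer_singleton_iff, mem_centralizer_singleton_iff, mul_assoc g,
    ← mem_center_iff.1 he y, ← mul_assoc, ← mul_assoc, mul_left_inj]

section Step

variable (h : Hyp G f c L) (hM : f < M)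
include h hM

theorem Hyp.phi {g : G} (hg : g ∉ center G) :
    Fan M (mf M (𝐙 g)) ∧ (mf M (𝐙 g)).relIndex (𝐙 g) ≤ f * M ^ L :=
  h.mf_spec hM hg le_rfl (center_le_cent1 g)

theorem Hyp.bar {F : Subgroup G} (hF : Fan M F) (h1 : F ≠ center G) :
    Fan M (mf M (𝐂 F)) ∧ (mf M (𝐂 F)).relIndex (𝐂 F) ≤ f * M ^ L := by
  obtain ⟨x, h2, h3⟩ := SetLike.exists_of_lt (lt_of_le_of_ne hF.1 h1.symm)
  exact h.mf_spec hM h3 (fun y hy => mem_centralizer_singleton_iff.2 (hy x h2).symm)
    (center_le_cent F)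

theorem Hyp.sandwich {F : Subgroup G} (hF : Fan M F) {g : G} (hg : g ∉ center G) (h1 : g ∈ 𝐂 F) :
    F ≤ mf M (𝐙 g) ∧ mf M (𝐙 g) ≤ mf M (𝐂 F) :=
  have h2 := hF.le_mf (le_cent1.2 h1)
  ⟨h2, (h.phi hM hg).1.le_mf ((h.phi hM hg).1.2.1.trans (centralizer_le h2))⟩

open Classical in
theorem Hyp.count_a [Fintype G] : Nat.card G ∣ (f * M ^ L * c).factorial *
    (Finset.univ.filter fun g : G => g ∉ center G ∧ mf M (𝐙 g) = center G).card := by
  refine card_dvd_of_map _ (fun g => zpowers g ⊔ center G) _ (fun x g hg => ?_) (fun x g => ?_)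
    fun g hg => ⟨center G, ?_, ?_, fun y hy e1 e he => ?_⟩
  · simp only [Finset.mem_filter, Finset.mem_univ, true_and] at hg ⊢
    rw [conj_mem_center, cj_cent1, mf_cj, hg.2, cj_center]
    exact ⟨hg.1, rfl⟩
  · conv_lhs => rw [← cj_center x]
    rw [cj, cj, Subgroup.map_sup, MonoidHom.map_zpowers]; rfl
  · exact le_sup_right.trans le_normalizer
  · simp only [Finset.mem_filter, Finset.mem_univ, true_and] at hg
    have e1 : 𝐂 (zpowers g ⊔ center G) = 𝐙 g := by
      rw [cent_sup_center, zpowers_eq_closure, centralizer_closure]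
    rw [← relIndex_mul_relIndex _ _ _ (center_le_cent _) (centralizer_le_normalizer _)]
    refine Nat.mul_le_mul ?_ (h.h2 _ (Ab.sup ?_ ab_center (by rw [cent_center]; exact le_top)))
    · have := (h.phi hM hg.1).2
      rwa [hg.2, ← e1] at this
    · unfold Ab
      rw [zpowers_eq_closure, centralizer_closure, closure_le]
      rintro _ rfl
      exact mem_centralizer_singleton_iff.2 rfl
  · simp only [Finset.mem_filter, Finset.mem_univ, true_and] at hy ⊢
    refine ⟨⟨fun h1 => hy.1 ((center G).mul_mem_cancel_right he |>.1 h1), by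
      rw [cent1_mul he, hy.2]⟩, ?_⟩
    rw [← e1]
    refine le_antisymm (sup_le (zpowers_le.2 (mul_mem (mem_sup_left (mem_zpowers y))
      (mem_sup_right he))) le_sup_right) (sup_le (zpowers_le.2 ?_) le_sup_right)
    simpa using mul_mem (mem_sup_left (T := center G) (mem_zpowers (y * e)))
      (mem_sup_right (inv_mem he))

open Classical in
theorem Hyp.count_b [Fintype G] : Nat.card G ∣ (f * M ^ L * c).factorial *
    (Finset.univ.filter fun g : G => g ∉ center G ∧ mf M (𝐙 g) ≠ center G ∧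
      mf M (𝐂 (mf M (𝐙 g))) ≠ mf M (𝐙 g)).card := by
  refine card_dvd_of_map _ (fun g => mf M (𝐙 g)) _ (fun x g hg => ?_) (fun x g => ?_)
    fun g hg => ⟨mf M (𝐂 (mf M (𝐙 g))), ?_, ?_, fun y hy e1 e he => ?_⟩
  · simp only [Finset.mem_filter, Finset.mem_univ, true_and] at hg ⊢
    rw [conj_mem_center, cj_cent1, mf_cj, cj_cent, mf_cj]
    refine ⟨hg.1, fun e => hg.2.1 ?_, fun e => hg.2.2 ?_⟩
    · rw [← cj_inv_cj x (mf M _), e, cj_center]
    · rw [← cj_inv_cj x (mf M (𝐂 _)), e, cj_inv_cj]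
  · rw [cj_cent1, mf_cj]
  · exact (mf_le _).trans (centralizer_le_normalizer _)
  · simp only [Finset.mem_filter, Finset.mem_univ, true_and] at hg
    rw [← relIndex_mul_relIndex _ _ _ (mf_le _) (centralizer_le_normalizer _)]
    exact Nat.mul_le_mul (h.bar hM (h.phi hM hg.1).1 hg.2.1).2 (h.h2 _ (h.phi hM hg.1).1.2.1)
  · simp only [Finset.mem_filter, Finset.mem_univ, true_and] at hy hg ⊢
    rw [← e1] at he ⊢
    have p1 := (h.phi hM hy.1).1
    have p2 := (h.bar hM p1 hy.2.1).1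
    have p3 : y * e ∉ center G := fun h1 => hy.2.2 (le_antisymm (p2.le_mf (le_cent1.2 (p2.2.1 (by
      simpa using mul_mem (p2.1 h1) (inv_mem he))))) (p1.le_mf p1.2.1))
    obtain ⟨p4, p5⟩ := h.sandwich hM p1 p3 (mul_mem (le_cent1.1 (mf_le _)) (mf_le _ he))
    have p6 : mf M (𝐙 (y * e)) = mf M (𝐙 y) := by
      refine le_antisymm ((h.phi hM p3).1.le_mf (le_cent1.2 ?_)) p4
      simpa using mul_mem (le_cent1.1 (mf_le (𝐙 (y * e)))) (inv_mem
        (le_centralizer_iff.1 (p5.trans p2.2.1) he))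
    rw [p6]
    exact ⟨⟨p3, hy.2⟩, rfl⟩

theorem Hyp.phi_eq {F : Subgroup G} (hF : Fan M F) (h1 : mf M (𝐂 F) = F) {g : G}
    (hg : g ∉ center G) : mf M (𝐙 g) = F ↔ g ∈ 𝐂 F :=
  ⟨fun e => le_cent1.1 (e ▸ mf_le _), fun e =>
    le_antisymm ((h.sandwich hM hF hg e).2.trans h1.le) (h.sandwich hM hF hg e).1⟩

open Classical in
theorem Hyp.count_c [Fintype G] [Fintype (Subgroup G)] :
    (Finset.univ.filter fun g : G => g ∉ center G ∧ mf M (𝐙 g) ≠ center G ∧
      mf M (𝐂 (mf M (𝐙 g))) = mf M (𝐙 g)).card =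
    ∑ F ∈ Finset.univ.filter fun F : Subgroup G => Fan M F ∧ F ≠ center G ∧ mf M (𝐂 F) = F,
      (Nat.card (𝐂 F) - Nat.card (center G)) := by
  rw [Finset.card_eq_sum_card_fiberwise (f := fun g => mf M (𝐙 g))
    (t := Finset.univ.filter fun F : Subgroup G => Fan M F ∧ F ≠ center G ∧ mf M (𝐂 F) = F)]
  · refine Finset.sum_congr rfl fun F hF => ?_
    obtain ⟨h1, h2, h3⟩ := (Finset.mem_filter.1 hF).2
    rw [← Set.ncard_coe_finset, card_eq_ncard, card_eq_ncard,
      ← Set.ncard_diff (center_le_cent F)]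
    congr 1
    ext g
    simp only [Finset.coe_filter, Finset.mem_filter, Finset.mem_univ, true_and, Set.mem_setOf_eq,
      Set.mem_diff, SetLike.mem_coe]
    constructor
    · rintro ⟨⟨a, -⟩, b⟩
      exact ⟨(h.phi_eq hM h1 h3 a).1 b, a⟩
    · rintro ⟨a, b⟩
      have := (h.phi_eq hM h1 h3 b).2 a
      rw [this]
      exact ⟨⟨b, h2, h3⟩, rfl⟩
  · intro g hg
    simp only [Finset.coe_filter, Finset.mem_univ, true_and, Set.mem_setOf_eq] at hg ⊢
    exact ⟨(h.phi hM hg.1).1, hg.2⟩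

open Classical in
omit hM in
theorem Hyp.count_d [Fintype (Subgroup G)] {D : ℕ} (hD : ∀ k, 0 < k → k ≤ c → k ∣ D) :
    Nat.card G ∣ D * ∑ F ∈ Finset.univ.filter fun F : Subgroup G =>
      Fan M F ∧ F ≠ center G ∧ mf M (𝐂 F) = F, Nat.card (𝐂 F) := by
  have key : ∀ (x : G) (F : Subgroup G), Fan M F ∧ F ≠ center G ∧ mf M (𝐂 F) = F →
      Fan M (cj x F) ∧ cj x F ≠ center G ∧ mf M (𝐂 (cj x F)) = cj x F := fun x F hF =>
    ⟨hF.1.cj x, fun e => hF.2.1 (by rw [← cj_inv_cj x F, e, cj_center]), by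
      rw [cj_cent, mf_cj, hF.2.2]⟩
  have := card_dvd_sum (G := G) cj cj_one cj_mul (fun F => 𝐍 F) (fun _ _ => cj_eq_iff)
    (fun F => if Fan M F ∧ F ≠ center G ∧ mf M (𝐂 F) = F then D * Nat.card (𝐂 F) else 0)
    (fun x F => by
      by_cases hF : Fan M F ∧ F ≠ center G ∧ mf M (𝐂 F) = F
      · rw [if_pos hF, if_pos (key x F hF), cj_cent, card_cj]
      · rw [if_neg hF, if_neg fun e => hF (cj_inv_cj x F ▸ key x⁻¹ _ e)])
    (fun F => by
      split_ifs with hF
      · rw [← card_rel (centralizer_le_normalizer _)]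
        exact Nat.mul_dvd_mul_right (hD _ (Nat.pos_of_ne_zero (rel_ne _ _)) (h.h2 F hF.1.2.1)) _
      · exact dvd_zero _)
  rwa [← Finset.sum_filter, ← Finset.mul_sum] at this

open Classical in
theorem Hyp.card_le [Fintype G] (hM2 : 2 ≤ M) {F : Subgroup G} (hF : Fan M F) (h1 : F ≠ center G)
    (h2 : mf M (𝐂 F) = F) {K : ℕ} (hK : Nat.card (𝐂 F) < K * Nat.card (center G)) :
    Nat.card G ≤ 2 * c * (Finset.univ.filter fun g : G =>
      M * Nat.card (center G) ≤ Nat.card (𝐙 g) ∧ Nat.card (𝐙 g) < (c * K + 1) * Nat.card (center G)).card := by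
  set R := Finset.univ.filter fun g : G =>
      M * Nat.card (center G) ≤ Nat.card (𝐙 g) ∧ Nat.card (𝐙 g) < (c * K + 1) * Nat.card (center G)
  set T := Finset.univ.filter fun g : G => g ∈ 𝐂 F ∧ g ∉ center G
  have hN : Nat.card (𝐍 F) ≤ c * Nat.card (𝐂 F) := by
    rw [← card_rel (centralizer_le_normalizer _)]
    exact Nat.mul_le_mul_right _ (h.h2 F hF.2.1)
  have hT : T.card = Nat.card (𝐂 F) - Nat.card (center G) := by
    rw [← Set.ncard_coe_finset, card_eq_ncard, card_eq_ncard,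
      ← Set.ncard_diff (center_le_cent F)]
    congr 1
    ext g
    simp [T]
  have h3 := hF.card_ge h1
  have h4 : Nat.card F ≤ Nat.card (𝐂 F) := card_le_of_le hF.2.1
  have h5 : Nat.card (𝐂 F) ≤ 2 * T.card := by
    have := Nat.mul_le_mul_right (Nat.card (center G)) hM2
    omega
  have h6 : (Finset.univ ×ˢ T : Finset (G × G)).card ≤ Nat.card (𝐍 F) * R.card := by
    refine Finset.card_le_mul_card_image_of_maps_to (f := fun q : G × G => q.1 * q.2 * q.1⁻¹)
      (fun q hq => ?_) _ fun y _ => ?_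
    · obtain ⟨a, b⟩ := (Finset.mem_filter.1 (Finset.mem_product.1 hq).2).2
      refine Finset.mem_filter.2 ⟨Finset.mem_univ _, ?_⟩
      rw [cj_cent1, card_cj]
      refine ⟨h3.trans (card_le_of_le (le_cent1.2 a)), ?_⟩
      have : 𝐙 q.2 ≤ 𝐍 F := fun x hx => by
        rw [cj_eq_iff, ← (h.phi_eq hM hF h2 b).2 a, ← mf_cj, ← cj_cent1,
          mem_centralizer_singleton_iff.1 hx, mul_inv_cancel_right]
      have h7 := (card_le_of_le this).trans hN
      have h8 := Nat.mul_le_mul_left c hK.le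
      have : 0 < Nat.card (center G) := Nat.card_pos
      nlinarith
    · rcases ((Finset.univ ×ˢ T).filter fun q : G × G => q.1 * q.2 * q.1⁻¹ = y).eq_empty_or_nonempty
        with e | ⟨q₀, hq₀⟩
      · rw [e]; simp
      have key : ∀ q ∈ (Finset.univ ×ˢ T).filter fun q : G × G => q.1 * q.2 * q.1⁻¹ = y,
          cj q.1 F = mf M (𝐙 y) := fun q hq => by
        obtain ⟨a, rfl⟩ := Finset.mem_filter.1 hq
        obtain ⟨a, b⟩ := (Finset.mem_filter.1 (Finset.mem_product.1 a).2).2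
        rw [cj_cent1, mf_cj, (h.phi_eq hM hF h2 b).2 a]
      rw [card_eq_ncard, Set.ncard_eq_toFinset_card']
      refine Finset.card_le_card_of_injOn (fun q => q₀.1⁻¹ * q.1) (fun q hq => ?_)
        fun q hq q' hq' e => ?_
      · simp only [Set.coe_toFinset, SetLike.mem_coe]
        rw [cj_eq_iff, cj_mul, key q hq, ← key q₀ hq₀, cj_inv_cj]
      · have e1 : q.1 = q'.1 := by simpa using e
        have e2 := (Finset.mem_filter.1 hq).2.trans (Finset.mem_filter.1 hq').2.symm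
        rw [e1] at e2
        exact Prod.ext e1 (by simpa using e2)
  rw [Finset.card_product, Finset.card_univ, ← Nat.card_eq_fintype_card] at h6
  have h7 : 0 < Nat.card (𝐂 F) := Nat.card_pos
  refine Nat.le_of_mul_le_mul_right ?_ h7
  calc Nat.card G * Nat.card (𝐂 F) ≤ Nat.card G * (2 * T.card) := Nat.mul_le_mul_left _ h5
    _ = 2 * (Nat.card G * T.card) := by ring
    _ ≤ 2 * (c * Nat.card (𝐂 F) * R.card) :=
      Nat.mul_le_mul_left _ (h6.trans (Nat.mul_le_mul_right _ hN))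
    _ = _ := by ring

open Classical in
theorem Hyp.step [Fintype G] (hM2 : 2 ≤ M) (hf : 1 ≤ f) (hc : 1 ≤ c) :
    (∃ A : Subgroup G, Ab A ∧ A.index ≤ (f * M ^ L * c).factorial) ∨
    Nat.card G ≤ 2 * c * (Finset.univ.filter fun g : G =>
      M * Nat.card (center G) ≤ Nat.card (𝐙 g) ∧ Nat.card (𝐙 g) <
        (c * ((f * M ^ L * c).factorial + 1) + 1) * Nat.card (center G)).card := by
  have := Fintype.ofFinite (Subgroup G)
  set D := (f * M ^ L * c).factorial with hD
  have hN : 1 ≤ f * M ^ L := Nat.mul_pos hf (pow_pos (by omega) _)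
  have ha := h.count_a hM
  have hb := h.count_b hM
  have hc' := h.count_c hM
  have hd := h.count_d (M := M) (D := D) fun k h1 h2 => Nat.dvd_factorial h1
    (h2.trans (Nat.le_mul_of_pos_left _ hN))
  set 𝓜 := Finset.univ.filter fun F : Subgroup G => Fan M F ∧ F ≠ center G ∧ mf M (𝐂 F) = F
  set z := Nat.card (center G) with hz
  have hz0 : 0 < z := Nat.card_pos
  set a := (Finset.univ.filter fun g : G => g ∉ center G ∧ mf M (𝐙 g) = center G).card with ha'
  set b := (Finset.univ.filter fun g : G => g ∉ center G ∧ mf M (𝐙 g) ≠ center G ∧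
      mf M (𝐂 (mf M (𝐙 g))) ≠ mf M (𝐙 g)).card with hb'
  set e := (Finset.univ.filter fun g : G => g ∉ center G ∧ mf M (𝐙 g) ≠ center G ∧
      mf M (𝐂 (mf M (𝐙 g))) = mf M (𝐙 g)).card with he'
  have h1 : Nat.card G = z + a + b + e := by
    have hz' : z = (Finset.univ.filter fun g : G => g ∈ center G).card := by
      rw [hz, ← Set.ncard_coe_finset, card_eq_ncard]
      congr 1; ext; simp
    rw [hz', ha', hb', he', Nat.card_eq_fintype_card, ← Finset.card_univ]
    simp only [Finset.card_filter]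
    rw [← Finset.sum_add_distrib, ← Finset.sum_add_distrib, ← Finset.sum_add_distrib,
      Finset.card_eq_sum_ones]
    refine Finset.sum_congr rfl fun g _ => ?_
    by_cases q1 : g ∈ center G <;> by_cases q2 : mf M (𝐙 g) = center G <;>
      by_cases q3 : mf M (𝐂 (mf M (𝐙 g))) = mf M (𝐙 g) <;> simp [q1, q2, q3]
  have h2 : e + 𝓜.card * z = ∑ F ∈ 𝓜, Nat.card (𝐂 F) := by
    rw [hc', ← smul_eq_mul, ← Finset.sum_const, ← Finset.sum_add_distrib]
    exact Finset.sum_congr rfl fun F _ => Nat.sub_add_cancel (card_le_of_le (center_le_cent F))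
  have h3 : (Nat.card G : ℤ) ∣ D * z * (𝓜.card - 1) := by
    have q1 : (Nat.card G : ℤ) ∣ D * a := by exact_mod_cast ha
    have q2 : (Nat.card G : ℤ) ∣ D * b := by exact_mod_cast hb
    have q3 : (Nat.card G : ℤ) ∣ D * (e + 𝓜.card * z) := by rw [← h2] at hd; exact_mod_cast hd
    have q4 : (Nat.card G : ℤ) = z + a + b + e := by exact_mod_cast h1
    have : (D : ℤ) * z * (𝓜.card - 1) = D * a + D * b + D * (e + 𝓜.card * z) - D * Nat.card G := by
      rw [q4]; ring
    rw [this]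
    exact dvd_sub (dvd_add (dvd_add q1 q2) q3) (Dvd.intro_left _ rfl)
  have hD0 : 0 < D := Nat.factorial_pos _
  rcases Nat.lt_trichotomy 𝓜.card 1 with h4 | h4 | h4
  · left
    refine ⟨center G, ab_center, ?_⟩
    rw [show 𝓜.card = 0 by omega] at h3
    have h5 : Nat.card G ∣ D * z := by
      simp only [Nat.cast_zero, zero_sub, mul_neg, mul_one, dvd_neg] at h3
      exact_mod_cast h3
    rw [← (center G).index_mul_card] at h5
    exact Nat.le_of_dvd hD0 (Nat.dvd_of_mul_dvd_mul_right hz0 h5)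
  · left
    obtain ⟨F, hF⟩ := Finset.card_eq_one.1 h4
    obtain ⟨q1, q2, q3⟩ := (Finset.mem_filter.1 (hF.ge (Finset.mem_singleton_self F))).2
    have q4 : 𝐍 F = ⊤ := eq_top_iff.2 fun x _ => cj_eq_iff.2 (Finset.mem_singleton.1 (hF.le
      (Finset.mem_filter.2 ⟨Finset.mem_univ _, q1.cj x, fun e => q2 (by
        rw [← cj_inv_cj x F, e, cj_center]), by rw [cj_cent, mf_cj, q3]⟩)))
    refine ⟨F, q1.2.1, le_trans ?_ (Nat.self_le_factorial _)⟩
    rw [← relIndex_mul_index q1.2.1]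
    refine Nat.mul_le_mul (by have := (h.bar hM q1 q2).2; rwa [q3] at this) ?_
    have := h.h2 F q1.2.1
    rwa [q4, relIndex_top_right] at this
  · right
    have h5 : Nat.card G < D * z * 𝓜.card := by
      have q1 : (0 : ℤ) < D * z * (𝓜.card - 1) := by
        have : (1 : ℤ) < 𝓜.card := by exact_mod_cast h4
        have : (0 : ℤ) < D * z := by exact_mod_cast Nat.mul_pos hD0 hz0
        nlinarith
      have q2 := Int.le_of_dvd q1 h3
      have : (0 : ℤ) < D * z := by exact_mod_cast Nat.mul_pos hD0 hz0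
      have : (Nat.card G : ℤ) < D * z * 𝓜.card := by nlinarith
      exact_mod_cast this
    obtain ⟨F, hF, h6⟩ : ∃ F ∈ 𝓜, Nat.card (𝐂 F) < (D + 1) * z := by
      by_contra! h6
      have := Finset.card_nsmul_le_sum 𝓜 _ _ h6
      rw [← h2, smul_eq_mul] at this
      nlinarith
    obtain ⟨q1, q2, q3⟩ := (Finset.mem_filter.1 hF).2
    exact h.card_le hM hM2 q1 q2 q3 h6

end Step

universe u

/-- Jordan's theorem in abstract form. -/
theorem jordan (f c L : ℕ) : ∃ J : ℕ, ∀ (G : Type u) [Group G] [Finite G], Hyp G f c L →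
    ∃ A : Subgroup G, Ab A ∧ A.index ≤ J := by
  classical
  have key : ∀ k : ℕ, ∃ J M : ℕ, f + 1 < M ∧ ∀ (G : Type u) [Group G] [Fintype G],
      Hyp G (f + 1) (c + 1) L → (∃ A : Subgroup G, Ab A ∧ A.index ≤ J) ∨
        k * Nat.card G ≤ 2 * (c + 1) * (Finset.univ.filter fun g : G =>
          Nat.card (𝐙 g) < M * Nat.card (center G)).card := by
    intro k
    induction k with
    | zero => exact ⟨0, f + 2, by omega, fun G _ _ _ => .inr (by simp)⟩
    | succ k ih =>
      obtain ⟨J, M, hM, ih⟩ := ih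
      have e0 : M ≤ (c + 1) * (((f + 1) * M ^ L * (c + 1)).factorial + 1) + 1 + M := by omega
      refine ⟨max J ((f + 1) * M ^ L * (c + 1)).factorial,
        (c + 1) * (((f + 1) * M ^ L * (c + 1)).factorial + 1) + 1 + M, by omega, fun G _ _ h => ?_⟩
      rcases ih G h with ⟨A, h1, h2⟩ | h1
      · exact .inl ⟨A, h1, h2.trans (le_max_left _ _)⟩
      rcases h.step hM (by omega) (by omega) (by omega) with ⟨A, h2, h3⟩ | h2
      · exact .inl ⟨A, h2, h3.trans (le_max_right _ _)⟩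
      right
      rw [add_mul, one_mul]
      refine (add_le_add h1 h2).trans ?_
      rw [← mul_add, ← Finset.card_union_of_disjoint (Finset.disjoint_filter.2 fun g _ a b =>
        absurd b.1 (not_le.2 a))]
      refine Nat.mul_le_mul_left _ (Finset.card_le_card fun g hg => ?_)
      simp only [Finset.mem_union, Finset.mem_filter, Finset.mem_univ, true_and] at hg ⊢
      rcases hg with hg | hg
      · exact hg.trans_le (Nat.mul_le_mul_right _ e0)
      · exact hg.2.trans_le (Nat.mul_le_mul_right _ (by omega))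
  obtain ⟨J, M, -, h⟩ := key (2 * (c + 1) + 1)
  refine ⟨J, fun G _ _ hG => ?_⟩
  have := Fintype.ofFinite G
  refine (h G ⟨fun g hg => ?_, fun X hX => (hG.h2 X hX).trans (by omega), hG.h3⟩).resolve_right
    fun h1 => ?_
  · obtain ⟨A, a, b, e⟩ := hG.h1 g hg
    exact ⟨A, a, b, by omega⟩
  have h2 := h1.trans (Nat.mul_le_mul_left _ (Finset.card_le_univ _))
  rw [← Nat.card_eq_fintype_card] at h2
  have : 0 < Nat.card G := Nat.card_pos
  nlinarith

end Cfsg.Agent.H7.Jor
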