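import Mathlib
import Cfsg.Agent.H7.Jor1

/-! The Brauer-Feit analogue of Jordan's theorem in characteristic `p`. -/

set_option autoImplicit false
set_option linter.unusedSectionVars false

namespace Cfsg.Agent.H7.Jor

open Subgroup Module
open scoped commutatorElement

local notation "𝐂" Q:max => Subgroup.centralizer (SetLike.coe Q)
local notation "𝐍" Q:max => Subgroup.normalizer (SetLike.coe Q)
local notation "𝐙" g:max => Subgroup.centralizer (Singleton.singleton g)

section Grp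

variable {G : Type*} [Group G] [Finite G] {p : ℕ} [hp : Fact p.Prime]

theorem relIndex_le_card {β : Type*} [Finite β] {C N : Subgroup G} (φ : N → β)
    (h : ∀ y y', φ y = φ y' → (y⁻¹ * y' : N).1 ∈ C) : C.relIndex N ≤ Nat.card β :=
  Nat.card_le_card_of_injective (fun q : N ⧸ C.subgroupOf N => φ q.out) fun a b e => by
    rw [← a.out_eq, ← b.out_eq]
    exact QuotientGroup.eq.2 (h _ _ e)

theorem mem_of_pow_coprime {H : Subgroup G} {x : G} {a b : ℕ} (h : a.Coprime b) (ha : x ^ a ∈ H)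
    (hb : x ^ b ∈ H) : x ∈ H := by
  have := mul_mem (zpow_mem ha (Nat.gcdA a b)) (zpow_mem hb (Nat.gcdB a b))
  rwa [← zpow_natCast, ← zpow_natCast, ← zpow_mul, ← zpow_mul, ← zpow_add, ← Nat.gcd_eq_gcd_ab, h,
    Nat.cast_one, zpow_one] at this

theorem card_le_of_isPGroup {m : ℕ} (hm : (Nat.card G).factorization p ≤ m) {U : Subgroup G}
    (hU : IsPGroup p U) : Nat.card U ≤ p ^ m := by
  obtain ⟨j, hj⟩ := hU.exists_card_eq
  rw [hj]
  exact Nat.pow_le_pow_right hp.out.pos (((hp.out.pow_dvd_iff_le_factorization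
    Nat.card_pos.ne').1 (hj ▸ card_subgroup_dvd_card U)).trans hm)

theorem exists_ab_of_commutator {m : ℕ} (hm : (Nat.card G).factorization p ≤ m)
    (h : IsPGroup p (commutator G)) : ∃ A : Subgroup G, Ab A ∧ A.index ≤ p ^ m := by
  obtain ⟨P, hP⟩ := h.exists_le_sylow
  have : (P : Subgroup G).Normal := ⟨fun a ha g => by
    have := mul_mem (hP (commutator_mem_commutator (mem_top g) (mem_top a))) ha
    simpa [commutatorElement_def] using this⟩
  obtain ⟨A, hA⟩ := exists_right_complement'_of_coprime P.card_coprime_index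
  refine ⟨A, fun a ha b hb => ?_, ?_⟩
  · have := hA.disjoint.le_bot (⟨hP (commutator_mem_commutator (mem_top b) (mem_top a)),
      A.mul_mem (A.mul_mem (A.mul_mem hb ha) (A.inv_mem hb)) (A.inv_mem ha)⟩ : ⁅b, a⁆ ∈ (P : Subgroup G) ⊓ A)
    exact commutatorElement_eq_one_iff_mul_comm.1 this
  · rw [hA.index_eq_card]
    exact card_le_of_isPGroup hm P.isPGroup'

theorem factorization_le_of_dvd {a b : ℕ} (hb : b ≠ 0) (h : a ∣ b) :
    a.factorization p ≤ b.factorization p :=
  (Nat.factorization_le_iff_dvd (ne_zero_of_dvd_ne_zero hb h) hb).2 h p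

theorem index_normalCore_le (A : Subgroup G) : A.normalCore.index ≤ A.index.factorial := by
  rw [normalCore_eq_ker, index_ker, index_eq_card, ← Nat.card_perm]
  exact Nat.le_of_dvd Nat.card_pos (card_subgroup_dvd_card _)

end Grp

section Lin

variable {G : Type*} [Group G] [Finite G] {p : ℕ} [hp : Fact p.Prime] {k : Type*} [Field k]
  [CharP k p] [IsAlgClosed k] {V : Type*} [AddCommGroup V] [Module k V] [FiniteDimensional k V]
  (ρ : Representation k G V)

theorem pow_apply_of_mem [Nontrivial V] {a : End k V} {c : k} {v : V}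
    (h : v ∈ a.maxGenEigenspace c) :
    (a ^ p ^ finrank k V) v = c ^ p ^ finrank k V • v := by
  have : CharP (End k V) p := charP_of_injective_algebraMap (algebraMap k (End k V)).injective p
  rw [End.maxGenEigenspace_eq_genEigenspace_finrank, End.mem_genEigenspace_nat,
    LinearMap.mem_ker] at h
  obtain ⟨j, hj⟩ := Nat.exists_eq_add_of_le' (Nat.lt_pow_self hp.out.one_lt (n := finrank k V)).le
  have h1 : ((a - c • (1 : End k V)) ^ p ^ finrank k V) v = 0 := by
    rw [hj, pow_add, End.mul_apply, h, map_zero]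
  rw [sub_pow_char_pow_of_commute _ _ ((Commute.one_right a).smul_right c), smul_pow, one_pow,
    LinearMap.sub_apply, sub_eq_zero] at h1
  exact h1

theorem hyp2 (hρ : Function.Injective ρ) {m n : ℕ} (hm : (Nat.card G).factorization p ≤ m)
    (hn : finrank k V ≤ n) (X : Subgroup G) (hX : Ab X) :
    (𝐂 X).relIndex (𝐍 X) ≤ (n + 1) ^ n * (p ^ m) ^ p ^ m := by
  rcases subsingleton_or_nontrivial V with hV | hV
  · have : Subsingleton G := ⟨fun a b => hρ (Subsingleton.elim _ _)⟩
    rw [Subsingleton.elim (𝐂 X) ⊤, relIndex_top_left]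
    exact Nat.mul_pos (pow_pos (by omega) _) (pow_pos (pow_pos hp.out.pos _) _)
  have hc : ∀ a b : X, Commute (ρ a) (ρ b) := fun a b => by
    rw [Commute, SemiconjBy, ← map_mul, ← map_mul, hX b.2 a a.2]
  let W : (X → k) → Submodule k V := fun χ => ⨅ x : X, End.maxGenEigenspace (ρ x) (χ x)
  have hi : iSupIndep W := End.independent_iInf_maxGenEigenspace_of_forall_mapsTo _
    fun i j => End.mapsTo_maxGenEigenspace_of_comm (hc j i)
  have ht : ⨆ χ, W χ = ⊤ :=
    End.iSup_iInf_maxGenEigenspace_eq_top_of_iSup_maxGenEigenspace_eq_top_of_commute _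
      (fun i j _ => hc i j) fun i => End.iSup_maxGenEigenspace_eq_top _
  have := hi.fintypeNeBotOfFiniteDimensional
  have h1 : Nat.card {χ // W χ ≠ ⊥} ≤ n := by
    rw [Nat.card_eq_fintype_card]; exact hi.subtype_ne_bot_le_finrank.trans hn
  let U : Subgroup G :=
    { carrier := {u | u ∈ X ∧ ∃ j, u ^ p ^ j = 1}
      one_mem' := ⟨one_mem _, 0, by simp⟩
      mul_mem' := fun {a b} ⟨ha, i, hi⟩ ⟨hb, j, hj⟩ => ⟨mul_mem ha hb, i + j, by
        rw [Commute.mul_pow (hX hb a ha), pow_add, pow_mul, hi, mul_comm, pow_mul, hj]; simp⟩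
      inv_mem' := fun {a} ⟨ha, i, hi⟩ => ⟨inv_mem ha, i, by rw [inv_pow, hi, inv_one]⟩ }
  have h2 : Nat.card U ≤ p ^ m := card_le_of_isPGroup hm fun u =>
    let ⟨j, hj⟩ := u.2.2; ⟨j, Subtype.ext hj⟩
  have hN : ∀ y : 𝐍 X, ∀ x ∈ X, y.1 * x * y.1⁻¹ ∈ X := fun y x hx =>
    (mem_normalizer_iff.1 y.2 x).1 hx
  have hW : ∀ (y : 𝐍 X) χ, W χ ≠ ⊥ → W (fun x => χ ⟨_, hN y x x.2⟩) ≠ ⊥ := fun y χ hχ => by
    obtain ⟨v, hv, h0⟩ := Submodule.exists_mem_ne_zero_of_ne_bot hχ
    refine (Submodule.ne_bot_iff _).2 ⟨ρ y.1⁻¹ v, (Submodule.mem_iInf _).2 fun x => ?_, fun e => h0 ?_⟩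
    · obtain ⟨j, hj⟩ := (End.mem_maxGenEigenspace _ _ _).1
        ((Submodule.mem_iInf _).1 hv ⟨_, hN y x x.2⟩)
      refine (End.mem_maxGenEigenspace _ _ _).2 ⟨j, ?_⟩
      have : SemiconjBy (ρ y.1⁻¹) (ρ (y.1 * x * y.1⁻¹) - χ ⟨_, hN y x x.2⟩ • (1 : End k V))
          (ρ x - χ ⟨_, hN y x x.2⟩ • (1 : End k V)) := by
        rw [SemiconjBy, mul_sub, sub_mul, ← map_mul, ← map_mul]
        simp [mul_assoc]
      rw [← End.mul_apply, ← (this.pow_right j).eq, End.mul_apply, hj, map_zero]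
    · simpa [← End.mul_apply, ← map_mul] using congrArg (ρ y.1) e
  refine (relIndex_le_card (C := 𝐂 X) (β := ({χ // W χ ≠ ⊥} → {χ // W χ ≠ ⊥}) × (U → U))
    (fun y => (fun χ => ⟨_, hW y χ.1 χ.2⟩, fun u => ⟨y.1 * u * y.1⁻¹, hN y u u.2.1, by
      obtain ⟨j, hj⟩ := u.2.2
      exact ⟨j, by rw [conj_pow, hj]; simp⟩⟩)) fun y y' e x hx => ?_).trans ?_
  · have key : ∀ w : G, y.1 * w * y.1⁻¹ = y'.1 * w * y'.1⁻¹ → w ∈ 𝐙 (y.1⁻¹ * y'.1) := fun w hw => by
      rw [mem_centralizer_singleton_iff]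
      calc w * (y.1⁻¹ * y'.1) = y.1⁻¹ * (y.1 * w * y.1⁻¹) * y'.1 := by group
        _ = _ := by rw [hw]; group
    refine mem_centralizer_singleton_iff.1 (mem_of_pow_coprime (a := p ^ finrank k V)
      (b := ordCompl[p] (orderOf x)) ((Nat.coprime_ordCompl hp.out (orderOf_pos x).ne').pow_left _)
      (key _ ?_) (key _ ?_))
    · rw [← conj_pow, ← conj_pow]
      refine hρ ?_
      rw [map_pow, map_pow]
      refine LinearMap.ext fun v => ?_
      refine Submodule.iSup_induction W (motive := fun v => (ρ (y.1 * x * y.1⁻¹) ^ p ^ finrank k V) v =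
        (ρ (y'.1 * x * y'.1⁻¹) ^ p ^ finrank k V) v) (ht.ge (Submodule.mem_top (x := v)))
        (fun χ v hv => ?_) (by simp) fun a b ha hb => by rw [map_add, map_add, ha, hb]
      by_cases h0 : W χ = ⊥
      · rw [h0, Submodule.mem_bot] at hv; simp [hv]
      have e1 := congrFun (congrArg Subtype.val (congrFun (congrArg Prod.fst e) ⟨χ, h0⟩)) ⟨x, hx⟩
      rw [pow_apply_of_mem ((Submodule.mem_iInf _).1 hv ⟨_, hN y x hx⟩),
        pow_apply_of_mem ((Submodule.mem_iInf _).1 hv ⟨_, hN y' x hx⟩)]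
      exact congrArg (fun c : k => c ^ p ^ finrank k V • v) e1
    · exact congrArg Subtype.val (congrFun (congrArg Prod.snd e) ⟨x ^ ordCompl[p] (orderOf x),
        pow_mem hx _, (orderOf x).factorization p, by
          rw [← pow_mul, mul_comm, Nat.ordProj_mul_ordCompl_eq_self, pow_orderOf_eq_one]⟩)
  · rw [Nat.card_prod, Nat.card_fun, Nat.card_fun]
    exact Nat.mul_le_mul ((Nat.pow_le_pow_left (h1.trans (Nat.le_succ n)) _).trans
      (Nat.pow_le_pow_right (by omega) h1)) ((Nat.pow_le_pow_left h2 _).trans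
      (Nat.pow_le_pow_right (pow_pos hp.out.pos _) h2))

theorem hyp3 (hρ : Function.Injective ρ) {n : ℕ} (hn : finrank k V ≤ n) :
    ∃ d : Subgroup G → ℕ, (∀ X, d X ≤ n * n) ∧
      ∀ X Y : Subgroup G, X ≤ Y → ¬ 𝐂 X ≤ 𝐂 Y → d Y < d X := by
  refine ⟨fun X => finrank k (Subalgebra.centralizer k (ρ '' X)).toSubmodule, fun X => ?_,
    fun X Y h1 h2 => Submodule.finrank_lt_finrank_of_lt (lt_of_le_of_ne
      (Subalgebra.centralizer_le k _ _ (Set.image_mono h1)) fun e => h2 fun g hg y hy => ?_)⟩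
  · refine (Submodule.finrank_le _).trans ?_
    rw [finrank_linearMap]
    exact Nat.mul_le_mul hn hn
  · have : ρ g ∈ (Subalgebra.centralizer k (ρ '' X)).toSubmodule := by
      rintro _ ⟨x, hx, rfl⟩
      rw [← map_mul, ← map_mul, hg x hx]
    have := e.ge this _ ⟨y, hy, rfl⟩
    rw [← map_mul, ← map_mul] at this
    exact hρ this

end Lin

universe u v w

theorem jordan_lin (p : ℕ) [hp : Fact p.Prime] (m n : ℕ) : ∃ f : ℕ, ∀ (k : Type v) [Field k]
    [CharP k p] [IsAlgClosed k] (V : Type w) [AddCommGroup V] [Module k V] [FiniteDimensional k V]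
    (G : Type u) [Group G] [Finite G] (ρ : Representation k G V), finrank k V ≤ n →
    (Nat.card G).factorization p ≤ m →
    ∃ A : Subgroup G, A.index ≤ f ∧ ∀ a ∈ A, ∀ b ∈ A, ρ (a * b) = ρ (b * a) := by
  induction n with
  | zero =>
    refine ⟨1, fun k _ _ _ V _ _ _ G _ _ ρ h _ => ⟨⊤, by simp, fun a _ b _ => ?_⟩⟩
    have : Subsingleton V := (finrank_zero_iff (R := k)).1 (by omega)
    exact Subsingleton.elim _ _
  | succ n ih =>
    obtain ⟨f, ih⟩ := ih
    obtain ⟨J, hJ⟩ := jordan.{u} (p ^ m * (f * f)) ((n + 1 + 1) ^ (n + 1) * (p ^ m) ^ p ^ m)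
      ((n + 1) * (n + 1))
    refine ⟨J, fun k _ _ _ V _ _ _ G _ _ ρ hn hm => ?_⟩
    suffices H : ∀ (G : Type u) [Group G] [Finite G] (ρ : Representation k G V),
        Function.Injective ρ → (Nat.card G).factorization p ≤ m →
        ∃ A : Subgroup G, Ab A ∧ A.index ≤ J by
      obtain ⟨A, h1, h2⟩ := H (G ⧸ MonoidHom.ker ρ) (QuotientGroup.lift _ ρ fun _ h => h)
        (fun a b e => by
          obtain ⟨a, rfl⟩ := QuotientGroup.mk_surjective a
          obtain ⟨b, rfl⟩ := QuotientGroup.mk_surjective b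
          refine QuotientGroup.eq.2 (MonoidHom.mem_ker.2 ?_)
          have e' : ρ a = ρ b := e
          rw [map_mul, ← e', ← map_mul, inv_mul_cancel, map_one])
        ((factorization_le_of_dvd Nat.card_pos.ne' (card_quotient_dvd_card _)).trans hm)
      refine ⟨A.comap (QuotientGroup.mk' _), by
        rwa [index_comap_of_surjective _ (QuotientGroup.mk'_surjective _)], fun a ha b hb => ?_⟩
      have := congrArg (QuotientGroup.lift (MonoidHom.ker ρ) ρ fun _ h => h) (h1 hb _ ha)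
      rw [← map_mul, ← map_mul] at this
      exact this
    intro G _ _ ρ hρ hm
    refine hJ G ⟨fun g hg => ?_, hyp2 ρ hρ hm hn, hyp3 ρ hρ hn⟩
    have : Nontrivial V := by
      by_contra! h
      exact hg (mem_center_iff.2 fun a => hρ (Subsingleton.elim _ _))
    obtain ⟨c, hc⟩ := End.exists_eigenvalue (ρ g)
    let W := End.eigenspace (ρ g) c
    have h1 : W ≠ ⊤ := fun e => hg (mem_center_iff.2 fun a => hρ (LinearMap.ext fun v => by
      rw [map_mul, map_mul, End.mul_apply, End.mul_apply, End.mem_eigenspace_iff.1 (e.ge trivial),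
        End.mem_eigenspace_iff.1 (e.ge (Submodule.mem_top (x := ρ a v))), map_smul]))
    let σ : Representation k (𝐙 g) V := ρ.comp (𝐙 g).subtype
    have hW : ∀ x, W ≤ W.comap (σ x) := fun x v hv => End.mem_eigenspace_iff.2 (by
      change ρ g (ρ x v) = c • ρ x v
      rw [← End.mul_apply, ← map_mul, ← mem_centralizer_singleton_iff.1 x.2, map_mul,
        End.mul_apply, End.mem_eigenspace_iff.1 hv, map_smul])
    have hm' : (Nat.card (𝐙 g)).factorization p ≤ m :=
      (factorization_le_of_dvd Nat.card_pos.ne' (card_subgroup_dvd_card _)).trans hm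
    have h2 := Submodule.finrank_lt h1
    have h3 := W.finrank_quotient_add_finrank
    have h4 : 0 < finrank k W := by
      rw [finrank_pos_iff, Submodule.nontrivial_iff_ne_bot]; exact hc
    obtain ⟨A₁, a1, a2⟩ := ih k W (𝐙 g) (σ.subrepresentation W hW) (by omega) hm'
    obtain ⟨A₂, b1, b2⟩ := ih k (V ⧸ W) (𝐙 g) (σ.quotient W hW) (by omega) hm'
    let K := MonoidHom.ker (σ.subrepresentation W hW) ⊓ MonoidHom.ker (σ.quotient W hW)
    have hK : IsPGroup p K := fun x => ⟨1, Subtype.ext (Subtype.ext (hρ ?_))⟩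
    swap
    · have : CharP (End k V) p := charP_of_injective_algebraMap (algebraMap k (End k V)).injective p
      have e1 : (ρ x.1.1 - 1) ^ 2 = 0 := LinearMap.ext fun v => by
        have q1 : ρ x.1.1 v - v ∈ W := (Submodule.Quotient.eq W).1
          (LinearMap.congr_fun x.2.2 (Submodule.Quotient.mk v))
        have q2 := congrArg Subtype.val (LinearMap.congr_fun x.2.1 ⟨_, q1⟩)
        rw [sq, End.mul_apply]
        exact sub_eq_zero.2 q2
      have e2 : (ρ x.1.1 - 1) ^ p ^ 1 = 0 := by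
        obtain ⟨j, hj⟩ := Nat.exists_eq_add_of_le hp.out.two_le
        rw [pow_one, hj, pow_add, e1, zero_mul]
      rw [sub_pow_char_pow_of_commute _ _ (Commute.one_right _), one_pow, sub_eq_zero] at e2
      simpa using e2
    obtain ⟨A, c1, c2⟩ := exists_ab_of_commutator (G := (A₁ ⊓ A₂ : Subgroup (𝐙 g))) (p := p)
      ((factorization_le_of_dvd Nat.card_pos.ne' (card_subgroup_dvd_card _)).trans hm')
      ((hK.comap_subtype (K := A₁ ⊓ A₂)).to_le (commutator_le.2 fun a _ b _ => by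
        have key : ∀ {H : Type w} [Monoid H] (τ : (𝐙 g) →* H), τ (a * b) = τ (b * a) →
            τ ⁅(a : 𝐙 g), (b : 𝐙 g)⁆ = 1 := fun τ h => by
          rw [commutatorElement_def, mul_assoc, map_mul, h, ← map_mul]; simp
        exact ⟨key _ (a2 _ a.2.1 _ b.2.1), key _ (b2 _ a.2.2 _ b.2.2)⟩))
    refine ⟨(A.map (A₁ ⊓ A₂).subtype).map (𝐙 g).subtype, map_subtype_le _, ?_, ?_⟩
    · rintro _ ⟨_, ⟨a, ha, rfl⟩, rfl⟩ _ ⟨_, ⟨b, hb, rfl⟩, rfl⟩
      exact congrArg (fun x => x.1.1) (c1 ha b hb)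
    · rw [relIndex, ← comap_subtype, comap_map_eq_self_of_injective (subtype_injective _),
        index_map_subtype]
      exact Nat.mul_le_mul c2 (index_inf_le.trans (Nat.mul_le_mul a1 b1))

theorem brauer_feit (p : ℕ) [Fact p.Prime] : ∃ f : ℕ → ℕ → ℕ, ∀ (G : Type u) [Group G] [Finite G]
    (F : Type v) [Field F] [CharP F p] (n : ℕ) (ρ : Representation F G (Fin n → F)),
    Function.Injective ρ → ∀ m : ℕ, (Nat.card G).factorization p = m →
    ∃ A : Subgroup G, A.Normal ∧ IsMulCommutative A ∧ A.index < f m n := by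
  choose f hf using jordan_lin.{u, v, v} p
  refine ⟨fun m n => (f m n).factorial + 1, fun G _ _ F _ _ n ρ hρ m hm => ?_⟩
  let k := AlgebraicClosure F
  let τ : End F (Fin n → F) →* End k (Fin n → k) :=
    ((Matrix.toLinAlgEquiv' (R := k) (n := Fin n)).toRingEquiv.toMonoidHom.comp
      (algebraMap F k).mapMatrix.toMonoidHom).comp
      (LinearMap.toMatrixAlgEquiv' (R := F) (n := Fin n)).toRingEquiv.toMonoidHom
  have hτ : Function.Injective τ := (Matrix.toLinAlgEquiv'.injective.comp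
    (Matrix.map_injective (algebraMap F k).injective)).comp LinearMap.toMatrixAlgEquiv'.injective
  obtain ⟨A, h1, h2⟩ := hf m n k (Fin n → k) G (τ.comp ρ) (by simp) hm.le
  refine ⟨A.normalCore, inferInstance, ⟨⟨fun a b => Subtype.ext (hρ (hτ
    (h2 _ (A.normalCore_le a.2) _ (A.normalCore_le b.2))))⟩⟩, Nat.lt_succ_of_le
    ((index_normalCore_le A).trans (Nat.factorial_le h1))⟩

end Cfsg.Agent.H7.Jor
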