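import Mathlib
import Cfsg.Agent.H7.LieB
import Cfsg.Agent.H7.CT
import Cfsg.Agent.H9.Subs
import Cfsg.Agent.H10.SL

/-! The blocks of positive defect in the defining characteristic are indexed by the central
characters. -/

set_option autoImplicit false
set_option linter.unusedSectionVars false

namespace Cfsg.Agent.H7

open H12 H12.RGD H17 H9 Subgroup MonoidAlgebra
open H8 (rd locRing resField eB)

variable {G : Type*} [Group G] [Finite G] {p : ℕ} [Fact p.Prime] {M : Ideal AlgInt}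

theorem eq_of_rd_eq_root [M.IsMaximal] (hM : IsPModular p M) {n : ℕ} (hn : ¬ p ∣ n) {z w : ℂ}
    (hz : z ^ n = 1) (hw : w ^ n = 1) (h : rd M z = rd M w) : z = w := by
  have h0 : n ≠ 0 := by rintro rfl; exact hn (dvd_zero p)
  have hi : ∀ u : ℂ, u ^ n = 1 → u ∈ locRing M := fun u hu =>
    H8.mem_locRing_of_isIntegral M (IsIntegral.of_pow (Nat.pos_of_ne_zero h0) (hu ▸ isIntegral_one))
  have hw0 : w ≠ 0 := by rintro rfl; simp [h0] at hw
  have hrw : rd M w ≠ 0 := fun e => by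
    have := H8.rd_pow (hi w hw) n
    rw [hw, e, H8.rd_one, zero_pow h0] at this
    exact one_ne_zero this
  have hu : (z / w) ^ n = 1 := by rw [div_pow, hz, hw, div_one]
  have hr : rd M (z / w) = 1 := by rw [H8.rd_div (hi z hz) hrw, h, div_self hrw]
  by_contra hne
  have h1 : z / w ≠ 1 := fun e => hne ((div_eq_one_iff_eq hw0).1 e)
  have h2 : ∑ i ∈ Finset.range n, (z / w) ^ i = 0 := by
    rw [geom_sum_eq h1, hu, sub_self, zero_div]
  have h3 := congrArg (rd M) h2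
  rw [H8.rd_sum _ _ (fun i _ => pow_mem (hi _ hu) i), H8.rd_zero] at h3
  simp only [H8.rd_pow (hi _ hu), hr, one_pow, Finset.sum_const, Finset.card_range, nsmul_eq_mul,
    mul_one] at h3
  exact hn ((H8.rd_natCast_eq_zero_iff hM n).1 (by rwa [H8.rd_natCast]))

theorem centralChar_eq_of_block (hM : IsPModular p M) {B : Set (IrrCharacter G)}
    (hB : IsPBlock M B) {χ ψ : IrrCharacter G} (hχ : χ ∈ B) (hψ : ψ ∈ B) {z : G}
    (hz : z ∈ center G) (ho : ¬ p ∣ orderOf z) :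
    centralChar (χ : G → ℂ) z = centralChar (ψ : G → ℂ) z := by
  have := hM.2.1
  have hc : ∀ g, z * g = g * z := fun g => (mem_center_iff.1 hz g).symm
  exact eq_of_rd_eq_root hM ho (centralChar_pow_eq_one χ hc (pow_orderOf_eq_one z))
    (centralChar_pow_eq_one ψ hc (pow_orderOf_eq_one z))
    ((H8.lam_eq_iff χ ψ).1 (H8.block_lam_eq hB hχ hψ) z)

theorem RadZ.mem_center (hC : RadZ G p) (hM : IsPModular p M) {B : Set (IrrCharacter G)}
    (hB : IsPBlock M B) (h : blockDefect p B ≠ 0) {χ : IrrCharacter G} (hχ : χ ∈ B) {g : G}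
    (ho : ¬ p ∣ orderOf g) (hg : haveI := hM.2.1; rd M (centralChar (χ : G → ℂ) g) ≠ 0) :
    g ∈ center G := by
  have := hM.2.1
  have : PMod M p := ⟨hM⟩
  obtain ⟨D, hD⟩ := H9.exists_isDefectGroup hB
  rw [Ne, H8.blockDefect_eq_zero_iff PMod.out hB hD] at h
  have h1 := (isDefectGroup_iff hB).1 hD
  obtain ⟨t, -, ht⟩ := h1.exists_conj_mem_centralizer le_rfl le_normalizer_top (isBlk_eB hB)
    (mem_top g) (by rwa [lam_eB_csum hB hχ])
  have h2 := hC D h1.isP h (fun Q => isDef_radical (H9.isBlk_eB hB) h1) _ ht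
    (by rwa [← MulAut.conj_apply, MulEquiv.orderOf_eq])
  have h3 := mem_center_iff.1 h2 t⁻¹
  have : g = t * g * t⁻¹ := by
    calc g = t⁻¹ * (t * g * t⁻¹) * t := by group
      _ = _ := by rw [h3]; group
  exact this ▸ h2

theorem RadZ.eq_of_central (hC : RadZ G p) (hM : IsPModular p M) {B B' : Set (IrrCharacter G)}
    (hB : IsPBlock M B) (hB' : IsPBlock M B') (h : blockDefect p B ≠ 0) (h' : blockDefect p B' ≠ 0)
    {χ ψ : IrrCharacter G} (hχ : χ ∈ B) (hψ : ψ ∈ B')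
    (e : ∀ z ∈ center G, centralChar (χ : G → ℂ) z = centralChar (ψ : G → ℂ) z) : B = B' := by
  classical
  have := hM.2.1
  have := Fintype.ofFinite (ConjClasses G)
  have h1 : H8.lam M (ψ : G → ℂ) (eB M B) = H8.lam M (χ : G → ℂ) (eB M B) := by
    rw [H8.lam_apply, H8.lam_apply]
    refine Finset.sum_congr rfl fun K _ => ?_
    by_cases h2 : (eB M B).coeff (Quotient.out K) = 0
    · rw [h2, zero_mul, zero_mul]
    have ho := H8.not_dvd_of_coeff_eB_ne_zero hM (H8.isBlockUnion_of_block hB) h2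
    by_cases h3 : Quotient.out K ∈ center G
    · rw [e _ h3]
    rw [of_not_not (mt (hC.mem_center hM hB h hχ ho) h3),
      of_not_not (mt (hC.mem_center hM hB' h' hψ ho) h3)]
  rw [H8.lam_eB_of_mem (H8.isBlockUnion_of_block hB) hχ] at h1
  by_contra hne
  rw [H8.lam_eB_of_notMem (H8.isBlockUnion_of_block hB)
    (fun h4 => hne (H8.block_eq_of_mem hB hB' h4 hψ))] at h1
  exact zero_ne_one h1

theorem exists_pos_defect (hM : IsPModular p M) (hp : p ∣ Nat.card G) (lam : center G →* ℂˣ) :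
    ∃ χ : IrrCharacter G, blockDefect p (blockOf M (χ : G → ℂ)) ≠ 0 ∧
      ∀ (z : center G) x, (χ : G → ℂ) (z * x) = lam z * (χ : G → ℂ) x := by
  classical
  have := hM.2.1
  have : PMod M p := ⟨hM⟩
  by_contra! hh
  have h1 := sum_over_of_good (Z := center G) le_rfl (lam := lam) (g := 1) (by simp)
  rw [show centralizer ({1} : Set G) = ⊤ from by ext; simp [mem_centralizer_singleton_iff],
    card_top] at h1
  set a := (Nat.card G).factorization p with ha
  have h2 : ∀ χ ∈ (irrSet G).filter fun χ => ip (fun z : center G => χ z) (linFun lam) ≠ 0,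
      χ 1 * (starRingEnd ℂ) (χ 1) = ((charDegree χ ^ 2 : ℕ) : ℂ) ∧ p ^ (2 * a) ∣ charDegree χ ^ 2 := by
    intro χ hχ
    obtain ⟨h3, h4⟩ := Finset.mem_filter.1 hχ
    have hi : IsIrrCharacter G χ := mem_irrSet.1 h3
    refine ⟨by rw [char_one_eq (irr_char hi)]; simp [sq], ?_⟩
    have h5 : blockDefect p (blockOf M χ) = 0 := by
      by_contra h6
      obtain ⟨z, x, h7⟩ := hh ⟨χ, hi⟩ h6
      exact h7 ((over_central_iff le_rfl hi).1 h4 z x)
    rw [mul_comm, pow_mul]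
    refine pow_dvd_pow_of_dvd ?_ 2
    rw [ha, ← (blockDefect_blockOf (M := M) ⟨χ, hi⟩).1 h5]
    exact Nat.ordProj_dvd _ _
  rw [Finset.sum_congr rfl fun χ hχ => (h2 χ hχ).1] at h1
  have h3 : p ^ (2 * a) ∣ Nat.card G := by
    have h4 : Nat.card (center G) * ∑ χ ∈ (irrSet G).filter fun χ =>
        ip (fun z : center G => χ z) (linFun lam) ≠ 0, charDegree χ ^ 2 = Nat.card G := by
      exact_mod_cast h1
    exact h4 ▸ Dvd.dvd.mul_left (Finset.dvd_sum fun χ hχ => (h2 χ hχ).2) _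
  have h4 := ((Fact.out : p.Prime).pow_dvd_iff_le_factorization Nat.card_pos.ne').1 h3
  have h5 := (Fact.out : p.Prime).factorization_pos_of_dvd Nat.card_pos.ne' hp
  omega

theorem centralChar_of_lam {χ : IrrCharacter G} {z : G} (hz : z ∈ center G) {c : ℂ}
    (h : ∀ x, (χ : G → ℂ) (z * x) = c * (χ : G → ℂ) x) : centralChar (χ : G → ℂ) z = c := by
  have h1 := H8.irr_central_mul χ (fun g => (mem_center_iff.1 hz g).symm) 1
  rw [h 1] at h1
  exact (mul_right_cancel₀ (irr_one_ne_zero χ.2) h1).symm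

theorem RadZ.card_pos_defect (hC : RadZ G p) (hM : IsPModular p M) (hp : p ∣ Nat.card G)
    (hZ : ¬ p ∣ Nat.card (center G)) :
    Nat.card {B : Set (IrrCharacter G) // IsPBlock M B ∧ blockDefect p B ≠ 0} =
      Nat.card (center G) := by
  have := hM.2.1
  choose χ h1 h2 using exists_pos_defect hM hp
  have hc : commutator (center G) = ⊥ := eq_bot_iff.2 (commutator_le.2 fun a _ b _ =>
    commutatorElement_eq_one_iff_mul_comm.2 (Subtype.ext (mem_center_iff.1 b.2 a)))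
  rw [← index_bot (G := center G), ← hc, ← H6.card_linear (center G)]
  refine (Nat.card_congr (Equiv.ofBijective (fun lam => ⟨_, H8.isPBlock_blockOf (χ lam), h1 lam⟩)
    ⟨fun l m e => ?_, fun ⟨B, hB, h⟩ => ?_⟩)).symm
  · have e' : blockOf M (χ l : G → ℂ) = blockOf M (χ m : G → ℂ) := congrArg Subtype.val e
    ext z
    have := centralChar_eq_of_block hM (H8.isPBlock_blockOf (χ l)) (H8.mem_blockOf_self _)
      (e' ▸ H8.mem_blockOf_self (χ m)) z.2 fun hd => hZ (hd.trans (by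
        rw [orderOf_coe]; exact orderOf_dvd_natCard z))
    rwa [centralChar_of_lam z.2 (h2 l z), centralChar_of_lam z.2 (h2 m z)] at this
  · obtain ⟨ψ, hψ⟩ := H8.block_nonempty hB
    obtain ⟨l, hl⟩ := H6.exists_linear_of_le_center ψ.2 (center G) le_rfl
    refine ⟨l, Subtype.ext (hC.eq_of_central hM (H8.isPBlock_blockOf _) hB (h1 l) h
      (H8.mem_blockOf_self _) hψ fun z hz => ?_)⟩
    rw [centralChar_of_lam hz (h2 l ⟨z, hz⟩), centralChar_of_lam hz (hl ⟨z, hz⟩)]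

theorem card_blocks_split (p : ℕ) (M : Ideal AlgInt) :
    Nat.card {B : Set (IrrCharacter G) // IsPBlock M B} =
      Nat.card {B : Set (IrrCharacter G) // IsPBlock M B ∧ blockDefect p B ≠ 0} +
      Nat.card {B : Set (IrrCharacter G) // IsPBlock M B ∧ blockDefect p B = 0} := by
  classical
  have := H8.finite_irr (G := G)
  rw [← Nat.card_sum]
  refine Nat.card_congr ((Equiv.sumCompl fun B : {B : Set (IrrCharacter G) // IsPBlock M B} =>
    blockDefect p B.1 ≠ 0).symm.trans (Equiv.sumCongr (Equiv.subtypeSubtypeEquivSubtypeInter _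
      (fun B => blockDefect p B ≠ 0)) ((Equiv.subtypeSubtypeEquivSubtypeInter _
      (fun B => ¬ blockDefect p B ≠ 0)).trans (Equiv.subtypeEquivRight fun B => by simp))))

theorem ld_dvd_card {L : LD p G} (hL : L.Nice) : p ∣ Nat.card G := by
  obtain ⟨i⟩ := hL.2.1
  exact ((L.char.pU (L.R.simple i)).card_eq_or_dvd.resolve_left
    fun h => U_ne_bot _ (eq_bot_of_card_eq _ h)).trans (card_subgroup_dvd_card _)

theorem ld_center (L : LD p G) : ¬ p ∣ Nat.card (center G) := fun h => by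
  obtain ⟨z, hz⟩ := exists_prime_orderOf_dvd_card' p h
  have := L.char.pT z (center_le_T L.X L.top z.2) (by
    rw [← hz, ← coe_pow, pow_orderOf_eq_one]; rfl)
  rw [← orderOf_coe, this, orderOf_one] at hz
  exact (Fact.out : p.Prime).one_lt.ne hz

theorem nice_sl {F : Type*} [Field F] [Fintype F] {n : ℕ} [CharP F p] (hn : 0 < n) :
    (ldSL F p n).Nice := ⟨TA.irred, ⟨(⟨0, hn⟩ : Fin n)⟩, bt_int (TA.charP p) TA.rgd_top⟩

theorem sl_card_blocks {F : Type*} [Field F] [Fintype F] {n : ℕ} [CharP F p] (hn : 0 < n)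
    (hM : IsPModular p M) :
    Nat.card {B : Set (IrrCharacter (Matrix.SpecialLinearGroup (Fin (n + 1)) F)) // IsPBlock M B} =
      Nat.gcd (n + 1) (Fintype.card F - 1) + 1 := by
  rw [card_blocks_split p, sl_card_defect_zero hM, (radZ_sl hn).card_pos_defect hM
    (ld_dvd_card (nice_sl hn)) (ld_center (ldSL F p n)), H10.card_center_SL_fin _ (by omega)]

theorem RadZ.isDefectGroup (hC : RadZ G p) (hM : IsPModular p M) {B : Set (IrrCharacter G)}
    (hB : IsPBlock M B) (h : blockDefect p B ≠ 0) (P : Sylow p G) :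
    IsDefectGroup p M B (P : Subgroup G) := by
  have := hM.2.1
  have : PMod M p := ⟨hM⟩
  obtain ⟨D, hD⟩ := H9.exists_isDefectGroup hB
  rw [Ne, H8.blockDefect_eq_zero_iff PMod.out hB hD] at h
  have h1 := (isDefectGroup_iff hB).1 hD
  obtain ⟨c, hc, h3⟩ := trunc_ne_zero_iff.1 h1.br_ne
  have h4 := hC D h1.isP h (fun Q => isDef_radical (H9.isBlk_eB hB) h1) c hc
    (H8.not_dvd_of_coeff_eB_ne_zero PMod.out (H8.isBlockUnion_of_block hB) h3)
  refine (isDefectGroup_iff hB).2 (h1.of_card_le le_top P.isPGroup' (trunc_ne_zero_iff.2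
    ⟨c, fun y _ => mem_center_iff.1 h4 y, h3⟩) ?_)
  rw [P.card_eq_multiplicity, H8.card_defectGroup PMod.out hB hD]
  exact Nat.pow_le_pow_right (Fact.out : p.Prime).pos (Nat.sub_le ..)

open Classical in
theorem stc_center [Fintype G] (L : LD p G) {z : G} (hz : z ∈ center G) :
    L.X.stc z = L.X.stc 1 := by
  have ht := center_le_T L.X L.top hz
  rw [stc_of_mem_B L.top (T_le_B ht), stc_of_mem_B L.top (one_mem _), fx, fx]
  congr 1
  refine Finset.sum_congr rfl fun x _ => ?_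
  have : x⁻¹ * z * x = z := by rw [mul_assoc, ← mem_center_iff.1 hz x, inv_mul_cancel_left]
  simp [this, ht]

theorem three_blocks (hC : RadZ G p) (hM : IsPModular p M) (hp : p ≠ 2) {z : G} (hz : z ∈ center G)
    (hz1 : z ≠ 1) (hz2 : z ^ 2 = 1) (hZ : ∀ y ∈ center G, y = 1 ∨ y = z) {q : ℂ} (hq : q ≠ 1)
    {St : IrrCharacter G} (hS : (St : G → ℂ) z = (St : G → ℂ) 1)
    (h0 : ∀ χ : IrrCharacter G, blockDefect p (blockOf M (χ : G → ℂ)) = 0 ↔ χ = St)
    (h1 : ∀ χ : IrrCharacter G, (χ : G → ℂ) 1 = q ↔ χ = St) :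
    (∀ B : Set (IrrCharacter G), IsPBlock M B ↔
      (B = {χ : IrrCharacter G | (χ : G → ℂ) 1 = q} ∨
       B = {χ : IrrCharacter G | (χ : G → ℂ) z = (χ : G → ℂ) 1 ∧ (χ : G → ℂ) 1 ≠ q} ∨
       B = {χ : IrrCharacter G | (χ : G → ℂ) z = -(χ : G → ℂ) 1})) ∧
    ∀ P : Sylow p G,
      IsDefectGroup p M {χ : IrrCharacter G | (χ : G → ℂ) z = (χ : G → ℂ) 1 ∧ (χ : G → ℂ) 1 ≠ q}
        (P : Subgroup G) ∧
      IsDefectGroup p M {χ : IrrCharacter G | (χ : G → ℂ) z = -(χ : G → ℂ) 1} (P : Subgroup G) := by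
  have := hM.2.1
  have : PMod M p := ⟨hM⟩
  have hc : ∀ g, z * g = g * z := fun g => (mem_center_iff.1 hz g).symm
  have ho : ¬ p ∣ orderOf z := fun h => hp ((Nat.prime_dvd_prime_iff_eq Fact.out Nat.prime_two).1
    (h.trans (orderOf_dvd_of_pow_eq_one hz2)))
  have e1 : ∀ χ : IrrCharacter G, (χ : G → ℂ) z = centralChar (χ : G → ℂ) z * (χ : G → ℂ) 1 :=
    fun χ => by rw [← H8.irr_central_mul χ hc, mul_one]
  have e2 : ∀ (χ : IrrCharacter G) (c : ℂ), (χ : G → ℂ) z = c * (χ : G → ℂ) 1 ↔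
      centralChar (χ : G → ℂ) z = c := fun χ c => by
    rw [e1, mul_left_inj' (H8.irr_one_ne_zero χ)]
  have e3 : ∀ χ : IrrCharacter G, (χ : G → ℂ) z = (χ : G → ℂ) 1 ∨ (χ : G → ℂ) z = -(χ : G → ℂ) 1 :=
    fun χ => by
      rcases sq_eq_one_iff.1 (centralChar_pow_eq_one χ hc hz2) with h | h
      · left; rw [e1, h, one_mul]
      · right; rw [e1, h, neg_one_mul]
  have key : ∀ (c : ℂ) (χ : IrrCharacter G), χ ≠ St → centralChar (χ : G → ℂ) z = c →
      blockOf M (χ : G → ℂ) = {ψ : IrrCharacter G | centralChar (ψ : G → ℂ) z = c ∧ ψ ≠ St} := by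
    intro c χ h2 h3
    ext ψ
    constructor
    · intro h4
      refine ⟨h3 ▸ centralChar_eq_of_block hM (H8.isPBlock_blockOf χ) h4 (H8.mem_blockOf_self χ)
        hz ho, fun h5 => h2 ((h0 χ).1 ?_)⟩
      rw [H8.block_eq_blockOf (H8.isPBlock_blockOf χ) h4]
      exact (h0 ψ).2 h5
    · rintro ⟨h4, h5⟩
      rw [hC.eq_of_central hM (H8.isPBlock_blockOf χ) (H8.isPBlock_blockOf ψ) (mt (h0 χ).1 h2)
        (mt (h0 ψ).1 h5) (H8.mem_blockOf_self χ) (H8.mem_blockOf_self ψ) fun y hy => ?_]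
      · exact H8.mem_blockOf_self ψ
      rcases hZ y hy with rfl | rfl
      · rw [centralChar_one', centralChar_one']
      · rw [h3, h4]
  have s0 : {χ : IrrCharacter G | (χ : G → ℂ) 1 = q} = blockOf M (St : G → ℂ) := by
    rw [(H8.blockOf_eq_singleton_iff hM St).2 ((blockDefect_blockOf St).1 ((h0 St).2 rfl))]
    ext χ; exact h1 χ
  have s1 : {χ : IrrCharacter G | (χ : G → ℂ) z = (χ : G → ℂ) 1 ∧ (χ : G → ℂ) 1 ≠ q} =
      {ψ : IrrCharacter G | centralChar (ψ : G → ℂ) z = 1 ∧ ψ ≠ St} := by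
    ext χ
    simp only [Set.mem_setOf_eq, Ne, h1, ← e2, one_mul]
  have s2 : {χ : IrrCharacter G | (χ : G → ℂ) z = -(χ : G → ℂ) 1} =
      {ψ : IrrCharacter G | centralChar (ψ : G → ℂ) z = -1 ∧ ψ ≠ St} := by
    ext χ
    simp only [Set.mem_setOf_eq, Ne, ← e2, neg_one_mul]
    refine ⟨fun h => ⟨h, ?_⟩, fun h => h.1⟩
    rintro rfl
    rw [hS] at h
    exact H8.irr_one_ne_zero χ (self_eq_neg.1 h)
  have n1 : H8.irrOne G ≠ St := fun e => hq (by rw [← (h1 _).2 e]; rfl)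
  have b1 := key 1 _ n1 ((e2 _ _).1 (by simp))
  obtain ⟨χ₂, hχ₂, n2⟩ : ∃ χ : IrrCharacter G, centralChar (χ : G → ℂ) z = -1 ∧ χ ≠ St := by
    by_contra hh
    refine hz1 (H6.eq_one_of_forall_irr fun χ hχ => (e3 ⟨χ, hχ⟩).resolve_right fun h => hh ?_)
    exact ⟨⟨χ, hχ⟩, s2.le h⟩
  have b2 := key (-1) _ n2 hχ₂
  rw [s0, s1, s2]
  refine ⟨fun B => ⟨?_, ?_⟩, fun P => ⟨?_, ?_⟩⟩
  · rintro ⟨χ, rfl⟩
    by_cases h2 : χ = St
    · left; rw [h2]
    rcases e3 χ with h | h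
    · exact .inr (.inl (key 1 χ h2 ((e2 _ _).1 (by rw [h, one_mul]))))
    · exact .inr (.inr (key (-1) χ h2 ((e2 _ _).1 (by rw [h, neg_one_mul]))))
  · rintro (rfl | rfl | rfl)
    · exact H8.isPBlock_blockOf _
    · exact b1 ▸ H8.isPBlock_blockOf _
    · exact b2 ▸ H8.isPBlock_blockOf _
  · rw [← b1]
    exact hC.isDefectGroup hM (H8.isPBlock_blockOf _) (mt (h0 _).1 n1) P
  · rw [← b2]
    exact hC.isDefectGroup hM (H8.isPBlock_blockOf _) (mt (h0 _).1 n2) P

end Cfsg.Agent.H7
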