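import Cfsg.Agent.H1.Coprime

/-! Class numbers of extensions of abelian groups. -/

namespace Cfsg.Agent.H7

open Subgroup
open scoped Pointwise

theorem s4965 {X : Type*} [Group X] [Finite X] (V : Subgroup X) [hV : V.Normal]
    (hab : ∀ a ∈ V, ∀ b ∈ V, a * b = b * a) (φ : X ⧸ V →* MulAut ↥V)
    (hφ : ∀ (x : X) (v : ↥V), ((φ (QuotientGroup.mk x) v : ↥V) : X) = x * v * x⁻¹) :
    Nat.card (ConjClasses X) ≤ Nat.card (ConjClasses (SemidirectProduct ↥V (X ⧸ V) φ)) := by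
  classical
  haveI : Finite (SemidirectProduct ↥V (X ⧸ V) φ) :=
    Finite.of_equiv _ SemidirectProduct.equivProd.symm
  have hc : Nat.card (SemidirectProduct ↥V (X ⧸ V) φ) = Nat.card X := by
    rw [SemidirectProduct.card, mul_comm, ← card_eq_card_quotient_mul_card_subgroup]
  have h1 := card_comm_eq_card_conjClasses_mul_card X
  have h2 := card_comm_eq_card_conjClasses_mul_card (SemidirectProduct ↥V (X ⧸ V) φ)
  rw [hc] at h2
  refine Nat.le_of_mul_le_mul_right ?_ (Nat.card_pos (α := X))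
  rw [← h1, ← h2]
  have ex : ∀ a b : X ⧸ V, ∃ q : X × X, (∃ r : X × X, Commute r.1 r.2 ∧ (r.1 : X ⧸ V) = a ∧
      (r.2 : X ⧸ V) = b) → Commute q.1 q.2 ∧ (q.1 : X ⧸ V) = a ∧ (q.2 : X ⧸ V) = b := by
    intro a b
    by_cases h : ∃ r : X × X, Commute r.1 r.2 ∧ (r.1 : X ⧸ V) = a ∧ (r.2 : X ⧸ V) = b
    · obtain ⟨r, hr⟩ := h
      exact ⟨r, fun _ => hr⟩
    · exact ⟨1, fun h' => absurd h' h⟩
  choose s hs using ex
  have mem : ∀ x y : X, (y : X ⧸ V) = x → x * y⁻¹ ∈ V := by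
    intro x y h
    have := QuotientGroup.eq.1 h
    have h2 := hV.conj_mem _ this y
    simpa [mul_assoc] using h2
  let F : { p : X × X // Commute p.1 p.2 } →
      { p : SemidirectProduct ↥V (X ⧸ V) φ × SemidirectProduct ↥V (X ⧸ V) φ //
        Commute p.1 p.2 } := fun r =>
    ⟨(⟨⟨r.1.1 * (s r.1.1 r.1.2).1⁻¹, mem _ _ (hs _ _ ⟨r.1, r.2, rfl, rfl⟩).2.1⟩, r.1.1⟩,
      ⟨⟨r.1.2 * (s r.1.1 r.1.2).2⁻¹, mem _ _ (hs _ _ ⟨r.1, r.2, rfl, rfl⟩).2.2⟩, r.1.2⟩), by
      obtain ⟨⟨x, y⟩, hxy⟩ := r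
      obtain ⟨e0, e1, e2⟩ := hs x y ⟨(x, y), hxy, rfl, rfl⟩
      have m1 := mem _ _ e1
      have m2 := mem _ _ e2
      generalize_proofs
      generalize s (x : X ⧸ V) (y : X ⧸ V) = q at *
      obtain ⟨x0, y0⟩ := q
      refine SemidirectProduct.ext ?_ ?_
      · apply Subtype.ext
        simp only [SemidirectProduct.mul_left, coe_mul]
        dsimp only at *
        conv_lhs => rw [← e1, hφ]
        conv_rhs => rw [← e2, hφ]
        dsimp only
        have hxy' : x * y = y * x := hxy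
        have e0' : x0 * y0 = y0 * x0 := e0
        calc x * x0⁻¹ * (x0 * (y * y0⁻¹) * x0⁻¹) = (x * y) * (x0 * y0)⁻¹ := by group
          _ = (y * x) * (y0 * x0)⁻¹ := by rw [hxy', e0']
          _ = _ := by group
      · simp only [SemidirectProduct.mul_right]
        rw [← QuotientGroup.mk_mul, ← QuotientGroup.mk_mul]
        exact congrArg _ hxy⟩
  refine Nat.card_le_card_of_injective F ?_
  rintro ⟨⟨x, y⟩, hxy⟩ ⟨⟨x', y'⟩, hxy'⟩ h
  simp only [F, Subtype.mk.injEq, Prod.mk.injEq, SemidirectProduct.ext_iff] at h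
  obtain ⟨⟨h1, h2⟩, h3, h4⟩ := h
  rw [h2, h4] at h1 h3
  rw [mul_left_inj] at h1 h3
  subst h1 h3
  rfl

theorem s4956 {X : Type*} [Group X] [Finite X] (V : Subgroup X) [hV : V.Normal]
    (hab : ∀ a ∈ V, ∀ b ∈ V, a * b = b * a) (G : Subgroup X) (hGV : IsComplement' V G)
    (hcop : (Nat.card V).Coprime (Nat.card G)) (S : Finset X) (hSV : ∀ s ∈ S, s ∈ V)
    (hrep : ∀ v ∈ V, ∃! s, s ∈ S ∧ ∃ g ∈ G, g * v * g⁻¹ = s) :
    Nat.card (ConjClasses X) =
      ∑ s ∈ S, Nat.card (ConjClasses ↥(G ⊓ centralizer ({s} : Set X))) := by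
  classical
  obtain ⟨i, j, hij⟩ : ∃ i j : ℤ, (Nat.card V : ℤ) * i + (Nat.card G : ℤ) * j = 1 :=
    ⟨_, _, by rw [← Nat.gcd_eq_gcd_ab, hcop.gcd_eq_one]; rfl⟩
  have hpV : ∀ v ∈ V, v ^ (Nat.card V : ℤ) = 1 := fun v hv => by
    have : (⟨v, hv⟩ : V) ^ Nat.card V = 1 := pow_card_eq_one'
    rw [zpow_natCast]
    exact congrArg Subtype.val this
  have hpG : ∀ v ∈ G, v ^ (Nat.card G : ℤ) = 1 := fun v hv => by
    have : (⟨v, hv⟩ : G) ^ Nat.card G = 1 := pow_card_eq_one'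
    rw [zpow_natCast]
    exact congrArg Subtype.val this
  have hpow : ∀ s ∈ V, ∀ g ∈ G, s * g = g * s → (s * g) ^ ((Nat.card G : ℤ) * j) = s := by
    intro s hs g hg hc
    rw [Commute.mul_zpow hc, zpow_mul g, hpG g hg, one_zpow, mul_one,
      show (Nat.card G : ℤ) * j = 1 - (Nat.card V : ℤ) * i by linarith, zpow_sub, zpow_mul,
      hpV s hs]
    simp
  let Φ : (Σ s : S, ConjClasses ↥(G ⊓ centralizer ({s.1} : Set X))) → ConjClasses X := fun z =>
    Quotient.liftOn z.2 (fun g => ConjClasses.mk (z.1.1 * g.1)) (by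
      intro a b hab'
      obtain ⟨c, rfl⟩ := isConj_iff.1 hab'
      refine ConjClasses.mk_eq_mk_iff_isConj.2 (isConj_iff.2 ⟨c, ?_⟩)
      have := c.2.2 z.1.1 rfl
      simp only [coe_mul, coe_inv]
      rw [← mul_assoc, ← mul_assoc, ← mul_assoc, this])
  have hΦ : ∀ (s : S) (g : ↥(G ⊓ centralizer ({s.1} : Set X))),
      Φ ⟨s, ConjClasses.mk g⟩ = ConjClasses.mk (s.1 * g.1) := fun _ _ => rfl
  have hbij : Function.Bijective Φ := by
    constructor
    · rintro ⟨s, C⟩ ⟨s', C'⟩ h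
      obtain ⟨g, rfl⟩ := ConjClasses.mk_surjective C
      obtain ⟨g', rfl⟩ := ConjClasses.mk_surjective C'
      rw [hΦ, hΦ, ConjClasses.mk_eq_mk_iff_isConj, isConj_iff] at h
      obtain ⟨x, hx⟩ := h
      have h1 : x * s.1 * x⁻¹ = s'.1 := by
        rw [← hpow s.1 (hSV _ s.2) g.1 g.2.1 (g.2.2 s.1 rfl),
          ← hpow s'.1 (hSV _ s'.2) g'.1 g'.2.1 (g'.2.2 s'.1 rfl), ← hx, conj_zpow]
      have h2 : x * g.1 * x⁻¹ = g'.1 := by
        have : s'.1 * (x * g.1 * x⁻¹) = s'.1 * g'.1 := by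
          rw [← hx]
          conv_lhs => congr; rw [← h1]
          group
        exact mul_left_cancel this
      obtain ⟨⟨w, h⟩, rfl⟩ := hGV.2 x
      dsimp only at h1 h2
      have h3 : h.1 * s.1 * h.1⁻¹ = s'.1 := by
        have hm : h.1 * s.1 * h.1⁻¹ ∈ V := hV.conj_mem _ (hSV _ s.2) _
        rw [← h1]
        calc h.1 * s.1 * h.1⁻¹ = w.1 * (h.1 * s.1 * h.1⁻¹) * w.1⁻¹ := by
              rw [hab _ w.2 _ hm]; group
          _ = _ := by group
      have h4 : s = s' := by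
        apply Subtype.ext
        exact (hrep s.1 (hSV _ s.2)).unique ⟨s.2, 1, one_mem _, by simp⟩ ⟨s'.2, h.1, h.2, h3⟩
      subst h4
      have h5 : h.1 * g.1 * h.1⁻¹ = g'.1 := by
        have hG : h.1 * g.1 * h.1⁻¹ ∈ G := mul_mem (mul_mem h.2 g.2.1) (inv_mem h.2)
        have hm : g'.1 * (h.1 * g.1 * h.1⁻¹)⁻¹ ∈ V ⊓ G := by
          refine mem_inf.2 ⟨?_, G.mul_mem g'.2.1 (inv_mem hG)⟩
          have : g'.1 * (h.1 * g.1 * h.1⁻¹)⁻¹ =
              w.1 * ((h.1 * g.1 * h.1⁻¹) * w.1⁻¹ * (h.1 * g.1 * h.1⁻¹)⁻¹) := by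
            rw [← h2]; group
          rw [this]
          exact mul_mem w.2 (hV.conj_mem _ (inv_mem w.2) _)
        rw [hGV.disjoint.eq_bot, mem_bot, mul_inv_eq_one] at hm
        exact hm.symm
      have hh : h.1 ∈ G ⊓ centralizer ({s.1} : Set X) := by
        refine ⟨h.2, ?_⟩
        intro z hz
        rw [Set.mem_singleton_iff] at hz
        subst hz
        rw [mul_inv_eq_iff_eq_mul] at h3
        exact h3.symm
      congr 1
      exact ConjClasses.mk_eq_mk_iff_isConj.2 (isConj_iff.2 ⟨⟨h.1, hh⟩, Subtype.ext h5⟩)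
    · intro C
      obtain ⟨x, rfl⟩ := ConjClasses.mk_surjective C
      set u := x ^ ((Nat.card G : ℤ) * j) with hu
      set t := x ^ ((Nat.card V : ℤ) * i) with ht
      have hut : u * t = x := by rw [hu, ht, ← zpow_add, add_comm, hij, zpow_one]
      have hc : u * t = t * u := by rw [hu, ht, ← zpow_add, ← zpow_add, add_comm]
      have huV : u ∈ V := by
        rw [hu, zpow_mul, ← hGV.symm.index_eq_card, zpow_natCast]
        exact zpow_mem (pow_index_mem V x) _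
      have ht1 : t ^ Nat.card G = 1 := by
        rw [ht, ← zpow_natCast, ← zpow_mul, mul_right_comm, ← Nat.cast_mul, hGV.card_mul_card,
          zpow_mul, zpow_natCast, pow_card_eq_one', one_zpow]
      obtain ⟨k, hk, hkt⟩ := H1.exists_conj_le_of_le_sup G (zpowers t) V
        (by rw [normalizer_eq_top]; exact le_top) (by rw [hGV.sup_eq_top]; exact le_top)
        (by
          rw [Nat.card_zpowers]
          exact Nat.Coprime.coprime_dvd_left (orderOf_dvd_of_pow_eq_one ht1) hcop.symm)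
        (Or.inl (H1.isSolvable_zpowers t))
      have hg : k * t * k⁻¹ ∈ G := hkt (smul_mem_pointwise_smul t (MulAut.conj k) _ (mem_zpowers t))
      obtain ⟨s, ⟨hs, h, hh, hhs⟩, -⟩ := hrep u huV
      have hku : k * u * k⁻¹ = u := by rw [hab _ hk _ huV]; group
      have hmem : h * (k * t * k⁻¹) * h⁻¹ ∈ G ⊓ centralizer ({s} : Set X) := by
        refine mem_inf.2 ⟨mul_mem (mul_mem hh hg) (inv_mem hh), ?_⟩
        intro z hz
        rw [Set.mem_singleton_iff] at hz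
        subst hz
        rw [← hhs, ← hku]
        calc h * (k * u * k⁻¹) * h⁻¹ * (h * (k * t * k⁻¹) * h⁻¹)
            = h * k * (u * t) * k⁻¹ * h⁻¹ := by group
          _ = h * k * (t * u) * k⁻¹ * h⁻¹ := by rw [hc]
          _ = _ := by group
      refine ⟨⟨⟨s, hs⟩, ConjClasses.mk ⟨_, hmem⟩⟩, ?_⟩
      rw [hΦ, ConjClasses.mk_eq_mk_iff_isConj]
      refine IsConj.symm (isConj_iff.2 ⟨h * k, ?_⟩)
      dsimp only
      rw [← hhs, ← hku, ← hut]
      group
  rw [← Nat.card_eq_of_bijective Φ hbij, Nat.card_sigma, Finset.sum_coe_sort S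
    (fun s => Nat.card (ConjClasses ↥(G ⊓ centralizer ({s} : Set X))))]

end Cfsg.Agent.H7
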