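import Mathlib
import Cfsg.Agent.H14.M24f
import Cfsg.Agent.H7.OneBlock

/-!
Involution centralizers of `M24` and `M22`, some centralizer orders.
-/

namespace Cfsg.Agent.H7.M24

open Cfsg H14 MulAction
open scoped Pointwise

theorem el_smul {T : ℕ} (h : A24.ok T) (p : GolayPt) : A24.el T • p = gC.fn 5 T p := by
  conv_lhs => rw [← gC.pt_idx p]
  exact A24_smul_pt h (gC.idx_lt p)

theorem el_mul_eq {a b c d : ℕ} (H : band (band (band (A24.okb a) (A24.okb b))
    (band (A24.okb c) (A24.okb d))) (Nat.beq (A24.mul a b) (A24.mul c d)) = true) :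
    A24.el a * A24.el b = A24.el c * A24.el d := by
  simp only [band_iff, nbeq_iff] at H
  obtain ⟨⟨⟨ha, hb⟩, hc, hd⟩, e⟩ := H
  rw [← A24.el_mul _ _ (A24_ok ha) (A24_ok hb), e, A24.el_mul _ _ (A24_ok hc) (A24_ok hd)]

theorem el_pow_eq_one {a n : ℕ} (H : band (A24.okb a) (Nat.beq (A24.pow a n) A24.one) = true) :
    A24.el a ^ n = 1 :=
  (A24.pow_eq_one_iff (A24_ok (band_iff.mp H).1) n).mpr (band_iff.mp H).2

theorem el_ne_one {a : ℕ} (H : band (A24.okb a) (bnot (Nat.beq a A24.one)) = true) :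
    A24.el a ≠ 1 := fun e =>
  bnot_iff.mp (band_iff.mp H).2 ((A24.el_eq_one_iff (A24_ok (band_iff.mp H).1)).mp e)

theorem el_mul_ne_one {a b : ℕ} (H : band (band (A24.okb a) (A24.okb b))
    (bnot (Nat.beq (A24.mul a b) A24.one)) = true) : A24.el a * A24.el b ≠ 1 := fun e => by
  simp only [band_iff] at H
  obtain ⟨⟨ha, hb⟩, h⟩ := H
  rw [← A24.el_mul _ _ (A24_ok ha) (A24_ok hb)] at e
  exact bnot_iff.mp h ((A24.el_eq_one_iff (A24.ok_mul _ _ (A24_ok ha) (A24_ok hb))).mp e)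

/-- `u x u⁻¹ = x ^ i y ^ j`. -/
theorem el_conj_eq {u x y i j : ℕ} (H : band (band (band (A24.okb u) (A24.okb x)) (A24.okb y))
    (Nat.beq (A24.cj u x) (A24.mul (A24.pow x i) (A24.pow y j))) = true) :
    A24.el u * A24.el x * (A24.el u)⁻¹ = A24.el x ^ i * A24.el y ^ j := by
  simp only [band_iff, nbeq_iff] at H
  obtain ⟨⟨⟨hu, hx⟩, hy⟩, e⟩ := H
  have h1 := A24.pow_spec (A24_ok hx) i
  have h2 := A24.pow_spec (A24_ok hy) j
  rw [← A24.el_cj _ _ (A24_ok hu) (A24_ok hx), e, A24.el_mul _ _ h1.1 h2.1, h1.2, h2.2]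

theorem smul_fixP {g x : M24} (h : g * x = x * g) : g • fixP x = fixP x := by
  rw [← fixP_conj, h, mul_inv_cancel_right]

theorem smul_mem_fixP_iff {g x : M24} (h : g * x = x * g) {p : GolayPt} :
    g • p ∈ fixP x ↔ p ∈ fixP x := by
  conv_lhs => rw [← smul_fixP h]
  exact Finset.smul_mem_smul_finset_iff g

/-! ### involutions -/

/-- transversals of `S20`. -/
def e20 : List (ℕ × List ℕ) :=
  [(3, [0xbdab49ca307b9ac5a928398a418820, 0xbb56f644d049c851aa8e44a76a8820,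
    0xb8d564d5716c8a699207a3d8e40820, 0xbd54da2c662467265a087a4a770820,
    0xba08382a6b2d58f4ba34b34d238820, 0xb8ea89aa11610af4c974399aeb0820,
    0xb8c89b48d1a54ab429ec6c0ee98820, 0xb8e72aa5b15d8b45218f31e0e20820,
    0xb8c956be4e9a23449cca8598558820, 0xb8d2454d91820a7ad9a67d16e90820,
    0xb8d1595a91324ad24cf05b1ee50820, 0xb8d865b531ad0b681e649214e78820,
    0xbd4b2192865be6d821968b94748820, 0xba0cf9960b559838d12ea9c9268820,
    0xb8daf8327151ca85d13225aae30820, 0xb8ceb352d1934a97b10aacc8e80820,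
    0xba2937d86ba9590698e4525d288820, 0xb8ed38510eaca2f518e96916560820,
    0xbd5ac83dc75c4c9549142587328820, 0xb8d67641519bca469ab64492ea0820]),
  (5, [0xbdab49ca307b9ac5a928398a418820, 0xba1b4255cc516469a5e7b422b18820,
    0xb9e545b4a64c6b023d56431d318820]),
  (4, [0xbdab49ca307b9ac5a928398a418820, 0xba1474922b3398d85676a3cb218820,
    0xba64d4562f83a87312d362caa18820, 0xbd17661a2a23933ac1a7448af18820,
    0xbc92655a2c3b9706cea47d0a818820, 0xb926faa22da3a0b6255231cb618820,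
    0xbd6cb22627638cfa224a834b318820, 0xb99b28523343aaa4b16f258a718820,
    0xbbd8459e29b39559b606920b418820, 0xbae957b6289ba44b1cd0524ac18820,
    0xbc0ea332364b892451ebaccad18820, 0xbb4c93ae2453ac893e8c9d4b018820,
    0xbb1f3a4232ab916218ed4a8ab18820, 0xb9e086be3593a6952d94b10a618820,
    0xbcc8cb2a265b8f47c9096c0b518820, 0xba91094e346b9e63d8955b0a918820])]

/-- an element interchanging `∞, 0` and `1, 2`. -/
def tZ : ℕ := 0x556d445e7b24ce2c08393153a0457

/-- a fixed-point-free involution. -/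
def tB : ℕ := 0x366faadc4a46c89254c31c7028457

/-- conjugating elements. -/
def certB : List ℕ :=
  [0xb944d58d554d1c79c1f10c886b2180, 0xb8acb2c1865502373d0d2452795660,
    0xba1915088928d759c1a193ed471cc0, 0xb89f12b2411a08b3269372ab03d9a0,
    0xbb8563a54322daca44b2305107d660, 0xbae4d9c4acb52af50823321c74c080,
    0xb88e471a0c7d0238a6d5995486c960, 0xbc291248af1d5a20cceb559c932180,
    0xb8d36130929b5c58c0eb506a8351e0, 0xbc1e975564a304740e322a8c19b6c0,
    0xbc447429e3992b0a15cd606c64c960, 0xbca824346c091458d6705a5cfb1cc0,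
    0xbd1b2230c28c0235a0ae3ceafb2920, 0xbc6a293d74231255060e3a0c39b6c0,
    0xb94d460aaf8c9500a4645cd0e3d9a0, 0xbaa14130ef4c8a65c4730910eab6c0,
    0xbcaa25d0680be6e2b6c961e2654080, 0xb8a0e8c9611a2ac512cf2b533a1cc0,
    0xbb087b1a822c023acdd14bd486ae40, 0xb964d9c5741312f1d82a418eea9200,
    0xbc94b292279d2a2830c173d281b6c0, 0xbd1cdb3c498850a640b2192ab99cc0,
    0xb9134ac86d3156c82a7679c480ba20, 0xbdab49ca307b9ac5a928398a418820,
    0xbd2353a44a286cf819cd1ce445a180, 0xba64d4562f83a87312d362caa18820,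
    0xbaacd95474594c779109830530ba20, 0xbd9e854ca46461534967a25cd18820,
    0xbba6f42ed4188b5645479182969200, 0xb94cbb368818a3323987854327a920,
    0xb9e545b4a64c6b023d56431d318820, 0xbc0c419c4a7a1ae9a6c58d5940c960,
    0xbb20b1d84951e4523d11734d40d660, 0xbd1d619d098ad86114816c1f255660,
    0xbadaa24dc51498780536355111d1e0, 0xbd4440c26e50cad4d2cf92ce68a180,
    0xbd62a1c1672b104139e1a24d29b6c0, 0xb8c82b41d39562d4ac2f550c72a180,
    0xbd0d13c1722298d758a3105097cea0, 0xbd1854188d9be1589dc3106ca4ae40,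
    0xba9d11892f25101358a78358b94ea0, 0xbaa5041a2e151f35848c3d5251b6c0,
    0xbc48aabacc141721a42869a653be80, 0xbc4cc808f2711140ac6fb55a59a540,
    0xb89af8209590e695a9942c6c171cc0, 0xbd8ed12d2484a2f4386a09985a5660,
    0xba25553a2b9b684b08237b0a981cc0, 0xb9c902d1066ac4960dd28d9e155660,
    0xb8aa935a7268d6a23e14714e18a180, 0xbba829110d32e11b04e54b1e355660,
    0xbb5708a5c63caa255a612b1041d1e0, 0xb8c8c13d1434a2e2ae6a806a93b6c0,
    0xba66cb35c22c946ac5643c1011d1e0, 0xbda0578a6a70c9259aa16a4f48a180,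
    0xbb206b562d9888aa3d275a1d208ca0, 0xba6a43c233688cb44996551cf08ca0,
    0xb9d367add3814d263488a2a3518820, 0xbb253440433d1c6ab4968942b7a540,
    0xbd66a39043a22297c1b62b82662e40, 0xba1b4255cc516469a5e7b422b18820,
    0xbc45298d2d7d0b62314e0d57041cc0, 0xb90cf64a2275207a95489ad211b6c0,
    0xbb28e5d62a1b642092d34a0af81cc0, 0xbbe25189499d2c161dc8356046ae40,
    0xb8d62430a4ab5d27cc2a4d21689cc0, 0xbb44b0b08548e327d10aaced071cc0]

theorem ok_tZ : A24.ok tZ := A24_ok (by decide +kernel)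
theorem ok_tB : A24.ok tB := A24_ok (by decide +kernel)

theorem invol_aux {s : M24} (hs : s ∈ S20.K) (h : A24.el tZ * s * (A24.el tZ * s) = 1) :
    fixP (A24.el tZ * s) ∈ octads ∨ IsConj (A24.el tZ * s) (A24.el tB) := by
  obtain ⟨T, hT, rfl, h1⟩ := S20.forall_el (lv := e20) (by decide +kernel)
    (p := fun T => force (A24.mul tZ T) fun U => bor (bnot (Nat.beq (A24.mul U U) A24.one))
      (bor (isOct (fixM U)) (anyL certB fun u => band (Nat.beq (A24.cj u U) tB) (A24.okb u))))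
    (by decide +kernel) hs
  have hU := A24.ok_mul _ _ ok_tZ hT
  rw [← A24.el_mul _ _ ok_tZ hT] at h ⊢
  rw [force_eq, bor_iff, bor_iff, bnot_iff, ← A24.el_eq_one_iff (A24.ok_mul _ _ hU hU),
    A24.el_mul _ _ hU hU, isOct_iff, anyL_iff] at h1
  refine (h1.resolve_left fun e => e h).imp (fun h2 => fixP_el hU ▸ h2.2) ?_
  rintro ⟨u, -, h2⟩
  rw [band_iff, nbeq_iff] at h2
  exact isConj_iff.mpr ⟨A24.el u, by rw [← A24.el_cj _ _ (A24_ok h2.2) hU, h2.1]⟩

theorem inj4 {α : Type*} {a b c d : α} (h1 : a ≠ b) (h2 : a ≠ c) (h3 : a ≠ d) (h4 : b ≠ c)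
    (h5 : b ≠ d) (h6 : c ≠ d) : Function.Injective ![a, b, c, d] := by
  intro i j hij
  fin_cases i <;> fin_cases j <;> simp_all [eq_comm]

theorem mem_S20 {g : M24} : g ∈ S20.K ↔ g • (none : GolayPt) = none ∧
    g • (some 0 : GolayPt) = some 0 ∧ g • (some 1 : GolayPt) = some 1 ∧
    g • (some 2 : GolayPt) = some 2 :=
  ⟨fun h => ⟨h.1.1.1, h.1.1.2, h.1.2, h.2⟩, fun h => ⟨⟨⟨h.1, h.2.1⟩, h.2.2.1⟩, h.2.2.2⟩⟩

theorem invol_cases {z : M24} (h2 : z * z = 1) (h1 : z ≠ 1) :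
    fixP z ∈ octads ∨ IsConj z (A24.el tB) := by
  have hz : ∀ p : GolayPt, z • z • p = p := fun p => by rw [← mul_smul, h2, one_smul]
  have h8 := card_fixP_le h1
  have hc : 2 < (fixP z)ᶜ.card := by
    rw [Finset.card_compl, card_golayPt]
    omega
  obtain ⟨a, ha⟩ := Finset.card_pos.mp (lt_trans two_pos hc)
  obtain ⟨c, hc1, hc2⟩ := Finset.exists_mem_notMem_of_card_lt_card
    (lt_of_le_of_lt (Finset.card_le_two (a := a) (b := z • a)) hc)
  simp only [Finset.mem_compl, mem_fixP, Finset.mem_insert, Finset.mem_singleton, not_or]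
    at ha hc1 hc2
  have h3 : z • c ≠ a := fun e => hc2.2 (by rw [← e, hz])
  have h4 : z • c ≠ z • a := fun e => hc2.1 (MulAction.injective z e)
  obtain ⟨k, hk⟩ := m24_emb (k := 4) (by norm_num) ![a, z • a, c, z • c]
    ![none, some 0, some 1, some 2]
    (inj4 (Ne.symm ha) (Ne.symm hc2.1) h3.symm (Ne.symm hc2.2) h4.symm (Ne.symm hc1)) (by decide)
  have k0 : k • a = none := hk 0
  have k1 : k • z • a = some 0 := hk 1
  have k2 : k • c = some 1 := hk 2
  have k3 : k • z • c = some 2 := hk 3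
  have hs : (A24.el tZ)⁻¹ * (k * z * k⁻¹) ∈ S20.K := by
    refine mem_S20.mpr ⟨?_, ?_, ?_, ?_⟩ <;> rw [mul_smul, inv_smul_eq_iff, el_smul ok_tZ]
    · rw [← k0, conj_smul_smul, k0, k1]; decide +kernel
    · rw [← k1, conj_smul_smul, hz, k0, k1]; decide +kernel
    · rw [← k2, conj_smul_smul, k2, k3]; decide +kernel
    · rw [← k3, conj_smul_smul, hz, k2, k3]; decide +kernel
  have h5 := invol_aux hs (by
    rw [mul_inv_cancel_left]
    calc _ = k * (z * z) * k⁻¹ := by group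
      _ = 1 := by rw [h2]; group)
  rw [mul_inv_cancel_left] at h5
  refine h5.imp (fun h6 => ?_) fun h6 => (isConj_iff.mpr ⟨k, rfl⟩).trans h6
  rwa [fixP_conj, m24_smul_octads] at h6

/-- the pointwise stabiliser of an octad. -/
def QO (O : Finset GolayPt) : Subgroup M24 := fixingSubgroup M24 (O : Set GolayPt)

theorem mem_QO {O : Finset GolayPt} {g : M24} : g ∈ QO O ↔ ∀ p ∈ O, g • p = p :=
  mem_fixingSubgroup_iff M24

theorem conj_mem_QO {O : Finset GolayPt} {g : M24} (k : M24) (hg : g ∈ QO O) :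
    k * g * k⁻¹ ∈ QO (k • O) := mem_QO.mpr fun p hp => by
  obtain ⟨q, hq, rfl⟩ := Finset.mem_smul_finset.mp hp
  exact (conj_fix_iff k g q).mpr (mem_QO.mp hg q hq)

theorem QO_sq {O : Finset GolayPt} (hO : O ∈ octads) {g : M24} (hg : g ∈ QO O) : g * g = 1 := by
  obtain ⟨k, hk⟩ := m24_octad hO o0_mem
  have h := (S18_fix (mem_S18.mpr (mem_QO.mp (hk ▸ conj_mem_QO k hg)))).1
  calc _ = k⁻¹ * (k * g * k⁻¹ * (k * g * k⁻¹)) * k := by group
    _ = 1 := by rw [h]; group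

theorem QO_comm {O : Finset GolayPt} (hO : O ∈ octads) {a b : M24} (ha : a ∈ QO O)
    (hb : b ∈ QO O) : a * b = b * a := by
  have h1 := inv_eq_of_mul_eq_one_right (QO_sq hO ha)
  have h2 := inv_eq_of_mul_eq_one_right (QO_sq hO hb)
  rw [← inv_eq_of_mul_eq_one_right (QO_sq hO (mul_mem ha hb)), mul_inv_rev, h1, h2]

theorem QO_trans {O : Finset GolayPt} (hO : O ∈ octads) {p q : GolayPt} (hp : p ∉ O)
    (hq : q ∉ O) : ∃ y ∈ QO O, y • p = q := by
  obtain ⟨k, rfl⟩ := m24_octad o0_mem hO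
  have h : ∀ p : GolayPt, p ∉ o0 → p ∈ orbit S18.K (gC.pt 4) := fun p hp => by
    have h4 := S18.mem_orbit_iff A24.toModel A24.compat_self (c := 4) (fuel := 25) (U := 0x7dbfd0)
      (by decide : 4 < 24) (by decide +kernel) (gC.idx_lt p)
    have h5 : (0x7dbfd0 : ℕ).testBit (gC.idx p) = true := by
      clear h4; revert p; decide
    have := h4.mpr h5
    exact gC.pt_idx p ▸ this
  obtain ⟨y, hy, e⟩ := exists_smul_of_mem_orbit
    (h (k⁻¹ • p) fun e => hp (Finset.inv_smul_mem_iff.mp e))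
    (h (k⁻¹ • q) fun e => hq (Finset.inv_smul_mem_iff.mp e))
  refine ⟨_, conj_mem_QO k (mem_QO.mpr (mem_S18.mp hy)), ?_⟩
  rw [mul_smul, mul_smul, e, smul_inv_smul]

theorem mem_QO_of_comm {O : Finset GolayPt} (hO : O ∈ octads) {x : M24} (hx : x • O = O)
    (h : ∀ y ∈ QO O, y * x = x * y) : x ∈ QO O := by
  have hc : Oᶜ.card = 16 := by rw [Finset.card_compl, card_golayPt, hO.2]
  obtain ⟨p, hp⟩ := Finset.card_pos.mp (hc ▸ by norm_num : 0 < Oᶜ.card)
  rw [Finset.mem_compl] at hp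
  obtain ⟨y, hy, e⟩ := QO_trans hO hp (smul_not_mem_of_stab hx hp)
  have h1 : y⁻¹ * x = 1 := eq_one_of_fix9 (P := Oᶜ) (fun q hq => by
    obtain ⟨w, hw, rfl⟩ := QO_trans hO hp (Finset.mem_compl.mp hq)
    rw [← mul_smul, mul_assoc, ← h w hw, ← mul_assoc, QO_comm hO (inv_mem hy) hw, mul_smul,
      mul_smul, ← e, inv_smul_smul]) (by omega)
  rw [← inv_mul_eq_one.mp h1]
  exact hy

theorem locChar_oct {G : Type*} [Group G] {ι : G →* M24} (hι : Function.Injective ι) {z : G}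
    (hO : fixP (ι z) ∈ octads) (h : QO (fixP (ι z)) ≤ ι.range) :
    LocChar 2 z ((QO (fixP (ι z))).comap ι) where
  pgrp g := ⟨1, Subtype.ext (hι (by simpa [pow_two] using QO_sq hO g.2))⟩
  comm y hy := hι (by
    simpa using QO_comm hO hy (mem_QO.mpr fun p hp => mem_fixP.mp hp))
  norm g hg y hy := by
    have := conj_mem_QO (ι g) hy
    rw [smul_fixP (by rw [← map_mul, hg, map_mul])] at this
    simpa using this
  cent g hg h1 := mem_QO_of_comm hO (smul_fixP (by rw [← map_mul, hg, map_mul])) fun y hy => by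
    obtain ⟨w, rfl⟩ := h hy
    rw [← map_mul, h1 w hy, map_mul]

/-- the octads invariant under `tB`. -/
def octB : List ℕ :=
  [0xc12017, 0x82402f, 0x436038, 0xa800c7, 0x6920d0, 0x2a40e8, 0x841907, 0x453910, 0x65928,
    0x2c19c0, 0x908607, 0x51a610, 0x12c628, 0x3886c0, 0x149f00]

/-- the number of the tetrad. -/
def tau (p : GolayPt) : ℕ := get 3 0x5d711a8c96c6d1400 (gC.idx p)

theorem mem_octB {o : Finset GolayPt} (ho : o ∈ octads) (h : A24.el tB • o = o) :
    ∃ m ∈ octB, o = gC.set m := by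
  obtain ⟨d, hd, h1, rfl⟩ := G24.orbit_forall mC compat_mC (fuel := 760) isCW_o0
    (p := fun c => bor (bnot (Nat.beq (img24 tB c) c)) (anyL octB (Nat.beq c)))
    (by decide +kernel) o (orbit_o0.symm ▸ ho)
  rw [bor_iff, bnot_iff, nbeq_iff, anyL_iff] at h1
  obtain ⟨m, hm, e⟩ := h1.resolve_left fun e => e
    (gC.set_inj (hd.img24 ok_tB).1 hd.1 ((A24_smul_set ok_tB d).symm.trans h))
  exact ⟨m, hm, nbeq_iff.mp e ▸ rfl⟩

theorem smul_of_tau {g : M24} (hg : ∀ p, tau (g • p) = tau p) {o : Finset GolayPt}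
    (ho : o ∈ octads) (h : A24.el tB • o = o) : g • o = o := by
  obtain ⟨m, hm, rfl⟩ := mem_octB ho h
  refine Finset.eq_of_subset_of_card_le (fun p hp => ?_) (Finset.card_smul_finset g _).ge
  obtain ⟨q, hq, rfl⟩ := Finset.mem_smul_finset.mp hp
  have : ∀ m ∈ octB, ∀ p q : GolayPt, tau p = tau q → m.testBit (gC.idx q) = true →
      m.testBit (gC.idx p) = true := by decide +kernel
  exact gC.mem_set.mpr (this m hm _ _ (hg q) (gC.mem_set.mp hq))

/-- involutions with their fixed octads. -/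
def yB : List (ℕ × ℕ) :=
  [(0xbd8e932070515ab63e92acdc488820, 0xc12017), (0xd8ef32e30a39a89254cacca4182e2, 0x436038),
    (0x12aa9ae2d4ba08951ec398b618457, 0x2a40e8), (0x36a99c864516cc5be88399d088457, 0x2c19c0),
    (0x1274ac8ad78e0c5a92831e3670457, 0x149f00), (0xb90f432dcd7c6089292cacc7628820, 0x908607)]

theorem tau_of_smul {g : M24} (hg : ∀ y ∈ yB, g • gC.set y.2 = gC.set y.2) (p : GolayPt) :
    tau (g • p) = tau p := by
  have : ∀ p q : GolayPt, (∀ y ∈ yB, y.2.testBit (gC.idx p) = true →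
      y.2.testBit (gC.idx q) = true) → tau q = tau p := by decide +kernel
  exact this _ _ fun y hy h => gC.mem_set.mp (smul_mem_of_stab (hg y hy) (gC.mem_set.mpr h))

theorem yB_spec : ∀ y ∈ yB, A24.ok y.1 ∧ gC.set y.2 ∈ octads ∧
    A24.el tB • gC.set y.2 = gC.set y.2 ∧ fixP (A24.el y.1) = gC.set y.2 ∧
    A24.el y.1 * A24.el tB = A24.el tB * A24.el y.1 ∧ ∀ p, tau (A24.el y.1 • p) = tau p := by
  intro y hy
  have h1 : allL yB (fun y => band (band (A24.okb y.1) (isOct y.2))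
      (band (band (Nat.beq (img24 tB y.2) y.2) (Nat.beq (fixM y.1) y.2))
        (Nat.beq (A24.cj y.1 tB) tB))) = true := by decide +kernel
  have h2 : ∀ y ∈ yB, ∀ p, tau (gC.fn 5 y.1 p) = tau p := by decide +kernel
  have h3 := allL_iff.mp h1 y hy
  simp only [band_iff, isOct_iff] at h3
  obtain ⟨⟨h4, h5⟩, ⟨h6, h7⟩, h8⟩ := h3
  have h9 := A24_ok h4
  exact ⟨h9, h5.2, by rw [A24_smul_set ok_tB, nbeq_iff.mp h6], by rw [fixP_el h9, nbeq_iff.mp h7],
    (A24.commute_iff h9 ok_tB).mpr h8, fun p => by rw [el_smul h9, h2 y hy]⟩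

/-- the kernel of the action of the centralizer of `tB` on the invariant octads. -/
def QB : Subgroup M24 := Subgroup.centralizer {A24.el tB} ⊓
  ⨅ o ∈ {o | o ∈ octads ∧ A24.el tB • o = o}, stabilizer M24 o

theorem mem_QB {g : M24} : g ∈ QB ↔ g * A24.el tB = A24.el tB * g ∧
    ∀ o ∈ octads, A24.el tB • o = o → g • o = o := by
  simp [QB, Subgroup.mem_centralizer_singleton_iff]

theorem mem_QB' {g : M24} : g ∈ QB ↔ g * A24.el tB = A24.el tB * g ∧ ∀ p, tau (g • p) = tau p :=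
  mem_QB.trans (and_congr_right fun _ => ⟨fun h => tau_of_smul fun y hy =>
    h _ (yB_spec y hy).2.1 (yB_spec y hy).2.2.1, fun h _ ho => smul_of_tau h ho⟩)

theorem locChar_B : LocChar 2 (A24.el tB) QB where
  pgrp g := ⟨2, Subtype.ext (m24_ext fun p => by
    obtain ⟨h1, h2⟩ := mem_QB'.mp g.2
    have h3 : ∀ p : GolayPt, (g : M24) • gC.fn 5 tB p = gC.fn 5 tB ((g : M24) • p) := fun p => by
      rw [← el_smul ok_tB, ← el_smul ok_tB, ← mul_smul, h1, mul_smul]
    have h4 : ∀ p q r : GolayPt, tau q = tau p → tau r = tau q → q = p ∨ q = gC.fn 5 tB p ∨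
        r = p ∨ r = gC.fn 5 tB p ∨ r = q ∨ r = gC.fn 5 tB q := by decide +kernel
    have h5 : ∀ p : GolayPt, gC.fn 5 tB (gC.fn 5 tB p) = p := by decide +kernel
    have h6 : ∀ p : GolayPt, (g : M24) • (g : M24) • p = p ∨
        (g : M24) • (g : M24) • p = gC.fn 5 tB p := fun p => by
      rcases h4 p _ _ (h2 p) (h2 _) with h | h | h | h | h | h
      · exact Or.inl (by rw [h, h])
      · exact Or.inl (by rw [h, h3, h, h5])
      · exact Or.inl h
      · exact Or.inr h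
      · exact Or.inl (by rw [h, MulAction.injective _ h])
      · rw [← h3] at h
        have := MulAction.injective _ h
        exact Or.inl (by rw [this, h3, this, h5])
    have h7 : ((g ^ 2 ^ 2 : QB) : M24) • p =
        (g : M24) • (g : M24) • (g : M24) • (g : M24) • p := by
      simp only [← mul_smul]
      norm_num [pow_succ, mul_assoc]
    rw [h7]
    rcases h6 p with h | h
    · rw [h, h]
    · rw [h, h3, h3, h, h5])⟩
  comm y hy := (mem_QB.mp hy).1
  norm g hg y hy := by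
    obtain ⟨h1, h2⟩ := mem_QB.mp hy
    refine mem_QB.mpr ⟨?_, fun o ho h => ?_⟩
    · have : g⁻¹ * A24.el tB = A24.el tB * g⁻¹ := (Commute.inv_left hg).eq
      rw [mul_assoc, this, ← mul_assoc, mul_assoc g, h1, ← mul_assoc, hg]
      group
    · rw [mul_smul, mul_smul, h2 _ ((m24_smul_octads _).mpr ho), smul_inv_smul]
      rw [← mul_smul, ← (Commute.inv_left hg).eq, mul_smul, h]
  cent g hg h := mem_QB'.mpr ⟨hg, tau_of_smul fun y hy => by
    obtain ⟨-, -, -, h1, h2, h3⟩ := yB_spec y hy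
    rw [← h1]
    exact smul_fixP (h _ (mem_QB'.mpr ⟨h2, h3⟩)).symm⟩

theorem loc_M24 (z : M24) (hz : orderOf z = 2) : ∃ z' Q, IsConj z z' ∧ LocChar 2 z' Q := by
  have h2 : z * z = 1 := by rw [← pow_two, ← hz, pow_orderOf_eq_one]
  have h1 : z ≠ 1 := fun e => by simp [e] at hz
  rcases invol_cases h2 h1 with h | h
  · exact ⟨z, _, IsConj.refl z,
      locChar_oct (ι := MonoidHom.id M24) Function.injective_id h fun g _ => ⟨g, rfl⟩⟩
  · exact ⟨_, _, h, locChar_B⟩

theorem loc_M22 {G : Type*} [Group G] {ι : G →* M24} (hι : Function.Injective ι)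
    (hr : ι.range = S22.K) (z : G) (hz : orderOf z = 2) :
    ∃ z' Q, IsConj z z' ∧ LocChar 2 z' Q := by
  have h2 : z * z = 1 := by rw [← pow_two, ← hz, pow_orderOf_eq_one]
  have h1 : z ≠ 1 := fun e => by simp [e] at hz
  have h3 : ι z ∈ S22.K := hr ▸ ⟨z, rfl⟩
  rcases invol_cases (z := ι z) (by rw [← map_mul, h2, map_one])
    (fun e => h1 (hι (e.trans (map_one ι).symm))) with h | h
  · refine ⟨z, _, IsConj.refl z, locChar_oct hι h (hr ▸ fun g hg => ?_)⟩
    exact ⟨mem_QO.mp hg _ (mem_fixP.mpr h3.1), mem_QO.mp hg _ (mem_fixP.mpr h3.2)⟩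
  · obtain ⟨k, hk⟩ := isConj_iff.mp h
    have h4 : k • (none : GolayPt) ∈ fixP (A24.el tB) := by
      rw [← hk, fixP_conj]
      exact Finset.smul_mem_smul_finset (mem_fixP.mpr h3.1)
    rw [mem_fixP, el_smul ok_tB] at h4
    exact absurd h4 ((by decide +kernel : ∀ p, gC.fn 5 tB p ≠ p) _)

end Cfsg.Agent.H7.M24
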