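import Mathlib
import Cfsg.Agent.H7.M24Loc

/-!
`M22` and `M24` have a single 2-block.
-/

namespace Cfsg.Agent.H7.M24

open Cfsg H14 MulAction
open scoped Pointwise ComplexConjugate

/-- elements of order 3, 3, an inverting involution and a four-group centralizing the first. -/
def x3 : ℕ := 0xbb5135bdd63160aa1ea964a2418820
def y3 : ℕ := 0xbc52d83d65351ccb29153ca6220c20
def t3 : ℕ := 0xbbaab9bda595a2aa310939a0320820
def u3 : ℕ := 0xbba69aca117d8ac42a8b399a320440
def v3 : ℕ := 0xbd6d174a897cd0c2aa0d3996209060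

/-- conjugating elements for the products `x3 ^ i y3 ^ j`. -/
def c3 : List (ℕ × ℕ × ℕ) :=
  [(0xbd1f02d56e4d9a298e462222c51c20, 0, 1), (0xbc4d09a1cb4b6c428e4f1568a61c20, 0, 2),
    (0xbdab49ca307b9ac5a928398a418820, 1, 0), (0xbd86b69e93641cf2c84432a29aa020, 1, 1),
    (0xbb95168acb252159a58740caf91820, 1, 2), (0xbbaab9bda595a2aa310939a0320820, 2, 0),
    (0xbd1536920513ac98d4ec40d7279820, 2, 1), (0xbd04d59ed054e2f29864931d54a020, 2, 2)]

theorem ok_x3 : A24.ok x3 := A24_ok (by decide +kernel)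

theorem fixP_x3 : fixP (A24.el x3) = gC.set 0x80001f := by
  rw [fixP_el ok_x3, nbeq_iff.mp (by decide +kernel : Nat.beq (fixM x3) 0x80001f = true)]

theorem mem_S22 {T : ℕ} (h : band (A24.okb T) (S22.test T) = true) : A24.el T ∈ S22.K :=
  (S22.test_iff T (A24_ok (band_iff.mp h).1)).mp (band_iff.mp h).2

theorem mem_S6n {g : M24} : g ∈ S6n.K ↔ ∀ p ∈ gC.set 0x80001f, g • p = p := by
  constructor
  · intro h p hp
    rcases S6n_fix h with rfl | e
    · exact one_smul _ _
    · exact mem_fixP.mp (e ▸ hp)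
  · intro h
    exact ⟨mem_S19.mpr fun i => h _ (by revert i; decide), h _ (by decide)⟩

theorem card_cent_x3 (K : Subgroup M24) (S : Finset GolayPt) (h1 : S22.K ≤ K)
    (hS : S ⊆ gC.set 0x80001f) (h2 : ∀ g ∈ K, ∀ p ∈ gC.set 0x80001f, p ∉ S → g • p = p) :
    2 * Nat.card ↥(K ⊓ Subgroup.centralizer {A24.el x3}) ≤ 3 * S.card.factorial := by
  have h3 : ∀ g ∈ K ⊓ stabilizer M24 (gC.set 0x80001f), ∀ p ∈ S, g • p ∈ S := fun g hg p hp => by
    by_contra h
    have : g • p = p := MulAction.injective g (h2 g hg.1 _ (smul_mem_of_stab hg.2 (hS hp)) h)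
    exact h (by rw [this]; exact hp)
  have h4 := card_range_actHom (hS := h3) (L := S6n.K) fun g => by
    rw [mem_S6n]
    refine ⟨fun h => ⟨⟨h1 ⟨h _ (by decide), h _ (by decide)⟩, smul_finset_of_fix h⟩,
      fun p hp => h p (hS hp)⟩, fun h p hp => ?_⟩
    by_cases hp' : p ∈ S
    · exact h.2 p hp'
    · exact h2 g h.1.1 p hp hp'
  have h5 := Subgroup.card_le_card_group (actHom _ S h3).range
  rw [card_perm_finset] at h5
  rw [S6n.card_eq] at h4
  have h6 : K ⊓ Subgroup.centralizer {A24.el x3} ≤ K ⊓ stabilizer M24 (gC.set 0x80001f) :=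
    fun g hg => ⟨hg.1, by
      rw [← fixP_x3]
      exact smul_fixP (Subgroup.mem_centralizer_singleton_iff.mp hg.2)⟩
  have ok_t3 : A24.ok t3 := A24_ok (by decide +kernel)
  by_contra h
  have h7 := eq_of_card_lt_two_mul h6 (by
    rw [← h4]
    change 3 * _ < _
    omega)
  have h8 : A24.el t3 ∈ K ⊓ stabilizer M24 (gC.set 0x80001f) :=
    ⟨h1 (mem_S22 (by decide +kernel)), by
      change A24.el t3 • gC.set 0x80001f = _
      rw [A24_smul_set ok_t3,
        nbeq_iff.mp (by decide +kernel : Nat.beq (img24 t3 0x80001f) 0x80001f = true)]⟩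
  rw [← h7] at h8
  have := (A24.commute_iff ok_t3 ok_x3).mp (Subgroup.mem_centralizer_singleton_iff.mp h8.2)
  revert this
  decide +kernel

theorem card_cent_map {G : Type*} [Group G] {ι : G →* M24} (hι : Function.Injective ι) (x : G) :
    Nat.card (Subgroup.centralizer ({x} : Set G)) ≤
      Nat.card ↥(ι.range ⊓ Subgroup.centralizer {ι x}) :=
  Nat.card_le_card_of_injective (fun g => ⟨ι g, ⟨g, rfl⟩, Subgroup.mem_centralizer_singleton_iff.mpr
    (by rw [← map_mul, Subgroup.mem_centralizer_singleton_iff.mp g.2, map_mul])⟩)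
    fun _ _ e => Subtype.ext (hι (congrArg Subtype.val e))

/-- The value at `x3` of a character vanishing on 2-singular elements. -/
theorem value_x3 {G : Type*} [Group G] [Finite G] {ι : G →* M24} (hι : Function.Injective ι)
    (hr : S22.K ≤ ι.range) {χ : G → ℂ} (hχ : IsCharacter G χ)
    (h : ∀ g, 2 ∣ orderOf g → χ g = 0) : ∃ (x : G) (a : ℤ), ι x = A24.el x3 ∧ χ x = a ∧ 4 ∣ a ∧
      9 ∣ (charDegree χ : ℤ) + 8 * a := by
  obtain ⟨x, hx⟩ := hr (mem_S22 (T := x3) (by decide +kernel))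
  obtain ⟨y, hy⟩ := hr (mem_S22 (T := y3) (by decide +kernel))
  obtain ⟨u, hu⟩ := hr (mem_S22 (T := u3) (by decide +kernel))
  obtain ⟨v, hv⟩ := hr (mem_S22 (T := v3) (by decide +kernel))
  have hx3 : x ^ (2 + 1) = 1 := hι (by
    rw [map_pow, hx, map_one]; exact el_pow_eq_one (by decide +kernel))
  have hy3 : y ^ (2 + 1) = 1 := hι (by
    rw [map_pow, hy, map_one]; exact el_pow_eq_one (by decide +kernel))
  have hc : ∀ c ∈ c3, χ (x ^ c.2.1 * y ^ c.2.2) = χ x := fun c hc => by
    have h1 : allL c3 (fun c => band (band (A24.okb c.1) (S22.test c.1))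
      (band (band (band (A24.okb c.1) (A24.okb x3)) (A24.okb y3)) (Nat.beq (A24.cj c.1 x3)
        (A24.mul (A24.pow x3 c.2.1) (A24.pow y3 c.2.2))))) = true := by decide +kernel
    have h2 := band_iff.mp (allL_iff.mp h1 c hc)
    obtain ⟨w, hw⟩ := hr (mem_S22 h2.1)
    have h3 : w * x * w⁻¹ = x ^ c.2.1 * y ^ c.2.2 := hι (by
      simp only [map_mul, map_inv, map_pow, hw, hx, hy]; exact el_conj_eq h2.2)
    rw [← h3, char_cf hχ]
  obtain ⟨k, hk⟩ := exists_sum_pow2 hχ hx3 hy3 (hι (by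
    rw [map_mul, map_mul, hx, hy]; exact el_mul_eq (by decide +kernel)))
  simp only [c3, List.forall_mem_cons] at hc
  obtain ⟨c1, c2, c3, c4, c5, c6, c7, c8, -⟩ := hc
  simp only [Finset.sum_range_succ, Finset.range_zero, Finset.sum_empty] at hk
  rw [c1, c2, c3, c4, c5, c6, c7, c8, pow_zero, pow_zero, one_mul, char_one_eq hχ] at hk
  obtain ⟨a, ha⟩ := H6.exists_int_of_isIntegral_of_rat (H6.isCharacter_isIntegral hχ x)
    (q := (9 * k - charDegree χ) / 8) (by push_cast at hk ⊢; linear_combination hk / 8)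
  refine ⟨x, a, hx, ha, four_dvd_of_vanish hχ h (n := 1) (u := u) (v := v) hx3 (hι ?_) (hι ?_)
    (hι ?_) (hι ?_) (hι ?_) (fun e => ?_) (fun e => ?_) (fun e => ?_) ha, k, ?_⟩
  · rw [← pow_two, map_pow, hu, map_one]; exact el_pow_eq_one (by decide +kernel)
  · rw [← pow_two, map_pow, hv, map_one]; exact el_pow_eq_one (by decide +kernel)
  · rw [map_mul, map_mul, hu, hv]; exact el_mul_eq (by decide +kernel)
  · rw [map_mul, map_mul, hu, hx]; exact el_mul_eq (by decide +kernel)
  · rw [map_mul, map_mul, hx, hv]; exact el_mul_eq (by decide +kernel)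
  · exact el_ne_one (a := u3) (by decide +kernel) (by rw [← hu, e, map_one])
  · exact el_ne_one (a := v3) (by decide +kernel) (by rw [← hv, e, map_one])
  · exact el_mul_ne_one (a := u3) (b := v3) (by decide +kernel)
      (by rw [← hu, ← hv, ← map_mul, e, map_one])
  · rw [ha] at hk
    have : ((charDegree χ : ℤ) + 8 * a : ℤ) = ((9 * k : ℤ) : ℂ) := by
      push_cast at hk ⊢; linear_combination hk
    exact_mod_cast this

theorem norm_sq_int {z : ℂ} {a : ℤ} (h : z = a) : ‖z‖ ^ 2 = ((a ^ 2 : ℤ) : ℝ) := by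
  rw [h, Complex.norm_intCast, sq_abs, Int.cast_pow]

theorem not_vanish_M22 {G : Type*} [Group G] [Finite G] {ι : G →* M24}
    (hι : Function.Injective ι) (hr : ι.range = S22.K) {χ : G → ℂ} (hχ : IsIrrCharacter G χ)
    (h : ∀ g, 2 ∣ orderOf g → χ g = 0) : False := by
  haveI : Fact (Nat.Prime 2) := ⟨Nat.prime_two⟩
  have hG : Nat.card G = 443520 := by
    rw [← card_range_of_injective hι, hr, S22.card_eq]
    rfl
  obtain ⟨x, a, hx, ha, h4, h9⟩ := value_x3 hι hr.ge (irr_char hχ) h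
  have h1 := card_cent_x3 S22.K (gC.set 0x1e) le_rfl (by decide) fun g hg p hp hp' => by
    have : p = none ∨ p = some 0 := by revert p; decide
    rcases this with rfl | rfl
    exacts [hg.1, hg.2]
  rw [← hr, ← hx, card_gset, show pop24 0x1e = 4 by decide +kernel] at h1
  have h2 := sum_classes_le hχ {()} (fun _ => x) (fun _ => 36) (by simp) fun _ _ =>
    (card_cent_map hι x).trans (by rw [show Nat.factorial 4 = 24 from rfl] at h1; omega)
  rw [Finset.sum_singleton, norm_sq_int ha, div_le_one (by norm_num)] at h2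
  have h3 : a ^ 2 ≤ 36 := by exact_mod_cast h2
  have h5 := pow_dvd_deg_of_vanish (irr_char hχ) h
  have h6 := irr_degree_dvd_card hχ
  have h7 := deg_sq_le_card hχ
  rw [hG] at h5 h6 h7
  rw [show (443520 : ℕ).factorization 2 = 7 by
    rw [Nat.factorization_def _ Nat.prime_two]; decide +kernel] at h5
  obtain ⟨m, hm⟩ := h5
  rw [hm] at h6 h7 h9
  have h8 : m ≤ 5 := by nlinarith
  have h10 : -6 ≤ a ∧ a ≤ 6 := by constructor <;> nlinarith
  interval_cases m <;> omega

/-- an element of order 5, a four-group centralizing it and an element squaring it. -/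
def x5 : ℕ := 0x2a966a22c4b8ef81973954a4b8c41
def u5 : ℕ := 0x3c12b100b63106aa32a1bbe2e6cd12
def v5 : ℕ := 0x50c225bc8d916079dd09601d1b52a6
def s5 : ℕ := 0x34e8ad1d05c6cf4c98a34ca4186e2

theorem ok_x5 : A24.ok x5 := A24_ok (by decide +kernel)
theorem ok_tTr : A24.ok tTr := A24_ok (by decide +kernel)

theorem fix_iterate {T : ℕ} (hT : A24.ok T) {g : M24} (hg : g * A24.el T = A24.el T * g)
    {p : GolayPt} (hp : g • p = p) (k : ℕ) :
    g • (gC.fn 5 T)^[k] p = (gC.fn 5 T)^[k] p := by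
  induction k with
  | zero => exact hp
  | succ k ih => rw [Function.iterate_succ_apply', ← el_smul hT, ← mul_smul, hg, mul_smul, ih]

theorem card_cent_le {T : ℕ} (hT : A24.ok T) {p : GolayPt} (hp : p ∉ gC.set (fixM T))
    {L : Subgroup M24} (hL : ∀ g, g * A24.el T = A24.el T * g → g • p = p → g ∈ L) :
    Nat.card (Subgroup.centralizer ({A24.el T} : Set M24)) ≤
      (24 - pop24 (fixM T)) * Nat.card L := by
  refine (card_le_of_orbit_subset (x := p) (Y := ((gC.set (fixM T))ᶜ : Finset GolayPt)) ?_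
    (Finset.finite_toSet _)).trans (Nat.mul_le_mul ?_ (Subgroup.card_le_of_le fun g hg =>
      hL g (Subgroup.mem_centralizer_singleton_iff.mp hg.1) hg.2))
  · rintro _ ⟨g, rfl⟩
    rw [Finset.mem_coe, Finset.mem_compl, ← fixP_el hT]
    exact fun h => hp (fixP_el hT ▸
      (smul_mem_fixP_iff (Subgroup.mem_centralizer_singleton_iff.mp g.2)).mp h)
  · rw [Set.ncard_coe_finset, Finset.card_compl, card_golayPt, card_gset]

theorem card_cent_x5 : Nat.card (Subgroup.centralizer ({A24.el x5} : Set M24)) ≤ 60 := by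
  have e : fixM x5 = 0x24030 := nbeq_iff.mp (by decide +kernel)
  have h := card_cent_le ok_x5 (p := none) (L := S6n.K) (by rw [e]; decide) fun g hg hp => by
    have h1 : ∀ p ∈ gC.set 0x80000f, g • p = p := fun p hp' => by
      obtain ⟨k, -, rfl⟩ := (by decide +kernel : ∀ p ∈ gC.set 0x80000f, ∃ k < 5,
        (gC.fn 5 x5)^[k] none = p) p hp'
      exact fix_iterate ok_x5 hg hp k
    have h2 : g • o0 = o0 := smul_octad_of_fix g.2 o0_mem h1 (by decide)
    have h3 : g • (some 4 : GolayPt) ∈ fixP (A24.el x5) :=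
      (smul_mem_fixP_iff hg).mpr (by rw [fixP_el ok_x5, e]; decide)
    rw [fixP_el ok_x5, e] at h3
    have h4 : g • (some 4 : GolayPt) ∉ o0 := smul_not_mem_of_stab h2 (by decide)
    exact ⟨mem_S19.mpr fun i => h1 _ (base5_mem i),
      (by decide : ∀ p ∈ gC.set 0x24030, p ∉ o0 → p = some 4) _ h3 h4⟩
  rw [e, S6n.card_eq] at h
  exact h.trans (by decide +kernel)

theorem card_cent_x23 : Nat.card (Subgroup.centralizer ({A24.el tTr} : Set M24)) ≤ 23 := by
  have e : fixM tTr = 0x800000 := nbeq_iff.mp (by decide +kernel)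
  have h := card_cent_le ok_tTr (p := some 0) (L := ⊥) (by rw [e]; decide) fun g hg hp =>
    eq_one_of_fix_mask 0x1ff (by decide +kernel) fun p hp' => by
      obtain ⟨k, -, rfl⟩ := (by decide +kernel : ∀ p ∈ gC.set 0x1ff, ∃ k < 9,
        (gC.fn 5 tTr)^[k] (some 0) = p) p hp'
      exact fix_iterate ok_tTr hg hp k
  rw [e, Subgroup.card_bot] at h
  exact h.trans (by decide +kernel)

theorem not_isConj_x23 : ¬ IsConj (A24.el tTr) (A24.el tTr)⁻¹ := by
  intro h
  obtain ⟨g, hg⟩ := isConj_iff.mp h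
  have hx : ∀ i : ZMod 23, A24.el tTr • (some i : GolayPt) = some (i + 1) := fun i => by
    rw [el_smul ok_tTr]
    revert i
    decide +kernel
  have hx' : ∀ i : ZMod 23, (A24.el tTr)⁻¹ • (some i : GolayPt) = some (i - 1) := fun i => by
    rw [inv_smul_eq_iff, hx, sub_add_cancel]
  have hx0 : A24.el tTr • (none : GolayPt) = none := by
    rw [el_smul ok_tTr]
    decide +kernel
  have h1 : ∀ p : GolayPt, g • A24.el tTr • p = (A24.el tTr)⁻¹ • g • p := fun p => by
    rw [← hg, conj_smul_smul]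
  have h2 : g • (none : GolayPt) = none := by
    have := h1 none
    rw [hx0] at this
    rcases e : g • (none : GolayPt) with _ | i
    · rfl
    · rw [e, hx'] at this
      exact absurd (Option.some.inj this) (by clear this e; revert i; decide)
  obtain ⟨c, hc⟩ : ∃ c : ZMod 23, g • (some 0 : GolayPt) = some c := by
    rcases e : g • (some 0 : GolayPt) with _ | i
    · exact absurd (MulAction.injective g (e.trans h2.symm)) (by decide)
    · exact ⟨i, rfl⟩
  have h3 : ∀ n : ℕ, g • (some (n : ZMod 23) : GolayPt) = some (c - n) := fun n => by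
    induction n with
    | zero => simpa using hc
    | succ n ih => rw [Nat.cast_succ, ← hx, h1, ih, hx', sub_sub]
  have h4 : ∀ p : GolayPt, g • p = p.map fun i => c - i := fun p => by
    rcases p with _ | i
    · exact h2
    · obtain ⟨n, rfl⟩ := ZMod.natCast_zmod_surjective i
      exact h3 n
  have h5 : ∀ c : ZMod 23, ∃ m < 2 ^ 24, isOct m = false ∧
      o0.image (fun p : GolayPt => p.map fun i => c - i) = gC.set m := fun c =>
    ⟨orLt 24 fun i => Bool.rec 0 (two (gC.idx ((gC.pt i).map fun i => c - i))) (tb 0x82402f i), by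
      revert c
      decide +kernel⟩
  obtain ⟨m, hm, h6, h7⟩ := h5 c
  have h8 := (m24_smul_octads g).mpr o0_mem
  rw [Finset.smul_finset_def, funext h4, h7] at h8
  rw [isOct_iff.mpr ⟨hm, h8⟩] at h6
  exact absurd h6 (by decide)

theorem value_x5 {χ : M24 → ℂ} (hχ : IsCharacter M24 χ) (h : ∀ g, 2 ∣ orderOf g → χ g = 0) :
    ∃ c : ℤ, χ (A24.el x5) = c ∧ 4 ∣ c ∧ 5 ∣ (charDegree χ : ℤ) + 4 * c := by
  have hx : A24.el x5 ^ (4 + 1) = 1 := el_pow_eq_one (by decide +kernel)
  have h1 : A24.el s5 * A24.el x5 * (A24.el s5)⁻¹ = A24.el x5 ^ 2 := by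
    simpa using el_conj_eq (u := s5) (x := x5) (y := x5) (i := 2) (j := 0) (by decide +kernel)
  have h2 : ∀ k, χ (A24.el x5 ^ (2 * k % 5)) = χ (A24.el x5 ^ k) := fun k => by
    rw [← pow_eq_pow_mod _ hx, pow_mul, ← h1, conj_pow, char_cf hχ]
  obtain ⟨k, hk⟩ := exists_sum_pow hχ char_one hx
  simp only [Finset.sum_range_succ, Finset.range_zero, Finset.sum_empty, Pi.one_apply, map_one,
    mul_one] at hk
  have e2 := h2 1
  have e4 := h2 2
  have e3 := h2 4
  norm_num at e2 e3 e4
  rw [e3, e4, e2, pow_zero, pow_one, char_one_eq hχ] at hk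
  obtain ⟨a, ha⟩ := H6.exists_int_of_isIntegral_of_rat (H6.isCharacter_isIntegral hχ (A24.el x5))
    (q := (5 * k - charDegree χ) / 4) (by push_cast at hk ⊢; linear_combination hk / 4)
  refine ⟨a, ha, four_dvd_of_vanish hχ h (n := 2) (u := A24.el u5) (v := A24.el v5) hx
    (by rw [← pow_two]; exact el_pow_eq_one (by decide +kernel))
    (by rw [← pow_two]; exact el_pow_eq_one (by decide +kernel))
    (el_mul_eq (by decide +kernel)) (el_mul_eq (by decide +kernel)) (el_mul_eq (by decide +kernel))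
    (el_ne_one (by decide +kernel)) (el_ne_one (by decide +kernel))
    (el_mul_ne_one (by decide +kernel)) ha, k, ?_⟩
  rw [ha] at hk
  have : ((charDegree χ : ℤ) + 4 * a : ℤ) = ((5 * k : ℤ) : ℂ) := by
    push_cast at hk ⊢; linear_combination hk
  exact_mod_cast this

theorem value_x23 {χ : M24 → ℂ} (hχ : IsCharacter M24 χ) :
    ∃ u T : ℤ, ‖χ (A24.el tTr)‖ ^ 2 = T ∧ u ^ 2 ≤ 4 * T ∧ 23 ∣ (charDegree χ : ℤ) + 11 * u ∧
      23 ∣ (charDegree χ : ℤ) ^ 2 + 22 * T := by
  have hx : A24.el tTr ^ (22 + 1) = 1 := el_pow_eq_one (by decide +kernel)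
  have h1 : A24.el 0xbd6717b56939461b52507314831040 * A24.el tTr *
      (A24.el 0xbd6717b56939461b52507314831040)⁻¹ = A24.el tTr ^ 2 := by
    simpa using el_conj_eq (x := tTr) (y := tTr) (i := 2) (j := 0) (by decide +kernel)
  obtain ⟨x, hx'⟩ : ∃ x, x = A24.el tTr := ⟨_, rfl⟩
  rw [← hx'] at hx h1 ⊢
  have h2 : ∀ k, χ (x ^ (2 * k % 23)) = χ (x ^ k) := fun k => by
    rw [← pow_eq_pow_mod _ hx, pow_mul, ← h1, conj_pow, char_cf hχ]
  have h3 : χ (x ^ 22) = conj (χ x) := by
    rw [← char_inv hχ, show x ^ 22 = x⁻¹ from eq_inv_of_mul_eq_one_left (by rw [← pow_succ]; exact hx)]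
  obtain ⟨k, hk⟩ := exists_sum_pow hχ char_one hx
  obtain ⟨l, hl⟩ := exists_sum_pow hχ hχ hx
  simp only [Finset.sum_range_succ, Finset.range_zero, Finset.sum_empty, Pi.one_apply, map_one,
    mul_one] at hk hl
  have a2 := h2 1; have a4 := h2 2; have a8 := h2 4; have a16 := h2 8; have a9 := h2 16
  have a18 := h2 9; have a13 := h2 18; have a3 := h2 13; have a6 := h2 3; have a12 := h2 6
  have b21 := h2 22; have b19 := h2 21; have b15 := h2 19; have b7 := h2 15; have b14 := h2 7
  have b5 := h2 14; have b10 := h2 5; have b20 := h2 10; have b17 := h2 20; have b11 := h2 17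
  norm_num at a2 a4 a8 a16 a9 a18 a13 a3 a6 a12 b21 b19 b15 b7 b14 b5 b10 b20 b17 b11
  simp only [a12, a6, a3, a13, a18, a9, a16, a8, a4, a2, b11, b17, b20, b10, b5, b14, b7, b15, b19,
    b21, h3, pow_zero, pow_one, char_one_eq hχ, Complex.conj_conj, map_natCast] at hk hl
  have i1 := H6.isCharacter_isIntegral hχ x
  have i2 := H6.isCharacter_isIntegral hχ x⁻¹
  rw [char_inv hχ] at i2
  obtain ⟨u, hu⟩ := H6.exists_int_of_isIntegral_of_rat (i1.add i2)
    (q := (23 * k - charDegree χ) / 11) (by push_cast at hk ⊢; linear_combination hk / 11)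
  obtain ⟨T, hT⟩ := H6.exists_int_of_isIntegral_of_rat (i1.mul i2)
    (q := (23 * l - charDegree χ ^ 2) / 22) (by push_cast at hl ⊢; linear_combination hl / 22)
  have h4 : ‖χ x‖ ^ 2 = T := by
    rw [Complex.mul_conj, Complex.normSq_eq_norm_sq] at hT
    exact_mod_cast hT
  refine ⟨u, T, h4, ?_, ⟨k, ?_⟩, l, ?_⟩
  · have h5 : (u : ℝ) = 2 * (χ x).re := by
      rw [Complex.add_conj] at hu
      exact_mod_cast hu.symm
    have h6 : (u : ℝ) ^ 2 ≤ 4 * T := by
      rw [← h4, h5, Complex.sq_norm, Complex.normSq_apply]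
      nlinarith [mul_self_nonneg (χ x).im]
    exact_mod_cast h6
  · have : ((charDegree χ : ℤ) + 11 * u : ℤ) = ((23 * k : ℤ) : ℂ) := by
      push_cast at hk ⊢; linear_combination hk - 11 * hu
    exact_mod_cast this
  · have : ((charDegree χ : ℤ) ^ 2 + 22 * T : ℤ) = ((23 * l : ℤ) : ℂ) := by
      push_cast at hl ⊢; linear_combination hl - 22 * hT
    exact_mod_cast this

theorem not_vanish_M24 {χ : M24 → ℂ} (hχ : IsIrrCharacter M24 χ)
    (h : ∀ g, 2 ∣ orderOf g → χ g = 0) : False := by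
  haveI : Fact (Nat.Prime 2) := ⟨Nat.prime_two⟩
  obtain ⟨x, a, hx, ha, a4, a9⟩ := value_x3 (ι := MonoidHom.id M24) Function.injective_id
    (fun g _ => ⟨g, rfl⟩) (irr_char hχ) h
  obtain rfl : x = A24.el x3 := hx
  obtain ⟨c, hc, c4, c5⟩ := value_x5 (irr_char hχ) h
  obtain ⟨u, T, hT, h1, h2, h3⟩ := value_x23 (irr_char hχ)
  have h4 := card_cent_x3 ⊤ (gC.set 0x80001f) le_top subset_rfl fun _ _ _ h h' => absurd h h'
  rw [top_inf_eq, card_gset, show pop24 0x80001f = 6 by decide +kernel] at h4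
  have o3 : orderOf (A24.el x3) = 3 := A24.orderOf_prime ok_x3 (by norm_num) (by decide +kernel)
  have o5 : orderOf (A24.el x5) = 5 := A24.orderOf_prime ok_x5 (by norm_num) (by decide +kernel)
  have o23 : orderOf (A24.el tTr) = 23 :=
    A24.orderOf_prime ok_tTr (by norm_num) (by decide +kernel)
  have ho : ∀ {a b : M24}, IsConj a b → orderOf a = orderOf b := fun ⟨c, h⟩ =>
    SemiconjBy.orderOf_eq _ h
  have h5 := sum_classes_le hχ Finset.univ ![A24.el x3, A24.el x5, A24.el tTr, (A24.el tTr)⁻¹]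
    ![1080, 60, 23, 23] (fun i _ j _ e => by
      have e' := ho e
      fin_cases i <;> fin_cases j <;> simp [o3, o5, o23] at e' ⊢
      · exact not_isConj_x23 e
      · exact not_isConj_x23 e.symm) fun i _ => by
      fin_cases i
      · simp [Nat.factorial] at h4 ⊢
        omega
      · exact card_cent_x5
      · exact card_cent_x23
      · refine le_trans (Subgroup.card_le_of_le fun g hg => ?_) card_cent_x23
        rw [Subgroup.mem_centralizer_singleton_iff] at hg ⊢
        exact Commute.inv_right_iff.mp hg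
  simp only [Fin.sum_univ_four, Matrix.cons_val_zero, Matrix.cons_val_one, Matrix.cons_val,
    char_inv (irr_char hχ), Complex.norm_conj, hT, norm_sq_int ha, norm_sq_int hc] at h5
  have h6 : 23 * a ^ 2 + 414 * c ^ 2 + 2160 * T ≤ 24840 := by
    have : (23 * a ^ 2 + 414 * c ^ 2 + 2160 * T : ℝ) ≤ 24840 := by
      push_cast at h5
      linarith
    exact_mod_cast this
  have h7 := pow_dvd_deg_of_vanish (irr_char hχ) h
  have h8 := irr_degree_dvd_card hχ
  have h9 := deg_sq_le_card hχ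
  rw [card_M24] at h7 h8 h9
  rw [show (244823040 : ℕ).factorization 2 = 10 by
    rw [Nat.factorization_def _ Nat.prime_two]; decide +kernel] at h7
  obtain ⟨m, hm⟩ := h7
  rw [hm] at h8 h9 a9 c5 h2 h3
  have h10 : m ≤ 15 := by nlinarith
  have h11 : 0 ≤ T := by nlinarith
  have h12 : T ≤ 11 := by nlinarith
  have h13 : -6 ≤ u ∧ u ≤ 6 := by constructor <;> nlinarith
  have h14 : (m = 1 ∧ T = 6) ∨ (m = 3 ∧ T = 8) := by
    interval_cases m <;> omega
  rcases h14 with ⟨rfl, rfl⟩ | ⟨rfl, rfl⟩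
  · have ha : 16 ≤ a ∨ a ≤ -16 := by omega
    have hc : 4 ≤ c ∨ c ≤ -4 := by omega
    rcases ha with ha | ha <;> rcases hc with hc | hc <;> nlinarith
  · have hc : 8 ≤ c ∨ c ≤ -8 := by omega
    rcases hc with hc | hc <;> nlinarith

theorem mem_principal_M24 {M : Ideal AlgInt} (hM : IsPModular 2 M) (χ : IrrCharacter M24) :
    χ ∈ principalBlock M M24 := by
  haveI : Fact (Nat.Prime 2) := ⟨Nat.prime_two⟩
  by_contra h
  exact not_vanish_M24 χ.2 fun g => vanish_of_not_principal hM loc_M24 h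

theorem mem_principal_M22 {M : Ideal AlgInt} (hM : IsPModular 2 M) (χ : IrrCharacter Spor.M22) :
    χ ∈ principalBlock M Spor.M22 := by
  haveI : Fact (Nat.Prime 2) := ⟨Nat.prime_two⟩
  by_contra h
  have hι : Function.Injective (S22s.K.subtype.comp equivM22.symm.toMonoidHom) :=
    S22s.K.subtype_injective.comp equivM22.symm.injective
  have hr : (S22s.K.subtype.comp equivM22.symm.toMonoidHom).range = S22.K := by
    rw [MonoidHom.range_comp, MonoidHom.range_eq_top.mpr equivM22.symm.surjective,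
      ← MonoidHom.range_eq_map, Subgroup.range_subtype]
    rfl
  exact not_vanish_M22 hι hr χ.2 fun g => vanish_of_not_principal hM (loc_M22 hι hr) h

end Cfsg.Agent.H7.M24
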