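import Cfsg.Agent.H7.M6
import Cfsg.Agent.H7.GlP

/-! Characters of cyclic groups with values of absolute value one, and applications. -/

namespace Cfsg.Agent.H7

open Subgroup
open scoped ComplexConjugate commutatorElement

variable {G : Type*} [Group G] [Finite G]

theorem m8_abs_one [Nontrivial G] (hc : ∀ a b : G, a * b = b * a) {ψ : G → ℂ}
    (hψ : IsGeneralizedCharacter G ψ) (h : ∀ x, x ≠ 1 → ‖ψ x‖ = 1) :
    ∃ (a ε : ℤ) (μ : G →* ℂˣ), (ε = 1 ∨ ε = -1) ∧ ψ 1 = a * Nat.card G + ε ∧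
      ∀ x, x ≠ 1 → ψ x = ε * μ x := by
  classical
  haveI := Fintype.ofFinite G
  haveI := Fintype.ofFinite (IrrCharacter G)
  obtain ⟨t, ht⟩ := H6.isGen_degree hψ
  have hn : (1 : ℤ) < Nat.card G := by exact_mod_cast Finite.one_lt_card
  obtain ⟨a, d, h1, h2⟩ : ∃ a d : ℤ, t = a * Nat.card G + d ∧ 2 * |d| ≤ Nat.card G := by
    refine ⟨(2 * t + Nat.card G) / (2 * Nat.card G), t - (2 * t + Nat.card G) / (2 * Nat.card G) *
      Nat.card G, by ring, ?_⟩
    have e1 := Int.emod_add_mul_ediv (2 * t + Nat.card G) (2 * Nat.card G)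
    have e2 := Int.emod_nonneg (2 * t + Nat.card G) (by omega : (2 * Nat.card G : ℤ) ≠ 0)
    have e3 := Int.emod_lt_of_pos (2 * t + Nat.card G) (by omega : (0 : ℤ) < 2 * Nat.card G)
    generalize (2 * t + Nat.card G) / (2 * Nat.card G) = q at *
    rcases abs_cases (t - q * Nat.card G) with h | h <;> nlinarith
  let φ := ψ - (a : ℂ) • H6.regChar G
  have hφ : IsGeneralizedCharacter G φ := H6.isGen_sub hψ (H6.isGen_intCast_smul a
    (H6.isGen_of_isCharacter (by rw [← H6.character_leftRegular]; exact char_of_rep _)))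
  have h3 : φ 1 = d := by
    simp only [φ, Pi.sub_apply, Pi.smul_apply, smul_eq_mul, H6.regChar_one, ht, h1]
    push_cast
    ring
  have h4 : ∀ x, x ≠ 1 → φ x = ψ x := fun x hx => by simp [φ, H6.regChar_of_ne hx]
  obtain ⟨m, hm, hm'⟩ := H6.isGen_exists_mult hφ
  simp only [← ip_eq_classInner] at hm
  have h5 : ∑ χ, m χ = d := by
    apply Int.cast_injective (α := ℂ)
    rw [← h3, hm', Finset.sum_apply, Int.cast_sum]
    exact Finset.sum_congr rfl fun χ _ => by simp [irr_one_eq_one_of_comm hc χ.2]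
  have h6 : ip φ φ = (∑ χ, m χ ^ 2 : ℤ) := by
    conv_lhs => arg 2; rw [hm']
    rw [ip_sum_right, Int.cast_sum]
    exact Finset.sum_congr rfl fun χ _ => by rw [ip_smul_right, hm]; simp [sq]
  have h7 : (Nat.card G : ℤ) * ∑ χ, m χ ^ 2 = d ^ 2 + (Nat.card G - 1) := by
    apply Int.cast_injective (α := ℂ)
    rw [Int.cast_mul, ← h6, ip_def, Int.cast_natCast, mul_inv_cancel_left₀ (card_ne_zero' G),
      ← Finset.add_sum_erase _ _ (Finset.mem_univ 1), h3,
      Finset.sum_congr rfl (g := fun _ => (1 : ℂ)) fun x hx => by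
        rw [h4 x (Finset.ne_of_mem_erase hx), Complex.mul_conj', h x (Finset.ne_of_mem_erase hx)]
        simp]
    rw [Finset.sum_const, Finset.card_erase_of_mem (Finset.mem_univ _), Finset.card_univ,
      ← Nat.card_eq_fintype_card, nsmul_eq_mul, Nat.cast_sub Nat.card_pos]
    simp [sq]
  have h8 : |d| ≤ ∑ χ, m χ ^ 2 := by
    rw [← h5]
    refine (Finset.abs_sum_le_sum_abs _ _).trans (Finset.sum_le_sum fun χ _ => ?_)
    rw [← sq_abs]
    exact Int.le_self_sq _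
  have h9 : ∑ χ, m χ ^ 2 = 1 := by
    rw [← sq_abs d] at h7
    have h0 := abs_nonneg d
    generalize |d| = e at *
    generalize ∑ χ, m χ ^ 2 = s at *
    generalize (Nat.card G : ℤ) = n at *
    have : e ≤ 1 := by nlinarith
    interval_cases e
    · have : s < 1 := by nlinarith
      have : 0 < s := by nlinarith
      omega
    · nlinarith
  rw [h9, ip_eq_classInner] at h6
  obtain ⟨ε, α, hε, hα, e⟩ := H6.exists_sign_irr_of_norm_one hφ (by simpa using h6)
  obtain ⟨μ, rfl⟩ := H6.exists_linear_of_comm hc hα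
  refine ⟨a, ε, μ, hε, ?_, fun x hx => by rw [← h4 x hx, e]; rfl⟩
  rw [e] at h3
  rw [ht, h1]
  simp only [Pi.smul_apply, map_one, Units.val_one, smul_eq_mul, mul_one] at h3
  rw [h3]
  push_cast
  rfl

theorem m8_char_factor {C S : Type*} [Group C] [Group S] [Finite C] [Finite S] {ψ : C × S → ℂ}
    (hψ : IsCharacter (C × S) ψ) {γ : C → ℂ} (hγ : IsCharacter C γ) :
    IsCharacter S fun x => ip (fun c => ψ (c, x)) γ := by
  refine H6.isCharacter_induction (P := fun ψ => IsCharacter S fun x => ip (fun c => ψ (c, x)) γ)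
    ?_ ?_ ?_ hψ
  · convert char_zero (G := S) using 2
    exact ip_zero_left _
  · intro χ hχ
    obtain ⟨a, b, ha, hb, rfl⟩ := H6.exists_eq_prod_fun hχ
    obtain ⟨m, hm⟩ := ip_char_nat (irr_char ha) hγ
    convert char_natCast_smul m (irr_char hb) using 2 with x
    rw [Pi.smul_apply, smul_eq_mul, ← hm, mul_comm, ← ip_smul_left]
    congr 1
    funext c
    simp [mul_comm]
  · intro χ ψ _ _ h1 h2
    convert char_add h1 h2 using 2 with x
    exact ip_add_left _ _ _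

theorem m8_pow_congr {p : ℕ} (hp : p.Prime) {ψ : G → ℂ} (hψ : IsCharacter G ψ) {x : G} {a b : ℤ}
    (ha : ψ x = a) (hb : ψ (x ^ p) = b) : (p : ℤ) ∣ a - b := by
  obtain ⟨r, hr⟩ := m1_char_pow hp 1 hψ x
  rw [pow_one, ha, hb] at hr
  have e1 : (p : ℤ) ∣ a ^ p - b := H6.int_dvd_of_isIntegral_div (by exact_mod_cast hp.ne_zero) (by
    push_cast
    rw [hr, add_sub_cancel_left, mul_div_cancel_left₀ _ (by exact_mod_cast hp.ne_zero)]
    exact r.2)
  haveI := Fact.mk hp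
  rw [← ZMod.intCast_zmod_eq_zero_iff_dvd] at e1 ⊢
  push_cast at e1 ⊢
  rwa [ZMod.pow_card] at e1

theorem m8_corr {Γ : Type*} [Group Γ] [Finite Γ] {G C : Subgroup Γ} {x : Γ}
    (hn : Nrm (zpowers x) G) (hcop : (Nat.card G).Coprime (orderOf x))
    (hC : G ⊓ centralizer {x} = C) {χ : Γ → ℂ} (hχ : IsCharacter Γ χ)
    (h1 : IsIrrCharacter G fun g => χ g) (h2 : (detOrder χ).Coprime (orderOf x)) :
    ∃ (ε : ℤ) (β : C → ℂ), (ε = 1 ∨ ε = -1) ∧ IsIrrCharacter C β ∧
      ∀ c : C, χ (c * x) = ε * β c := by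
  let Γ₀ := G ⊔ zpowers x
  have hn' : Γ₀ ≤ normalizer (G : Set Γ) := sup_le le_normalizer hn.le_normalizer
  let f : G →* Γ₀ := inclusion le_sup_left
  have hf : IsNE f := isNE_inclusion le_sup_left (nrm_of_le_normalizer hn')
  let s₀ : Γ₀ := ⟨x, mem_sup_right (mem_zpowers x)⟩
  have hle : C ≤ G := hC ▸ inf_le_left
  have hc : CycSet f (inclusion hle) s₀ := ⟨hf, inclusion_injective _,
    by rw [orderOf_mk]; exact hcop, fun g => by
      rw [inclusion_range, mem_subgroupOf, ← hC, mem_inf, mem_centralizer_singleton_iff]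
      exact ⟨fun h => Subtype.ext h.2, fun h => ⟨g.2, congrArg Subtype.val h⟩⟩⟩
  have gen : ∀ y, ∃ (k : ℤ) (n : G), y = s₀ ^ k * f n := by
    intro y
    have := hf.normal
    have h1 : zpowers s₀ ⊔ f.range = ⊤ := by
      apply map_injective Γ₀.subtype_injective
      rw [Subgroup.map_sup, MonoidHom.map_zpowers, MonoidHom.map_range, ← MonoidHom.range_eq_map,
        range_subtype, sup_comm]
      congr 1
      exact G.range_subtype
    obtain ⟨_, ⟨k, rfl⟩, _, ⟨n, rfl⟩, rfl⟩ := mem_sup_of_normal_right.1 (h1 ▸ mem_top y)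
    exact ⟨k, n, rfl⟩
  exact hc.exists_corr gen h1 (char_comp Γ₀.subtype hχ) (fun _ => rfl) (by
    rw [orderOf_mk, detOrder_eq, detHom_comp _ hχ]
    exact h2.coprime_dvd_left (detOrder_eq χ ▸ orderOf_comp_dvd _ _))

theorem s4451 {Γ : Type*} [Group Γ] [Finite Γ] {G S C : Subgroup Γ} (hnorm : Nrm S G)
    (hcop : (Nat.card G).Coprime (Nat.card S)) (hcyc : IsCyclic S)
    (hC : C = G ⊓ centralizer (S : Set Γ))
    (hfpf : ∀ x ∈ S, x ≠ 1 → G ⊓ centralizer ({x} : Set Γ) = C) {χ : Γ → ℂ}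
    (hχ : IsCharacter Γ χ) (h1 : IsIrrCharacter G fun g => χ g)
    (hdet : (detOrder χ).Coprime (Nat.card S)) {β : C → ℂ} (hβ : IsIrrCharacter C β) {ε₀ : ℤ}
    (hε₀ : ε₀ = 1 ∨ ε₀ = -1) (h : ∀ c : C, ∀ s : Γ, zpowers s = S → χ (c * s) = ε₀ * β c) :
    ∃ ε : ℤ, (ε = 1 ∨ ε = -1) ∧ (∃ μ : S → ℂ, IsCharacter S μ ∧ μ 1 = 1 ∧ (∀ x, μ x * μ x = 1) ∧
      ∀ c : C, ∀ x : S, x ≠ 1 → χ (c * x) = ε * β c * μ x) ∧
      ∃ ϑ : C → ℂ, IsCharacter C ϑ ∧ (fun c : C => χ c) = fun c => Nat.card S * ϑ c + ε * β c := by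
  classical
  obtain ⟨s, hs⟩ := (Subgroup.isCyclic_iff_exists_zpowers_eq_top S).1 hcyc
  by_cases hs1 : s = 1
  · refine ⟨ε₀, hε₀, ⟨1, char_one, rfl, by simp, fun c x hx => absurd (Subtype.ext ?_) hx⟩,
      0, char_zero, funext fun c => ?_⟩
    · have : x.1 ∈ zpowers s := hs.ge x.2
      rw [hs1, zpowers_one_eq_bot] at this
      exact this
    · simpa [hs1] using h c s hs
  have hsS : s ∈ S := hs ▸ mem_zpowers s
  haveI : Nontrivial S := ⟨⟨⟨s, hsS⟩, 1, fun e => hs1 (congrArg Subtype.val e)⟩⟩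
  have hcomm : ∀ (c : C) (x : S), Commute (C.subtype c) (S.subtype x) := fun c x =>
    (((hC ▸ c.2 : c.1 ∈ G ⊓ centralizer (S : Set Γ)).2 x x.2)).symm
  have hψ : ∀ γ, IsIrrCharacter C γ → IsCharacter S fun x => ip (fun c : C => χ (c * x)) γ :=
    fun γ hγ => m8_char_factor (char_comp (MonoidHom.noncommCoprod _ _ hcomm) hχ) (irr_char hγ)
  have h2 : ∀ x ∈ S, x ≠ 1 → ∃ (ε : ℤ) (β : C → ℂ), (ε = 1 ∨ ε = -1) ∧ IsIrrCharacter C β ∧
      ∀ c : C, χ (c * x) = ε * β c := fun x hx hx1 =>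
    m8_corr (fun y hy => hnorm y (zpowers_le.2 hx hy))
      (hcop.coprime_dvd_right (orderOf_dvd_natCard S hx)) (hfpf x hx hx1) hχ h1
      (hdet.coprime_dvd_right (orderOf_dvd_natCard S hx))
  have h3 : ∀ k : ℕ, s ^ k ≠ 1 → ∃ ε : ℤ, (ε = 1 ∨ ε = -1) ∧
      ∀ c : C, χ (c * s ^ k) = ε * β c := by
    intro k
    induction k using induction_on_primes with
    | zero => simp
    | one => exact fun _ => ⟨ε₀, hε₀, fun c => by rw [pow_one]; exact h c s hs⟩
    | prime_mul p k hp ih =>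
      intro hk
      obtain ⟨ε, hε, e⟩ := ih (fun h => hk (by rw [mul_comm, pow_mul, h, one_pow]))
      obtain ⟨ε', β', hε', hβ', e'⟩ := h2 _ (pow_mem hsS _) hk
      refine ⟨ε', hε', ?_⟩
      by_contra hne
      have hne' : β' ≠ β := fun h => hne (h ▸ e')
      have := m8_pow_congr hp (hψ β hβ) (x := ⟨s ^ k, pow_mem hsS k⟩) (a := ε) (b := 0) (by
        rw [show (fun c : C => χ (c * s ^ k)) = (ε : ℂ) • β from funext e, ip_smul_left,
          ip_irr_self hβ, mul_one]) (by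
        have : (fun c : C => χ (c * ((⟨s ^ k, pow_mem hsS k⟩ : S) ^ p : S))) = (ε' : ℂ) • β' :=
          funext fun c => by rw [coe_pow, ← pow_mul, mul_comm k]; exact e' c
        rw [this, ip_smul_left, ip_irr_ne hβ' hβ hne', mul_zero, Int.cast_zero])
      rw [sub_zero] at this
      have := Int.natAbs_dvd_natAbs.2 this
      rcases hε with rfl | rfl <;> simp [hp.ne_one] at this
  have h4 : ∀ x : S, x ≠ 1 → ∃ ε : ℤ, (ε = 1 ∨ ε = -1) ∧
      (fun c : C => χ (c * x)) = (ε : ℂ) • β := by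
    intro x hx
    obtain ⟨k, hk⟩ := (Submonoid.mem_powers_iff _ _).1
      (mem_powers_iff_mem_zpowers.2 (hs ▸ x.2 : x.1 ∈ zpowers s))
    obtain ⟨ε, hε, e⟩ := h3 k (by rw [hk]; simpa using hx)
    exact ⟨ε, hε, funext fun c => by rw [← hk]; exact e c⟩
  obtain ⟨a, ε, μ, hε, a1, a2⟩ := m8_abs_one IsCyclic.commutative.1.1
    (H6.isGen_of_isCharacter (hψ β hβ)) fun x hx => by
      obtain ⟨ε, hε, e⟩ := h4 x hx
      rw [e, ip_smul_left, ip_irr_self hβ]
      rcases hε with rfl | rfl <;> simp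
  have a3 : ∀ x : S, x ≠ 1 → ∃ δ : ℤ, (δ = 1 ∨ δ = -1) ∧ (δ : ℂ) = ε * μ x ∧
      (fun c : C => χ (c * x)) = (δ : ℂ) • β := by
    intro x hx
    obtain ⟨δ, hδ, e⟩ := h4 x hx
    refine ⟨δ, hδ, ?_, e⟩
    rw [← a2 x hx, e, ip_smul_left, ip_irr_self hβ, mul_one]
  refine ⟨ε, hε, ⟨linFun μ, char_linFun μ, linFun_one_apply μ, fun x => ?_, fun c x hx => ?_⟩,
    (Nat.card S : ℂ)⁻¹ • ((fun c : C => χ c) - (ε : ℂ) • β), ?_, ?_⟩
  · by_cases hx : x = 1
    · simp [hx, linFun_apply]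
    obtain ⟨δ, hδ, e, -⟩ := a3 x hx
    have : (ε : ℂ) * μ x * (ε * μ x) = 1 := by
      rw [← e]
      rcases hδ with rfl | rfl <;> simp
    rw [linFun_apply]
    rcases hε with rfl | rfl <;> simpa using this
  · obtain ⟨δ, -, e, e'⟩ := a3 x hx
    rw [congrFun e' c, e, linFun_apply, Pi.smul_apply, smul_eq_mul]
    ring
  · refine char_of_ip_nat (cf_smul _ (cf_sub (cf_comp C.subtype (char_cf hχ))
      (cf_smul _ (irr_cf hβ)))) fun γ hγ => ?_
    rw [ip_smul_left, ip_sub_left, ip_smul_left]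
    by_cases hγβ : γ = β
    · subst hγβ
      simp only [coe_one, mul_one] at a1
      obtain ⟨m, hm⟩ := ip_char_nat (char_comp C.subtype hχ) (irr_char hγ)
      have a4 : (m : ℤ) = a * Nat.card S + ε := by
        apply Int.cast_injective (α := ℂ)
        push_cast
        rw [← a1, ← hm]
        rfl
      have a5 : (1 : ℤ) < Nat.card S := by exact_mod_cast Finite.one_lt_card
      have a6 : 0 ≤ a := by rcases hε with rfl | rfl <;> nlinarith
      lift a to ℕ using a6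
      refine ⟨a, ?_⟩
      rw [a1, ip_irr_self hγ, mul_one, add_sub_cancel_right, mul_comm,
        mul_inv_cancel_right₀ (card_ne_zero' S), Int.cast_natCast]
    · obtain ⟨m, hm⟩ := ip_char_nat (hψ γ hγ) char_one
      rw [ip_one_of_vanish fun x hx => by
        obtain ⟨δ, -, e⟩ := h4 x hx
        rw [e, ip_smul_left, ip_irr_ne hβ hγ (Ne.symm hγβ), mul_zero]] at hm
      refine ⟨m, ?_⟩
      rw [ip_irr_ne hβ hγ (Ne.symm hγβ), mul_zero, sub_zero, ← hm]
      simp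
  · funext c
    simp only [Pi.smul_apply, Pi.sub_apply, smul_eq_mul]
    rw [mul_inv_cancel_left₀ (card_ne_zero' S), sub_add_cancel]

theorem m8_gall_char {N Q : Type*} [Group N] [Group Q] [Finite N] [Finite Q] {f : N →* G}
    {π : G →* Q} (hf : IsNE f) (hπ : Function.Surjective π) (hker : π.ker = f.range) {χ φ : G → ℂ}
    (hχ : IsCharacter G χ) (hχN : IsIrrCharacter N fun n => χ (f n)) (hφ : IsCharacter G φ) {e : ℂ}
    (h : (fun n => φ (f n)) = e • fun n => χ (f n)) :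
    ∃ ψ, IsCharacter Q ψ ∧ φ = (fun x => ψ (π x)) * χ := by
  classical
  have h1 : ∀ ζ, IsIrrCharacter G ζ → ∃ β, IsCharacter Q β ∧
      ip φ ζ • ζ = (fun x => β (π x)) * χ := by
    intro ζ hζ
    by_cases h0 : ip φ ζ = 0
    · exact ⟨0, char_zero, by rw [h0]; funext x; simp⟩
    obtain ⟨θ, hθ, a1⟩ := exists_irr_under f hζ
    have a2 := ip_comp_ne_zero_of_le f hφ hζ h0 (irr_char hθ) a1
    rw [h, ip_smul_left] at a2
    rw [← irr_eq_of_ip_ne_zero hχN hθ (right_ne_zero_of_mul a2)] at a1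
    obtain ⟨β, hβ, e⟩ := hf.gallagher_surj hπ hker hχ hχN hζ a1
    obtain ⟨m, hm⟩ := ip_char_nat hφ (irr_char hζ)
    refine ⟨_, char_natCast_smul m (irr_char hβ), ?_⟩
    rw [hm, e]
    funext x
    simp [mul_assoc]
  choose! β hβ hβ' using h1
  refine ⟨∑ ζ ∈ irrSet G, β ζ, char_sum _ fun ζ hζ => hβ ζ (mem_irrSet.1 hζ), ?_⟩
  conv_lhs => rw [cf_expand (char_cf hφ)]
  rw [Finset.sum_congr rfl fun ζ hζ => hβ' ζ (mem_irrSet.1 hζ), ← Finset.sum_mul]
  congr 1
  funext x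
  simp [Finset.sum_apply]

theorem m8_coset_sum {Γ : Type*} [Group Γ] [Finite Γ] {G N : Subgroup Γ} [hG : G.Normal]
    [hN : N.Normal] [Fintype G] [Fintype N] (hNG : N ≤ G) {s : Γ}
    (hs : ∀ g ∈ G, s * g * s⁻¹ * g⁻¹ ∈ N → g ∈ N) {F : Γ → ℂ} (hF : IsClassFunction Γ F) :
    (Nat.card G : ℂ)⁻¹ * ∑ g : G, F (g * s) = (Nat.card N : ℂ)⁻¹ * ∑ n : N, F (n * s) := by
  let π := QuotientGroup.mk' N
  let c : G.map π → G.map π := fun q => ⟨q * π s * q⁻¹ * (π s)⁻¹, by
    obtain ⟨_, g, hg, rfl⟩ := q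
    refine ⟨g * (s * g⁻¹ * s⁻¹), mul_mem hg (hG.conj_mem _ (inv_mem hg) s), ?_⟩
    simp [mul_assoc]⟩
  have hc : Function.Injective c := by
    rintro ⟨_, a, ha, rfl⟩ ⟨_, b, hb, rfl⟩ e
    have e' : π a * π s * (π a)⁻¹ = π b * π s * (π b)⁻¹ :=
      mul_right_cancel (congrArg Subtype.val e)
    refine Subtype.ext (QuotientGroup.eq.2 (hs _ (mul_mem (inv_mem ha) hb) ?_))
    rw [← QuotientGroup.eq_one_iff]
    change π _ = 1
    simp only [map_mul, map_inv]
    calc π s * ((π a)⁻¹ * π b) * (π s)⁻¹ * ((π a)⁻¹ * π b)⁻¹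
        = (π a)⁻¹ * (π a * π s * (π a)⁻¹) * (π b * π s * (π b)⁻¹)⁻¹ * π a := by group
      _ = 1 := by rw [e']; group
  have h1 : ∀ y : G, ∑ n : N, F (n * y * s) = ∑ n : N, F (n * s) := by
    intro y
    obtain ⟨⟨_, g, hg, rfl⟩, e⟩ := Finite.surjective_of_injective hc ⟨π y, y, y.2, rfl⟩
    have e' : π (g * s * g⁻¹ * s⁻¹) = π y := by
      simp only [map_mul, map_inv]
      exact congrArg Subtype.val e
    have hn : y * (g * s * g⁻¹ * s⁻¹)⁻¹ ∈ N := by
      rw [← QuotientGroup.eq_one_iff]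
      change π _ = 1
      rw [map_mul, map_inv, e', mul_inv_cancel]
    refine Fintype.sum_equiv ((Equiv.mulRight (⟨_, hn⟩ : N)).trans
      (MulAut.conjNormal g⁻¹).toEquiv) _ _ fun n => ?_
    rw [← hF _ g⁻¹]
    congr 1
    simp [mul_assoc]
  have h2 : ∑ y : G, ∑ n : N, F (n * y * s) = Nat.card N * ∑ g : G, F (g * s) := by
    rw [Finset.sum_comm, Finset.sum_congr rfl (g := fun _ => ∑ g : G, F (g * s)), Finset.sum_const,
      Finset.card_univ, nsmul_eq_mul, Nat.card_eq_fintype_card]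
    intro n _
    exact Fintype.sum_equiv (Equiv.mulLeft (inclusion hNG n)) _ _ fun g => rfl
  simp only [h1, Finset.sum_const, Finset.card_univ, nsmul_eq_mul, ← Nat.card_eq_fintype_card] at h2
  rw [inv_mul_eq_iff_eq_mul₀ (card_ne_zero' G), ← mul_assoc, mul_comm (Nat.card G : ℂ), mul_assoc,
    h2, inv_mul_cancel_left₀ (card_ne_zero' N)]

theorem s4454 {Γ : Type*} [Group Γ] [Finite Γ] (G N : Subgroup Γ) [hG : G.Normal] [hN : N.Normal]
    (hNG : N ≤ G) (hGlt : G ≠ ⊤) (hcyc : IsCyclic (Γ ⧸ G))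
    (hfrob : ∀ x : Γ, x ∉ G → ∀ g : Γ, g ∈ G → x * g * x⁻¹ * g⁻¹ ∈ N → g ∈ N) {θ : N → ℂ}
    (hθ : IsIrrCharacter N θ)
    (hinv : ∀ (x : Γ) (n : N), θ ⟨x * n * x⁻¹, hN.conj_mem n n.2 x⟩ = θ n) {χ : G → ℂ}
    (hχ : IsIrrCharacter G χ) {e : ℕ} (hram : ind (inclusion hNG) θ = (e : ℂ) • χ) :
    (G.index : ℤ) ∣ (e : ℤ) - 1 ∨ (G.index : ℤ) ∣ (e : ℤ) + 1 := by
  classical
  haveI := Fintype.ofFinite G
  haveI := Fintype.ofFinite N
  have hfN := isNE_subtype N
  have hfG := isNE_subtype G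
  have hi := isNE_inclusion_of_normal hNG
  have hinv' : hfN.Inv θ := (inv_subtype_iff N hfN θ).2 hinv
  have hinvG : hi.Inv θ := hinv'.of_comp hi (ι := G.subtype) fun _ => rfl
  have he0 : (e : ℂ) ≠ 0 := by
    intro h0
    have := congrFun hram 1
    rw [ind_apply_one hi.inj, h0, zero_smul] at this
    exact mul_ne_zero (Nat.cast_ne_zero.2 index_ne_zero_of_finite) (m4_one_ne hθ) this
  have hres : (fun n => χ (inclusion hNG n)) = (e : ℂ) • θ := by
    have h1 : ip (fun n => χ (inclusion hNG n)) θ = e := by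
      rw [← ip_ind_right _ _ (irr_cf hχ), hram, ip_smul_right, ip_irr_self hχ]
      simp
    rw [hi.clifford_inv hχ hθ hinvG (by rwa [h1]), h1]
  have hχinv : hfG.Inv χ := by
    rw [inv_subtype_iff]
    intro x g
    by_cases hg : g.1 ∈ N
    · exact (congrFun hres ⟨_, hN.conj_mem g hg x⟩).trans (by
        rw [Pi.smul_apply, hinv x ⟨g, hg⟩]
        exact (congrFun hres ⟨g, hg⟩).symm)
    · haveI := hi.normal
      have h0 : ∀ y : G, y.1 ∉ N → χ y = 0 := fun y hy => by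
        have := congrFun hram y
        rw [ind_apply_of_notMem _ (by rwa [inclusion_range])] at this
        exact (mul_eq_zero.1 this.symm).resolve_left he0
      rw [h0 g hg, h0 _ fun h => hg (by simpa [mul_assoc] using hN.conj_mem _ h x⁻¹)]
  obtain ⟨x, hx⟩ := H3.exists_sup_zpowers_eq_top G hcyc
  have hxG : x ∉ G := fun h => hGlt (by rw [← hx, sup_eq_left.2 (zpowers_le.2 h)])
  obtain ⟨χh, a1, a2⟩ := hfG.exists_ext_of_cyclic hχ hχinv x fun y => by
    obtain ⟨_, ⟨k, rfl⟩, g, hg, rfl⟩ := mem_sup_of_normal_right.1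
      (show y ∈ zpowers x ⊔ G by rw [sup_comm, hx]; trivial)
    exact ⟨k, ⟨g, hg⟩, rfl⟩
  let S := zpowers x ⊔ N
  have hNS : N ≤ S := le_sup_right
  have hSG : S ⊓ G = N := by
    refine le_antisymm ?_ (le_inf hNS hNG)
    rintro y ⟨h1, h2⟩
    obtain ⟨_, ⟨k, rfl⟩, n, hn, rfl⟩ := mem_sup_of_normal_right.1 h1
    refine mul_mem (hfrob x hxG _ ((mul_mem_cancel_right (hNG hn)).1 h2) ?_) hn
    convert one_mem N using 1
    group
  have hj := isNE_inclusion_of_normal hNS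
  obtain ⟨θh, b1, b2⟩ := hj.exists_ext_of_cyclic hθ (hinv'.of_comp hj (ι := S.subtype) fun _ => rfl)
    ⟨x, mem_sup_left (mem_zpowers x)⟩ fun y => by
      obtain ⟨_, ⟨k, rfl⟩, g, hg, e⟩ := mem_sup_of_normal_right.1 y.2
      exact ⟨k, ⟨g, hg⟩, Subtype.ext e.symm⟩
  let π : S →* Γ ⧸ G := (QuotientGroup.mk' G).comp S.subtype
  have hπ : Function.Surjective π := by
    intro q
    obtain ⟨y, rfl⟩ := QuotientGroup.mk'_surjective G q
    obtain ⟨z, hz, g, hg, rfl⟩ := mem_sup_of_normal_right.1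
      (show y ∈ zpowers x ⊔ G by rw [sup_comm, hx]; trivial)
    exact ⟨⟨z, mem_sup_left hz⟩, by simp [π, (QuotientGroup.eq_one_iff g).2 hg]⟩
  have hker : π.ker = (inclusion hNS).range := by
    ext y
    rw [inclusion_range, mem_subgroupOf, ← hSG, mem_inf, and_iff_right y.2]
    exact QuotientGroup.eq_one_iff _
  have b3 : IsIrrCharacter N fun n => θh (inclusion hNS n) := by rw [funext b2]; exact hθ
  obtain ⟨ψ, c1, c2⟩ := m8_gall_char hj hπ hker (irr_char b1) b3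
    (char_comp S.subtype (irr_char a1)) (e := e) (by
      rw [funext b2, ← hres]
      exact funext fun n => a2 (inclusion hNG n))
  haveI : Nontrivial (Γ ⧸ G) := ⟨⟨x, 1, fun h => hxG ((QuotientGroup.eq_one_iff x).1 h)⟩⟩
  obtain ⟨a, ε, μ, hε, d1, -⟩ := m8_abs_one IsCyclic.commutative.1.1
    (H6.isGen_of_isCharacter c1) fun q hq => by
      obtain ⟨s, rfl⟩ := hπ q
      have hs : s.1 ∉ G := fun h => hq ((QuotientGroup.eq_one_iff _).2 h)
      have e1 := hfG.sum_coset_mul_conj_self (irr_char a1) (by rw [funext a2]; exact hχ) s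
      have e2 := hj.sum_coset_mul_conj_self (irr_char b1) b3 s
      have e3 := m8_coset_sum hNG (hfrob s hs) (cf_mul (irr_cf a1) (cf_star (irr_cf a1)))
      have e4 : ∀ n : N, χh (n * s) = ψ (π s) * θh (inclusion hNS n * s) := fun n => by
        have := congrFun c2 (inclusion hNS n * s)
        rwa [Pi.mul_apply, map_mul π, apply_eq_one_of_ker_eq hker, one_mul] at this
      replace e3 := e1.symm.trans e3
      simp only [Pi.mul_apply, Pi.star_apply, e4, RCLike.star_def, map_mul] at e3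
      have e5 : ψ (π s) * conj (ψ (π s)) = 1 := by
        refine ((mul_one _).symm.trans (congrArg _ e2.symm)).trans (Eq.trans ?_ e3.symm)
        rw [mul_left_comm, Finset.mul_sum]
        congr 1
        exact Finset.sum_congr rfl fun n _ => by ring
      rw [Complex.mul_conj'] at e5
      have e6 : ‖ψ (π s)‖ ^ 2 = 1 := by exact_mod_cast e5
      exact (pow_eq_one_iff_of_nonneg (norm_nonneg _) two_ne_zero).1 e6
  have d2 : ψ 1 = e := by
    have e1 := congrFun c2 1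
    have e2 := congrFun hres 1
    have e3 := a2 1
    have e4 := b2 1
    simp only [map_one, Pi.mul_apply, Pi.smul_apply, smul_eq_mul] at e1 e2 e3 e4
    rw [e3, e2, e4] at e1
    exact (mul_right_cancel₀ (m4_one_ne hθ) e1).symm
  rw [d2, ← index_eq_card] at d1
  have d3 : (e : ℤ) = a * G.index + ε := by exact_mod_cast d1
  rcases hε with rfl | rfl
  · exact Or.inl ⟨a, by rw [d3]; ring⟩
  · exact Or.inr ⟨a, by rw [d3]; ring⟩

end Cfsg.Agent.H7
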