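import Mathlib
import Cfsg.Agent.H14.PermAmb

/-!
Rank three groups of degree 275 with subdegrees 112 and 162: the graph.
-/

set_option autoImplicit false

namespace Cfsg.Agent.H7.Mc

open MulAction Finset Cfsg.Agent.H14

/-- a strongly regular relation. -/
structure Srg {Ω : Type*} (R : Ω → Ω → Prop) (l m : ℕ) : Prop where
  sy : ∀ x y, R x y → R y x
  ir : ∀ x, ¬ R x x
  val : ∀ x, {y | R x y}.ncard = 112
  la : ∀ x y, R x y → {z | R x z ∧ R y z}.ncard = l
  mu : ∀ x y, x ≠ y → ¬ R x y → {z | R x z ∧ R y z}.ncard = m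

theorem rank3 {H Ω : Type*} [Group H] [Fintype Ω] [MulAction H Ω] [IsPretransitive H Ω]
    (hΩ : Fintype.card Ω = 275) (a b c : Ω) (hb : (orbit (stabilizer H a) b).ncard = 112)
    (hc : (orbit (stabilizer H a) c).ncard = 162) : ∃ (R : Ω → Ω → Prop) (l m : ℕ), Srg R l m ∧
      (∀ (g : H) x y, R (g • x) (g • y) ↔ R x y) ∧ (∀ y, R a y ↔ y ∈ orbit (stabilizer H a) b) ∧
      c ≠ a ∧ ¬ R a c := by
  classical
  let R : Ω → Ω → Prop := fun x y => ∃ g : H, g • a = x ∧ g • b = y
  have hR : ∀ (g : H) x y, R (g • x) (g • y) ↔ R x y := fun g x y =>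
    ⟨fun ⟨k, h1, h2⟩ => ⟨g⁻¹ * k, by rw [mul_smul, h1, inv_smul_smul],
      by rw [mul_smul, h2, inv_smul_smul]⟩, fun ⟨k, h1, h2⟩ => ⟨g * k, by rw [mul_smul, h1],
      by rw [mul_smul, h2]⟩⟩
  have hRa : ∀ y, R a y ↔ y ∈ orbit (stabilizer H a) b := fun y =>
    ⟨fun ⟨k, h1, h2⟩ => ⟨⟨k, h1⟩, h2⟩, fun ⟨k, h⟩ => ⟨k.1, k.2, h⟩⟩
  have himg : ∀ (g : H) (P Q : Ω → Prop), (∀ x, Q (g • x) ↔ P x) → {x | Q x}.ncard = {x | P x}.ncard :=
    fun g P Q h => ncard_smul_congr g h
  have hna : ∀ y, (orbit (stabilizer H a) y).ncard ≠ 1 → a ∉ orbit (stabilizer H a) y :=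
    fun y h h' => h (by
      rw [← orbit_eq_iff.mpr h', Set.ncard_eq_one]
      exact ⟨a, Set.eq_singleton_iff_unique_mem.mpr ⟨mem_orbit_self a, by
        rintro _ ⟨k, rfl⟩; exact k.2⟩⟩)
  have ha1 := hna b (by omega)
  have ha2 := hna c (by omega)
  have hbc : Disjoint (orbit (stabilizer H a) b) (orbit (stabilizer H a) c) := by
    rw [Set.disjoint_left]
    intro x h1 h2
    rw [← orbit_eq_iff.mpr h1, orbit_eq_iff.mpr h2] at hb
    omega
  have hall : ∀ y, y = a ∨ y ∈ orbit (stabilizer H a) b ∨ y ∈ orbit (stabilizer H a) c := by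
    have : insert a (orbit (stabilizer H a) b ∪ orbit (stabilizer H a) c) = Set.univ := by
      apply Set.eq_of_subset_of_ncard_le (Set.subset_univ _)
      rw [Set.ncard_insert_of_notMem (by simp [ha1, ha2]), Set.ncard_union_eq hbc, hb, hc,
        Set.ncard_univ, Nat.card_eq_fintype_card, hΩ]
    intro y
    have h : y ∈ insert a (orbit (stabilizer H a) b ∪ orbit (stabilizer H a) c) := this ▸ trivial
    exact h
  have hout : ∀ x, {y | R x y}.ncard = 112 := fun x => by
    obtain ⟨g, rfl⟩ := exists_smul_eq H a x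
    rw [himg g (R a) _ (hR g a), ← hb]
    congr 1; ext y; exact hRa y
  have hin : {x | R x a}.ncard = 112 := by
    have h1 := card_mul_eq_card_mul R (s := univ) (t := univ) (m := 112) (n := {x | R x a}.ncard)
      (fun x _ => by rw [← hout x, ← Set.ncard_coe_finset]; congr 1; ext; simp [bipartiteAbove])
      (fun y _ => by
        obtain ⟨g, rfl⟩ := exists_smul_eq H a y
        rw [← himg g (fun x => R x a) (fun x => R x (g • a)) (fun x => hR g x a),
          ← Set.ncard_coe_finset]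
        congr 1; ext; simp [bipartiteBelow])
    rw [card_univ, hΩ] at h1
    omega
  have hirr : ∀ x, ¬ R x x := fun x h => by
    obtain ⟨g, rfl⟩ := exists_smul_eq H a x
    exact ha1 ((hRa a).mp ((hR g a a).mp h))
  have hba : R b a := by
    have h1 : {x | R x a} ⊆ orbit (stabilizer H a) b := fun x hx => by
      rcases hall x with rfl | h | h
      · exact absurd hx (hirr _)
      · exact h
      · exfalso
        have h2 : orbit (stabilizer H a) c ⊆ {x | R x a} := by
          rw [← orbit_eq_iff.mpr h]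
          rintro _ ⟨k, rfl⟩
          have := (hR k.1 x a).mpr hx
          rwa [k.2] at this
        have := Set.ncard_le_ncard h2
        omega
    have := Set.eq_of_subset_of_ncard_le h1 (by omega)
    have h2 : b ∈ {x | R x a} := this ▸ mem_orbit_self b
    exact h2
  have hsym : ∀ x y, R x y → R y x := by
    rintro _ _ ⟨g, rfl, rfl⟩; exact (hR g b a).mpr hba
  refine ⟨R, {x | R a x ∧ R b x}.ncard, {x | R a x ∧ R c x}.ncard, ⟨hsym, hirr, hout, ?_,
    fun v w h h' => ?_⟩, hR, hRa, fun h => ha2 (h ▸ mem_orbit_self c), fun h =>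
      Set.disjoint_left.1 hbc ((hRa c).1 h) (mem_orbit_self c)⟩
  · rintro _ _ ⟨g, rfl, rfl⟩
    exact himg g _ _ fun x => and_congr (hR g a x) (hR g b x)
  · obtain ⟨g, rfl⟩ := exists_smul_eq H a v
    obtain ⟨w, rfl⟩ := MulAction.surjective g w
    rcases hall w with rfl | h1 | ⟨k, rfl⟩
    · exact absurd rfl h
    · exact absurd ((hR g a w).mpr ((hRa w).mpr h1)) h'
    · refine himg (g * k.1) _ _ fun x => and_congr ?_ ?_
      · have := hR (g * k.1) a x
        rwa [mul_smul g k.1 a, k.2] at this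
      · have := hR (g * k.1) c x
        rwa [mul_smul g k.1 c] at this

variable {Ω : Type*} [Fintype Ω] {R : Ω → Ω → Prop} {l m : ℕ}

theorem Srg.param (h : Srg R l m) (hΩ : Fintype.card Ω = 275) : 112 * (111 - l) = 162 * m := by
  classical
  let Γ : SimpleGraph Ω := ⟨R, ⟨h.sy⟩, ⟨h.ir⟩⟩
  have e : ∀ s : Set Ω, Fintype.card s = s.ncard := fun s => by
    rw [← Nat.card_eq_fintype_card, Nat.card_coe_set_eq]
  have : Γ.IsSRGWith 275 112 l m := ⟨hΩ, fun v => by
      rw [← SimpleGraph.card_neighborSet_eq_degree, ← h.val v]; convert e _; rfl,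
    fun v w a => by rw [← h.la v w a]; convert e _; rfl,
    fun v w a b => by rw [← h.mu v w a b]; convert e _; rfl⟩
  have := this.param_eq Γ (by norm_num)
  omega

theorem Srg.lt (h : Srg R l m) (hΩ : Fintype.card Ω = 275) : l < 111 := by
  classical
  by_contra hl
  let N : Ω → Set Ω := fun x => insert x {y | R x y}
  have c1 : ∀ x, (N x).ncard = 113 := fun x => by
    rw [Set.ncard_insert_of_notMem (s := {y | R x y}) (h.ir x), h.val]
  have c2 : ∀ x y, y ∈ N x → N x = N y := fun x y hy => by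
    rcases hy with rfl | hy
    · rfl
    · have e1 : insert y {z | R x z ∧ R y z} = {z | R x z} := Set.eq_of_subset_of_ncard_le
        (Set.insert_subset hy fun z hz => hz.1) (by
          rw [Set.ncard_insert_of_notMem (fun a => h.ir y a.2), h.val, h.la x y hy]; omega)
      refine Set.eq_of_subset_of_ncard_le (Set.insert_subset (Or.inr (h.sy _ _ hy)) ?_)
        (by rw [c1, c1])
      rw [← e1]
      exact Set.insert_subset (Or.inl rfl) fun z hz => Or.inr hz.2
  have c3 : ∀ x y, y ∉ N x → Disjoint (N x) (N y) := fun x y hy => Set.disjoint_left.2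
    fun z a b => hy (by rw [c2 x z a, ← c2 y z b]; exact Or.inl rfl)
  have c4 : ∀ s : Set Ω, s.ncard < 275 → ∃ y, y ∉ s := fun s hs => by
    by_contra hc
    push Not at hc
    rw [Set.eq_univ_of_forall hc, Set.ncard_univ, Nat.card_eq_fintype_card] at hs
    omega
  obtain ⟨x, -⟩ := c4 ∅ (by simp)
  obtain ⟨y, hy⟩ := c4 (N x) (by rw [c1]; norm_num)
  have c5 := Set.ncard_union_eq (c3 x y hy)
  rw [c1, c1] at c5
  obtain ⟨z, hz⟩ := c4 (N x ∪ N y) (by omega)
  have c6 := Set.ncard_union_eq (Set.disjoint_union_left.2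
    ⟨c3 x z fun a => hz (Or.inl a), c3 y z fun a => hz (Or.inr a)⟩)
  have c7 := Set.ncard_le_card (N x ∪ N y ∪ N z)
  rw [c6, c5, c1, Nat.card_eq_fintype_card] at c7
  omega

open Classical in
theorem Srg.hoff (h : Srg R 30 56) (hΩ : Fintype.card Ω = 275) (v : Fin 5 → Ω)
    (hv : ∀ i j, i ≠ j → R (v i) (v j)) {y : Ω} (hy : ∀ i, y ≠ v i) :
    ∑ i, (if R (v i) y then 1 else 0 : ℤ) = 2 := by
  let A : Ω → Ω → ℤ := fun u x => if R u x then 1 else 0
  have a0 : ∀ (P : Ω → Prop) [DecidablePred P], ∑ x, (if P x then 1 else 0 : ℤ) = {x | P x}.ncard :=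
    fun P _ => by
      rw [sum_boole, ← Set.ncard_coe_finset]; simp
  have a1 : ∀ u, ∑ x, A u x = 112 := fun u => by rw [a0, h.val]; rfl
  have a2 : ∀ i j, ∑ x, A (v i) x * A (v j) x = if i = j then 112 else 30 := fun i j => by
    simp only [A, ite_zero_mul_ite_zero, mul_one]
    rw [a0]
    split_ifs with e
    · subst e; simp only [and_self]; rw [h.val]; rfl
    · rw [h.la _ _ (hv i j e)]; rfl
  let f : Ω → ℤ := fun x => (∑ i, A (v i) x - 2) ^ 2
  have a3 : ∑ x, f x = 20 := by
    have e : ∀ x, f x = ∑ i, ∑ j, A (v i) x * A (v j) x - 4 * ∑ i, A (v i) x + 4 := fun x => by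
      rw [← sum_mul_sum]; simp only [f]; ring
    have e1 : ∑ x, ∑ i, ∑ j, A (v i) x * A (v j) x = 1160 := by
      rw [sum_comm, sum_congr rfl fun i _ => sum_comm.trans (sum_congr rfl fun j _ => a2 i j)]
      decide
    have e2 : ∑ x, ∑ i, A (v i) x = 560 := by
      rw [sum_comm, sum_congr rfl fun i _ => a1 (v i)]; decide
    rw [sum_congr rfl fun x _ => e x, sum_add_distrib, sum_sub_distrib, ← mul_sum, e1, e2]
    simp [hΩ]
  have a4 : Function.Injective v := fun i j e => by
    by_contra hc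
    exact h.ir _ (e ▸ hv i j hc)
  have a5 : ∀ j, f (v j) = 4 := fun j => by
    have : ∀ i, A (v i) (v j) = if i = j then 0 else 1 := fun i => by
      simp only [A]
      by_cases e : i = j
      · rw [if_pos e, e, if_neg (h.ir _)]
      · rw [if_neg e, if_pos (hv i j e)]
    simp only [f, this]
    clear this; revert j; decide
  have a6 : ∑ x ∈ insert y (univ.image v), f x ≤ ∑ x, f x :=
    sum_le_sum_of_subset_of_nonneg (subset_univ _) fun x _ _ => sq_nonneg _
  rw [sum_insert (by simpa using fun i => (hy i).symm), sum_image fun i _ j _ e => a4 e, a3] at a6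
  simp only [a5, sum_const, card_univ, Fintype.card_fin] at a6
  have a7 : f y = 0 := le_antisymm (by simpa using a6) (sq_nonneg _)
  exact sub_eq_zero.1 (pow_eq_zero_iff (by norm_num) |>.1 a7)

theorem conj7 {H : Type*} [Group H] [Finite H] (hH : Nat.card H = 3265920) {K : Subgroup H}
    (hK : 7 ∣ Nat.card K) {s : H} (hs : orderOf s = 7) : ∃ u : H, u⁻¹ * s * u ∈ K := by
  haveI : Fact (Nat.Prime 7) := ⟨by norm_num⟩
  obtain ⟨t, ht⟩ := exists_prime_orderOf_dvd_card' 7 hK
  have c : ∀ x : H, orderOf x = 7 → ∃ P : Sylow 7 H, (P : Subgroup H) = Subgroup.zpowers x :=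
    fun x hx => ⟨Sylow.ofCard (Subgroup.zpowers x) (by
      rw [Nat.card_zpowers, hx, hH, show 3265920 = 7 * 466560 from rfl,
        Nat.factorization_mul (by norm_num) (by norm_num)]
      simp [Nat.factorization_eq_zero_of_not_dvd (show ¬ 7 ∣ 466560 by norm_num),
        Nat.Prime.factorization_self (show Nat.Prime 7 by norm_num)]), rfl⟩
  obtain ⟨P, hP⟩ := c t (by rw [Subgroup.orderOf_coe, ht])
  obtain ⟨Q, hQ⟩ := c s hs
  obtain ⟨u, hu⟩ := exists_smul_eq H P Q
  have : s ∈ (u • P : Sylow 7 H) := by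
    rw [hu]; show s ∈ (Q : Subgroup H); rw [hQ]; exact Subgroup.mem_zpowers s
  refine ⟨u, (Subgroup.zpowers_le.2 t.2 : Subgroup.zpowers (t : H) ≤ K) ?_⟩
  rw [← hP]
  simpa [MulAut.smul_def] using (Subgroup.mem_pointwise_smul_iff_inv_smul_mem.1 this)

end Cfsg.Agent.H7.Mc
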