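import Mathlib
import Cfsg.Agent.H7.Mc2
import Cfsg.Agent.S0280

/-!
The McLaughlin graph on `Fin 275`: the actions of `U₄(3)` and the automorphism group.
-/

set_option autoImplicit false
set_option maxRecDepth 100000

namespace Cfsg.Agent.H7.Mc

open Cfsg.Agent.H14 MulAction
open Cfsg.Agent.H25 (ev ev_cons ev_append Lc)
open scoped Pointwise

abbrev X := Fin 275
abbrev C : Coord X := finCoord 274

/-- adjacency -/
def ad (x y : X) : Prop := (adj x).testBit y = true

def Aut0 : Subgroup (Equiv.Perm X) where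
  carrier := {g | ∀ x y, ad (g x) (g y) ↔ ad x y}
  one_mem' _ _ := Iff.rfl
  mul_mem' {a b} ha hb x y := (ha (b x) (b y)).trans (hb x y)
  inv_mem' {a} ha x y := by simpa using (ha (a⁻¹ x) (a⁻¹ y)).symm

theorem mset {m : ℕ} {x : X} : x ∈ C.set m ↔ m.testBit x = true := C.mem_set

theorem ncard_mask (m : ℕ) : {x : X | m.testBit x = true}.ncard = popc 275 m := by
  rw [← show (C.set m).card = popc 275 m from C.card_set m, ← Set.ncard_coe_finset]
  congr 1; ext x; exact mset.symm

theorem tD (x : ℕ) : mD.testBit x = true ↔ x < 112 := by rw [k6.2.1, testBit_ones, decide_eq_true_iff]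

theorem tE (x : ℕ) : mE.testBit x = true ↔ 112 ≤ x ∧ x < 274 := by
  rw [k6.2.2.2.2.2.2.2, Nat.testBit_xor, k6.2.1, testBit_ones, testBit_ones]
  by_cases a : x < 112 <;> by_cases b : x < 274 <;> simp [a, b] <;> omega

theorem adD (x : X) : ad 274 x ↔ x.val < 112 := by
  rw [← tD, ← k6.1]; rfl

theorem k5' (x : X) : popc 275 (adj x) = 112 ∧ ¬ ad x x ∧ ∀ y : X, ad x y → ad y x := by
  have h := allLt_iff.1 k5 x x.2
  rw [force_eq, band_iff, band_iff, nbeq_iff, bnot_iff, tb_eq, allLt_iff] at h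
  refine ⟨h.1, h.2.1, fun y hy => ?_⟩
  have := nbeq_iff.1 (h.2.2 y y.2)
  rw [bitN_eq, bitN_eq, show (adj x).testBit y = true from hy] at this
  unfold ad
  cases hb : (adj y).testBit x
  · rw [hb] at this; exact absurd this (by decide)
  · rfl

theorem ad_val (x : X) : {y | ad x y}.ncard = 112 := (ncard_mask _).trans (k5' x).1

theorem card_Aut0 : Nat.card Aut0 ≤ 1796256000 := by
  have := C.card_fixS_le (K := Aut0) (fixOK := fixOK) (fun g hg P s hP h => by
    rcases bor_iff.1 h with h | h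
    · exact C.smul_set_of_subset hP (by rw [nbeq_iff.1 h, Nat.and_self])
    · obtain ⟨v, hv, h⟩ := anyLt_iff.1 h
      rw [band_iff, nbeq_iff, tb_eq] at h
      have e : g ⟨v, hv⟩ = ⟨v, hv⟩ := hP _ (mset.2 h.1)
      ext y
      obtain ⟨y, rfl⟩ := g.surjective y
      rw [h.2]
      refine (Finset.smul_mem_smul_finset_iff g).trans (mset.trans (Iff.trans ?_ mset.symm))
      have := hg ⟨v, hv⟩ y
      rw [e] at this
      exact this.symm) stp 0 _ kD
  rwa [C.fixS_zero] at this

noncomputable def cP (i a : ℕ) : Equiv.Perm X := if a < 7 then C.perm 9 (cT i a) else 1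
noncomputable def pP (i : ℕ) : Equiv.Perm X := C.perm 9 (pT i)

theorem k1 {i a : ℕ} (hi : i < 4) (ha : a < 7) : autOK (cT i a) = true := by
  have : allLt 7 (fun a => force (cT i a) autOK) = true := by
    interval_cases i
    exacts [k10, k11, k12, k13]
  exact (force_eq _ _).symm.trans (allLt_iff.1 this a ha)

theorem val_perm {T : ℕ} (h : isPerm 275 9 T = true) (x : X) : (C.perm 9 T x).val = get 9 T x :=
  C.idx_perm h x

theorem img_iff {T m m' : ℕ} (h : isPerm 275 9 T = true) (e : img 275 9 T m = m') (x : X) :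
    m'.testBit (C.perm 9 T x) = true ↔ m.testBit x = true := by
  have := C.perm_smul_set h m
  rw [show C.n = 275 from rfl, e] at this
  rw [← mset, ← mset, ← this]
  exact Finset.smul_mem_smul_finset_iff (C.perm 9 T)

theorem cP_mem {i : ℕ} (hi : i < 4) (a : ℕ) : cP i a ∈ Aut0 ⊓ stabilizer (Equiv.Perm X) (274 : X) := by
  unfold cP
  split_ifs with ha
  · have h := k1 hi ha
    rw [autOK, band_iff, band_iff, nbeq_iff, allLt_iff] at h
    refine ⟨fun x y => ?_, Fin.ext ((val_perm h.1 _).trans h.2.1)⟩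
    have := h.2.2 x x.2
    rw [force_eq, nbeq_iff] at this
    unfold ad
    rw [val_perm h.1 x]
    exact img_iff h.1 this y
  · exact one_mem _

theorem ev_val {i : ℕ} (hi : i < 4) (w : List ℕ) (hw : allL w (fun a => Nat.ble a 6) = true) (x : X) :
    (ev (cP i) w x).val = trw (cT i) w x := by
  induction w with
  | nil => rfl
  | cons a w ih =>
    rw [allL_cons, Bool.and_eq_true, nble_iff] at hw
    rw [ev_cons, Equiv.Perm.mul_apply, cP, if_pos (by omega),
      val_perm (band_iff.1 (k1 hi (by omega))).1, ih hw.2]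
    rfl

section
variable {H : Type*} [Group H] {i : ℕ} {g : ℕ → H} {ρ : H →* Equiv.Perm X}

theorem map_ev (hg : ∀ a, ρ (g a) = cP i a) (w : List ℕ) : ρ (ev g w) = ev (cP i) w := by
  induction w with
  | nil => exact map_one ρ
  | cons a w ih => rw [ev_cons, ev_cons, map_mul, ih, hg]

theorem orb_spec (hi : i < 4) (hg : ∀ a, ρ (g a) = cP i a) {W : List (List ℕ)} {p c : X} {M : ℕ}
    (h : orbOK i W p c M = true) (y : X) (hy : M.testBit y = true) :
    ∃ k, ρ k p = p ∧ ρ k c = y := by
  rw [orbOK, band_iff, allL_iff] at h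
  obtain ⟨L, S, -, -, h3, h4, -, h6⟩ := orbRun_list h.2
    (fun n => ∃ k, ρ k p = p ∧ (ρ k c).val = n) ⟨1, by simp, by simp⟩ (by
      rintro _ ⟨k, e1, rfl⟩ f hf
      obtain ⟨w, hw, rfl⟩ := List.mem_map.1 hf
      have := band_iff.1 (h.1 w hw)
      refine ⟨ev g w * k, ?_, ?_⟩
      · rw [map_mul, Equiv.Perm.mul_apply, e1, map_ev hg]
        exact Fin.ext ((ev_val hi w this.1 p).trans (nbeq_iff.1 this.2))
      · rw [map_mul, Equiv.Perm.mul_apply, map_ev hg, ev_val hi w this.1])
  rw [← nbeq_iff.1 h6, h3] at hy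
  obtain ⟨k, e1, e2⟩ := h4 y (by simpa using hy)
  exact ⟨k, e1, Fin.ext e2⟩

end

theorem pP_spec {i : ℕ} (hi : i < 4) : (∀ x : X, (pP i x).val < 112 ↔ x.val < 112) ∧
    (∀ x y : X, x.val < 112 → y.val < 112 → (ad (pP i x) (pP i y) ↔ ad x y)) ∧
    (∀ x : X, x.val < 112 → ((ts i).testBit (x / 7) = true ↔ ad 112 (pP i x))) ∧
    ∀ a, ∀ x : X, x.val < 112 → cP i a (pP i x) = pP i (cP 0 a x) := by
  have h := allLt_iff.1 k4 i hi
  rw [force_eq, band_iff, band_iff, nbeq_iff, allLt_iff] at h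
  have a1 : ∀ x : X, (pP i x).val < 112 ↔ x.val < 112 := fun x => by
    rw [← tD, ← tD]; exact img_iff h.1 h.2.1 x
  refine ⟨a1, fun x y hx hy => ?_, fun x hx => ?_, fun a x hx => ?_⟩
  · have := (band_iff.1 (h.2.2 x hx)).1
    rw [force_eq, nbeq_iff, ← val_perm h.1] at this
    have := img_iff h.1 this y
    change Nat.testBit (_ &&& _) (pP i y) = true ↔ Nat.testBit (_ &&& _) _ = true at this
    rw [Nat.testBit_and, Nat.testBit_and, (tD _).2 hy, (tD _).2 ((a1 y).2 hy), Bool.and_true,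
      Bool.and_true] at this
    exact this
  · have := nbeq_iff.1 (band_iff.1 (h.2.2 x hx)).2
    rw [bitN_eq, bitN_eq, ← val_perm h.1] at this
    exact Bool.eq_iff_iff.1 ((by decide : ∀ a b : Bool, a.toNat = b.toNat → a = b) _ _ this)
  · unfold cP
    split_ifs with ha
    · refine Fin.ext ?_
      rw [val_perm (band_iff.1 (k1 hi ha)).1, pP, val_perm h.1, val_perm h.1,
        val_perm (band_iff.1 (k1 (by norm_num) ha)).1]
      exact nbeq_iff.1 (allLt_iff.1 (allLt_iff.1 (allLt_iff.1 k3 i hi) a ha) x hx)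
    · rfl

theorem card_U43 {F : Type} [Field F] [Fintype F] (hF : Fintype.card F = 9) :
    Nat.card (PSU 4 F 3) = 3265920 := by
  have h1 := S0280.result (q := 3) hF 4 (by norm_num)
  simp [Finset.prod_range_succ, Nat.even_iff] at h1
  omega

/-- a group with the four actions -/
structure Four (H : Type*) [Group H] (g : ℕ → H) (ρ : ℕ → H →* Equiv.Perm X) : Prop where
  card : Nat.card H = 3265920
  gen : ∀ i < 4, ∀ a, ρ i (g a) = cP i a
  top : ∀ K : Subgroup H, (∀ a, g a ∈ K) → ∀ x, x ∈ K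
  sev : ev g ws ^ 7 = 1

theorem four {F : Type} [Field F] [Fintype F] (hF : Fintype.card F = 9) {H : Type*} [Group H]
    (e : H ≃* PSU 4 F 3) : ∃ g ρ, Four H g ρ := by
  obtain ⟨φ, h0⟩ := H28.fm9 hF
  have : Finite (PSU 4 F 3) := Nat.finite_of_card_ne_zero (by rw [card_U43 hF]; norm_num)
  obtain ⟨_, g, pt, M⟩ := H28.md_su h0 (q := 3) hF (by norm_num) H28.U43.hm (by decide) H28.U43.hAm
    H28.U43.hInj (card_U43 hF)
  have key : ∀ i, ∃ ψ : PSU 4 F 3 →* Equiv.Perm X, i < 4 → ∀ a, ψ (g a) = cP i a := fun i => by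
    by_cases hi : i < 4
    · obtain ⟨ψ, hψ⟩ := H25.exists_hom (H28.U43.relP M) (H28.U43.htb M).1 (cP i)
        (fun w hw => ⟨H28.U43.hP M w hw, Equiv.ext fun x => Fin.ext (by
          have := band_iff.1 (H14.allL_iff.1 (H14.allLt_iff.1 k2 i hi) w hw)
          exact (ev_val hi w this.1 x).trans (nbeq_iff.1 (allLt_iff.1 this.2 x x.2)))⟩) (fun a ha => by
          have : 7 ≤ a := by
            by_contra hc
            rw [Nat.testBit_two_pow_sub_one] at ha
            exact hc (by simpa using ha)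
          exact ⟨M.one a this, if_neg (by omega)⟩)
      exact ⟨ψ, fun _ => hψ⟩
    · exact ⟨1, fun h => absurd h hi⟩
  choose ψ hψ using key
  have me : ∀ w, ev (fun a => e.symm (g a)) w = e.symm (ev g w) := fun w => by
    induction w with
    | nil => exact (map_one _).symm
    | cons a w ih => rw [ev_cons, ev_cons, map_mul, ih]
  refine ⟨fun a => e.symm (g a), fun i => (ψ i).comp e.toMonoidHom,
    (Nat.card_congr e.toEquiv).trans (card_U43 hF), fun i hi a => by simpa using hψ i hi a,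
    fun K hK x => ?_, ?_⟩
  · have : Lc 127 g ≤ K.comap e.symm.toMonoidHom := (Subgroup.closure_le _).2 (by
      rintro _ ⟨a, -, rfl⟩; exact hK a)
    rw [show Lc 127 g = ⊤ from (H28.U43.htb M).1] at this
    simpa using this (Subgroup.mem_top (e x))
  · have := H28.U43.hchk M _ kE
    simp only [ev_append] at this
    rw [me, ← map_pow, ← map_one e.symm, ← this]
    congr 1
    simp only [pow_succ, pow_zero, one_mul]

end Cfsg.Agent.H7.Mc
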