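import Mathlib
import Cfsg.Agent.H7.Mc3

/-!
Subgroups of index 112 in `U₄(3)`, and the first subconstituent.
-/

set_option autoImplicit false
set_option maxRecDepth 100000

namespace Cfsg.Agent.H7.Mc

open Cfsg.Agent.H14 MulAction

structure Act (H : Type*) [Group H] [MulAction H X] : Prop where
  card : Nat.card H = 3265920
  hA : ∀ (h : H) x y, ad (h • x) (h • y) ↔ ad x y
  hD : ∀ (h : H) (x : X), (h • x).val < 112 ↔ x.val < 112
  hT : ∀ y : X, y.val < 112 → ∃ k : H, k • (0 : X) = y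
  h1 : ∀ y : X, y.val < 112 → ad 0 y → ∃ k : H, k • (0 : X) = 0 ∧ k • (2 : X) = y
  h2 : ∀ y : X, y.val < 112 → y ≠ 0 → ¬ ad 0 y → ∃ k : H, k • (0 : X) = 0 ∧ k • (1 : X) = y

def N1 : Set X := {y | y.val < 112 ∧ ad 0 y}
def N2 : Set X := {y | y.val < 112 ∧ y ≠ 0 ∧ ¬ ad 0 y}

theorem tN1 (y : X) : (adj 0 &&& mD).testBit y = true ↔ y ∈ N1 := by
  rw [Nat.testBit_and, Bool.and_eq_true, tD, and_comm]; rfl

theorem xor_iff {a d : ℕ} {p y : X} (hp : ¬ a.testBit p = true) (hd : d.testBit p = true) :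
    ((a &&& d) ^^^ d ^^^ 2 ^ p.val).testBit y = true ↔
      d.testBit y = true ∧ y ≠ p ∧ ¬ a.testBit y = true := by
  rw [Nat.testBit_xor, Nat.testBit_xor, Nat.testBit_and, Nat.testBit_two_pow]
  by_cases e : y = p
  · subst e; simp [hp, hd]
  · have : p.val ≠ y.val := fun h => e (Fin.ext h.symm)
    cases a.testBit y <;> cases d.testBit y <;> simp [this, e]

theorem tN2 (y : X) : ((adj 0 &&& mD) ^^^ mD ^^^ 1).testBit y = true ↔ y ∈ N2 := by
  refine (xor_iff (p := 0) (k5' 0).2.1 ((tD _).2 (by decide))).trans ?_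
  rw [tD]; rfl

theorem cN1 : N1.ncard = 30 := by
  rw [← k6.2.2.1, ← ncard_mask]; congr 1; ext y; exact (tN1 y).symm

theorem cN2 : N2.ncard = 81 := by
  rw [← k6.2.2.2.1, ← ncard_mask]; congr 1; ext y; exact (tN2 y).symm

theorem cD : {y : X | y.val < 112}.ncard = 112 := by
  refine Eq.trans ?_ (ad_val 274); congr 1; ext y; exact (adD y).symm

theorem c02 : {y : X | y.val < 112 ∧ ad 0 y ∧ ad 2 y}.ncard = 2 := by
  rw [← k6.2.2.2.2.1, ← ncard_mask]; congr 1; ext y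
  simp only [Set.mem_setOf_eq]
  rw [Nat.testBit_and, Nat.testBit_and, Bool.and_eq_true, Bool.and_eq_true, tD, and_comm]; rfl

variable {H : Type*} [Group H] [MulAction H X] (A : Act H)
include A

theorem Act.fin : Finite H := Nat.finite_of_card_ne_zero (by rw [A.card]; norm_num)

theorem Act.o1 {q : X} (hq : q ∈ N1) : orbit (stabilizer H (0 : X)) q = N1 := by
  have : orbit (stabilizer H (0 : X)) (2 : X) = N1 := Set.ext fun y => mem_orbit_sub.trans
    ⟨fun ⟨k, a, b⟩ => b ▸ ⟨(A.hD _ _).2 (by decide), by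
      have := (A.hA k 0 2).2 ((tN1 2).1 (by decide +kernel)).2
      rwa [show k • (0 : X) = 0 from a] at this⟩, fun h => A.h1 y h.1 h.2⟩
  rw [← this] at hq ⊢
  exact orbit_eq_iff.2 hq

theorem Act.o2 {q : X} (hq : q ∈ N2) : orbit (stabilizer H (0 : X)) q = N2 := by
  have : orbit (stabilizer H (0 : X)) (1 : X) = N2 := Set.ext fun y => mem_orbit_sub.trans
    ⟨fun ⟨k, a, b⟩ => b ▸ ⟨(A.hD _ _).2 (by decide), fun e => absurd
      (MulAction.injective k (e.trans (show k • (0 : X) = 0 from a).symm)) (by decide), fun h => by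
      rw [← show k • (0 : X) = 0 from a, A.hA] at h
      exact ((tN2 1).1 (by decide +kernel)).2.2 h⟩, fun h => A.h2 y h.1 h.2.1 h.2.2⟩
  rw [← this] at hq ⊢
  exact orbit_eq_iff.2 hq

theorem Act.c0 : Nat.card (stabilizer H (0 : X)) = 29160 := by
  have h := card_eq_orbit_mul_inf (⊤ : Subgroup H) (0 : X)
  have : orbit (⊤ : Subgroup H) (0 : X) = {y : X | y.val < 112} := Set.ext fun y => mem_orbit_sub.trans
    ⟨fun ⟨k, _, b⟩ => b ▸ (A.hD _ _).2 (by decide), fun h => let ⟨k, e⟩ := A.hT y h; ⟨k, trivial, e⟩⟩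
  rw [this, cD, top_inf_eq, Subgroup.card_top, A.card] at h
  omega

theorem Act.eq0 {K S : Subgroup H} (hK : Nat.card K = 29160) (hS : Nat.card S = 729) (h1 : S ≤ K)
    (h2 : S ≤ stabilizer H (0 : X)) : K = stabilizer H (0 : X) := by
  have := A.fin
  have a1 := card_eq_orbit_mul_inf K (0 : X)
  obtain ⟨n, a2⟩ := Subgroup.card_dvd_of_le (le_inf h1 h2)
  have a3 : (orbit K (0 : X)).ncard ≤ 40 := Nat.le_of_dvd (by norm_num) ⟨n, by
    rw [hK, a2, hS] at a1; nlinarith⟩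
  have a4 : ∀ q ∈ orbit K (0 : X), q.val < 112 := by
    rintro _ ⟨k, rfl⟩; exact (A.hD k.1 0).2 (by decide)
  have a5 : ∀ (L : Subgroup H), L ≤ K → ∀ q ∈ orbit K (0 : X), orbit L q ⊆ orbit K (0 : X) :=
    fun L hL q hq => (orbit_subset_of_le hL q).trans (orbit_eq_iff.2 hq).le
  have a6 : ∀ q ∈ orbit K (0 : X), q ≠ 0 → ad 0 q := fun q hq h0 => by
    by_contra hc
    have b1 := card_eq_orbit_mul_inf (stabilizer H (0 : X)) q
    rw [A.o2 ⟨a4 q hq, h0, hc⟩, cN2, A.c0] at b1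
    have b2 := Subgroup.card_dvd_of_le (inf_le_inf_right (stabilizer H q) h2)
    have b3 := Subgroup.card_dvd_of_le (inf_le_left : S ⊓ stabilizer H q ≤ S)
    rw [show Nat.card ↥(stabilizer H (0 : X) ⊓ stabilizer H q) = 360 by omega] at b2
    rw [hS] at b3
    have b4 := Nat.le_of_dvd (by norm_num) (show _ ∣ 9 from Nat.dvd_gcd b2 b3)
    have b5 := card_eq_orbit_mul_inf S q
    have b6 := Set.ncard_le_ncard (a5 S h1 q hq)
    have := Nat.mul_le_mul (b6.trans a3) b4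
    omega
  refine Subgroup.eq_of_le_of_card_ge (fun k hk => ?_) (by rw [hK, A.c0])
  by_contra hc
  have hq : k • (0 : X) ∈ orbit K (0 : X) := ⟨⟨k, hk⟩, rfl⟩
  have hq1 : k • (0 : X) ∈ N1 := ⟨a4 _ hq, a6 _ hq hc⟩
  obtain ⟨u, e1, e2⟩ := A.h1 _ hq1.1 hq1.2
  have b1 : {y : X | y.val < 112 ∧ ad 0 y ∧ ad (k • 0) y}.ncard = 2 :=
    (ncard_smul_congr u fun y => by
      rw [← e2, A.hD, A.hA]; nth_rw 1 [← e1]; rw [A.hA]).trans c02
  have b2 : (orbit K (0 : X)).ncard ≤ 4 := by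
    refine (Set.ncard_le_ncard (t := insert 0 (insert (k • 0)
      {y : X | y.val < 112 ∧ ad 0 y ∧ ad (k • 0) y})) fun r hr => ?_).trans ?_
    · by_cases r0 : r = 0
      · exact Or.inl r0
      by_cases r1 : r = k • 0
      · exact Or.inr (Or.inl r1)
      refine Or.inr (Or.inr ⟨a4 r hr, a6 r hr r0, ?_⟩)
      have := a6 (k⁻¹ • r) (a5 K le_rfl r hr ⟨⟨k⁻¹, inv_mem hk⟩, rfl⟩) fun e => r1 (by
        rw [← e, smul_inv_smul])
      rwa [← A.hA k, smul_inv_smul] at this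
    · refine (Set.ncard_insert_le _ _).trans (Nat.succ_le_succ ((Set.ncard_insert_le _ _).trans ?_))
      omega
  have b3 := card_eq_orbit_mul_inf (K ⊓ stabilizer H (0 : X)) (k • (0 : X))
  have b4 := (Set.ncard_le_ncard (a5 (K ⊓ stabilizer H (0 : X)) inf_le_left _ hq)).trans b2
  have b5 := card_eq_orbit_mul_inf (stabilizer H (0 : X)) (k • (0 : X))
  rw [A.o1 hq1, cN1, A.c0] at b5
  have b6 := Subgroup.card_le_of_le (inf_le_inf_right (stabilizer H (k • (0 : X)))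
    (inf_le_right : K ⊓ stabilizer H (0 : X) ≤ _))
  have b7 := Nat.mul_le_mul b2 (b3.le.trans (Nat.mul_le_mul b4 b6))
  omega

theorem Act.stab {Ω : Type*} [MulAction H Ω] {b : Ω} (hb : (orbit H b).ncard = 112) :
    ∃ u : H, stabilizer H (u • b) = stabilizer H (0 : X) := by
  have := A.fin
  haveI : Fact (Nat.Prime 3) := ⟨by norm_num⟩
  have cK : ∀ u : H, Nat.card (stabilizer H (u • b)) = 29160 := fun u => by
    have h := Nat.card_congr (orbitProdStabilizerEquivGroup H (u • b))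
    rw [Nat.card_prod, Nat.card_coe_set_eq, orbit_smul, hb, A.card] at h
    omega
  obtain ⟨S, hS, hS'⟩ : ∃ S ≤ stabilizer H ((1 : H) • b), Nat.card S = 3 ^ 6 := by
    obtain ⟨S, h⟩ := Sylow.exists_subgroup_card_pow_prime (G := stabilizer H ((1 : H) • b)) 3
      (n := 6) (by rw [cK]; norm_num)
    exact ⟨S.map (Subgroup.subtype _), Subgroup.map_subtype_le _,
      (Subgroup.card_map_of_injective Subtype.val_injective).trans h⟩
  let D : SubMulAction H X := ⟨{y | y.val < 112}, fun h _ hx => (A.hD h _).2 hx⟩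
  obtain ⟨p, hp⟩ := (IsPGroup.of_card hS').nonempty_fixed_point_of_prime_not_dvd_card D (by
    rw [show Nat.card D = 112 from (Nat.card_coe_set_eq _).trans cD]; norm_num)
  obtain ⟨u, hu⟩ := A.hT p p.2
  refine ⟨u⁻¹, A.eq0 (S := S.map (MulAut.conj u⁻¹).toMonoidHom) (cK _)
    ((Subgroup.card_map_of_injective (MulAut.conj u⁻¹).injective).trans hS') ?_ ?_⟩
  · rintro _ ⟨x, hx, rfl⟩
    have : x • b = b := by simpa using hS hx
    simp [mul_smul, this]
  · rintro _ ⟨x, hx, rfl⟩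
    have : x • (p : X) = p := congrArg Subtype.val (hp ⟨x, hx⟩)
    simp [mul_smul, hu, this, inv_smul_eq_iff]

/-- the first subconstituent -/
theorem Act.first {Ω : Type*} [Fintype Ω] [MulAction H Ω] (hΩ : Fintype.card Ω = 275) {a b : Ω}
    {R : Ω → Ω → Prop} {l m : ℕ} (hs : Srg R l m) (hR : ∀ (g : H) x y, R (g • x) (g • y) ↔ R x y)
    (ha : ∀ y, R a y ↔ y ∈ orbit H b) : Srg R 30 56 ∧ ∃ δ : X → Ω,
      (∀ x : X, x.val < 112 → R a (δ x)) ∧ (∀ (h : H) (x : X), x.val < 112 → δ (h • x) = h • δ x) ∧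
      (∀ x y : X, x.val < 112 → y.val < 112 → δ x = δ y → x = y) ∧
      ∀ x y : X, x.val < 112 → y.val < 112 → (R (δ x) (δ y) ↔ ad x y) := by
  classical
  obtain ⟨u, hu⟩ := A.stab (b := b) (by
    rw [← hs.val a]; congr 1; ext y; exact (ha y).symm)
  rw [← orbit_smul u b] at ha
  generalize u • b = b at hu ha
  have e0 : ∀ h k : H, h • (0 : X) = k • 0 ↔ h • b = k • b := fun h k => by
    rw [← inv_smul_eq_iff, ← mul_smul, ← inv_smul_eq_iff, ← mul_smul, ← mem_stabilizer_iff,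
      ← mem_stabilizer_iff, hu]
  let δ : X → Ω := fun x => if h : ∃ k : H, k • (0 : X) = x then h.choose • b else b
  have e1 : ∀ k : H, δ (k • 0) = k • b := fun k => by
    have h : ∃ k' : H, k' • (0 : X) = k • 0 := ⟨k, rfl⟩
    exact (dif_pos h).trans ((e0 _ _).1 h.choose_spec)
  have e2 : ∀ (h : H) (x : X), x.val < 112 → δ (h • x) = h • δ x := fun h x hx => by
    obtain ⟨k, rfl⟩ := A.hT x hx
    rw [← mul_smul, e1, e1, mul_smul]
  have e3 : ∀ x y : X, x.val < 112 → y.val < 112 → δ x = δ y → x = y := fun x y hx hy e => by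
    obtain ⟨k, rfl⟩ := A.hT x hx
    obtain ⟨k', rfl⟩ := A.hT y hy
    rw [e1, e1] at e
    exact (e0 _ _).2 e
  have e4 : ∀ x : X, x.val < 112 → R a (δ x) := fun x hx => by
    obtain ⟨k, rfl⟩ := A.hT x hx
    rw [e1]; exact (ha _).2 ⟨k, rfl⟩
  have e5 : δ 0 = b := by simpa using e1 1
  let T : Set X := {x | x.val < 112 ∧ R b (δ x)}
  have e6 : T.ncard = l := by
    rw [← hs.la a b (e5 ▸ e4 0 (by decide))]
    refine Set.ncard_congr (fun x _ => δ x) (fun x hx => ⟨e4 x hx.1, hx.2⟩)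
      (fun x y hx hy => e3 x y hx.1 hy.1) fun y hy => ?_
    obtain ⟨k, rfl⟩ := (ha y).1 hy.1
    exact ⟨k • 0, ⟨(A.hD _ _).2 (by decide), by rw [e1]; exact hy.2⟩, e1 k⟩
  have e7 : ∀ x ∈ T, orbit (stabilizer H (0 : X)) x ⊆ T := by
    rintro x hx _ ⟨⟨k, hk⟩, rfl⟩
    refine ⟨(A.hD k x).2 hx.1, ?_⟩
    have := (hR k _ _).2 hx.2
    rw [← hu] at hk
    rwa [show k • b = b from hk, ← e2 k x hx.1] at this
  have e8 : ∀ x ∈ T, x ∈ N1 ∨ x ∈ N2 := fun x hx => by
    by_cases h : ad 0 x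
    · exact Or.inl ⟨hx.1, h⟩
    · exact Or.inr ⟨hx.1, fun e => hs.ir b (by have := hx.2; rwa [e, e5] at this), h⟩
  have p1 := hs.param hΩ
  have p2 := hs.lt hΩ
  have e9 : T = N1 := by
    by_cases h2 : ∃ x ∈ T, x ∈ N2
    · obtain ⟨x, hx, h2⟩ := h2
      have s2 := A.o2 h2 ▸ e7 x hx
      by_cases h1 : ∃ x ∈ T, x ∈ N1
      · obtain ⟨y, hy, h1⟩ := h1
        have := Set.ncard_le_ncard (Set.union_subset (A.o1 h1 ▸ e7 y hy) s2)
        rw [Set.ncard_union_eq (Set.disjoint_left.2 fun z a b => b.2.2 a.2), cN1, cN2] at this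
        omega
      · have : T = N2 := Set.Subset.antisymm (fun y hy => (e8 y hy).resolve_left fun h => h1 ⟨y, hy, h⟩) s2
        rw [this, cN2] at e6
        omega
    · by_cases h1 : ∃ x ∈ T, x ∈ N1
      · obtain ⟨y, hy, h1⟩ := h1
        exact Set.Subset.antisymm (fun y hy => (e8 y hy).resolve_right fun h => h2 ⟨y, hy, h⟩)
          (A.o1 h1 ▸ e7 y hy)
      · have : T = ∅ := Set.eq_empty_of_forall_notMem fun y hy =>
          (e8 y hy).elim (fun h => h1 ⟨y, hy, h⟩) fun h => h2 ⟨y, hy, h⟩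
        rw [this, Set.ncard_empty] at e6
        omega
  rw [e9, cN1] at e6
  subst e6
  obtain rfl : m = 56 := by omega
  refine ⟨hs, δ, e4, e2, e3, fun x y hx hy => ?_⟩
  obtain ⟨k, rfl⟩ := A.hT x hx
  obtain ⟨y, rfl⟩ := MulAction.surjective k y
  rw [A.hD] at hy
  rw [e1, e2 k y hy, hR, A.hA]
  exact ⟨fun h => (e9.le ⟨hy, h⟩).2, fun h => (e9.ge ⟨hy, h⟩).2⟩

end Cfsg.Agent.H7.Mc
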