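import Mathlib
import Cfsg.Agent.H7.Mc4

/-!
Uniqueness of the graph of a rank three group of degree 275 with point stabiliser `U₄(3)`.
-/

set_option autoImplicit false
set_option maxRecDepth 100000

namespace Cfsg.Agent.H7.Mc

open Cfsg.Agent.H14 MulAction
open Cfsg.Agent.H25 (ev)

theorem rowinj {e f : X} (he : 112 ≤ e.val ∧ e.val < 274) (hf : 112 ≤ f.val ∧ f.val < 274)
    (h : ∀ x : X, x.val < 112 → (ad e x ↔ ad f x)) : e = f := by
  have h1 := allLt_iff.1 kC (e.val - 112) (by omega)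
  rw [force_eq] at h1
  rcases bor_iff.1 (allLt_iff.1 h1 (f.val - 112) (by omega)) with h2 | h2
  · exact Fin.ext (by have := nbeq_iff.1 h2; omega)
  · refine absurd (nbeq_iff.2 (Nat.eq_of_testBit_eq fun j => ?_)) (bnot_iff.1 h2)
    rw [Nat.add_sub_cancel' he.1, Nat.add_sub_cancel' hf.1]
    change Nat.testBit (_ &&& _) _ = Nat.testBit (_ &&& _) _
    rw [Nat.testBit_and, Nat.testBit_and]
    cases hj : mD.testBit j
    · simp
    · have := (tD j).1 hj
      rw [Bool.and_true, Bool.and_true]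
      exact Bool.eq_iff_iff.2 (h ⟨j, by omega⟩ this)

def M2 : Set X := {y | (112 ≤ y.val ∧ y.val < 274) ∧ y ≠ 112 ∧ ¬ ad 112 y}

theorem tM2 (y : X) : ((adj 112 &&& mE) ^^^ mE ^^^ two 112).testBit y = true ↔ y ∈ M2 := by
  rw [two_eq]
  refine (xor_iff (p := 112) (k5' 112).2.1 ((tE _).2 (by decide))).trans ?_
  rw [tE]; rfl

theorem cM2 : (M2 ∪ {y : X | y.val < 112 ∧ ad 112 y}).ncard = 161 := by
  have a : M2.ncard = 105 := by
    rw [← k6.2.2.2.2.2.2.1, ← ncard_mask]; congr 1; ext y; exact (tM2 y).symm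
  have b : {y : X | y.val < 112 ∧ ad 112 y}.ncard = 56 := by
    rw [← k6.2.2.2.2.2.1, ← ncard_mask]; congr 1; ext y
    simp only [Set.mem_setOf_eq]
    rw [Nat.testBit_and, Bool.and_eq_true, tD, and_comm]; rfl
  rw [Set.ncard_union_eq (Set.disjoint_left.2 fun z a b => a.2.2 b.2), a, b]

variable {H : Type*} [Group H] {g : ℕ → H} {ρ : ℕ → H →* Equiv.Perm X} (F : Four H g ρ)
include F

theorem Four.aut {i : ℕ} (hi : i < 4) (h : H) :
    ρ i h ∈ Aut0 ⊓ stabilizer (Equiv.Perm X) (274 : X) :=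
  Subgroup.mem_comap.1 (F.top (Subgroup.comap (ρ i) _)
    (fun a => by rw [Subgroup.mem_comap, F.gen i hi]; exact cP_mem hi a) h)

theorem Four.hD {i : ℕ} (hi : i < 4) (h : H) (x : X) : (ρ i h x).val < 112 ↔ x.val < 112 := by
  rw [← adD, ← adD, ← (F.aut hi h).1 274 x, show ρ i h 274 = 274 from (F.aut hi h).2]

theorem Four.hE {i : ℕ} (hi : i < 4) (h : H) {x : X} (hx : 112 ≤ x.val ∧ x.val < 274) :
    112 ≤ (ρ i h x).val ∧ (ρ i h x).val < 274 := by
  have h1 := F.hD hi h x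
  have h2 : ρ i h x ≠ 274 := fun e => by
    have := (ρ i h).injective (e.trans (show ρ i h 274 = 274 from (F.aut hi h).2).symm)
    rw [this] at hx
    exact absurd hx.2 (by decide)
  have h3 : (ρ i h x).val ≠ 274 := fun e => h2 (Fin.ext e)
  have := (ρ i h x).2
  omega

theorem Four.cp {i : ℕ} (hi : i < 4) (h : H) :
    ∀ x : X, x.val < 112 → ρ i h (pP i x) = pP i (ρ 0 h x) :=
  F.top ⟨⟨⟨{h | ∀ x : X, x.val < 112 → ρ i h (pP i x) = pP i (ρ 0 h x)}, fun {a b} ha hb x hx => by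
      rw [map_mul, map_mul, Equiv.Perm.mul_apply, Equiv.Perm.mul_apply, hb x hx,
        ha _ ((F.hD (by norm_num) b x).2 hx)]⟩, fun x _ => by simp⟩, fun {a} ha x hx => by
      have := ha _ ((F.hD (i := 0) (by norm_num) a⁻¹ x).2 hx)
      rw [map_inv, Equiv.Perm.inv_eq_iff_eq, this]; simp⟩
    (fun a x hx => by rw [F.gen i hi, F.gen 0 (by norm_num)]; exact (pP_spec hi).2.2.2 a x hx) h

theorem Four.act : @Act H _ (MulAction.compHom X (ρ 0)) :=
  letI := MulAction.compHom X (ρ 0)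
  ⟨F.card, fun h => (F.aut (by norm_num) h).1, F.hD (by norm_num), fun y hy =>
    let ⟨k, _, e⟩ := orb_spec (p := 274) (c := 0) (by norm_num) (F.gen 0 (by norm_num)) k7.2.2 y
      ((tD _).2 hy); ⟨k, e⟩,
    fun y h1 h2 => orb_spec (p := 0) (c := 2) (by norm_num) (F.gen 0 (by norm_num)) k7.1 y
      ((tN1 _).2 ⟨h1, h2⟩),
    fun y h1 h2 h3 => orb_spec (p := 0) (c := 1) (by norm_num) (F.gen 0 (by norm_num)) k7.2.1 y
      ((tN2 _).2 ⟨h1, h2, h3⟩)⟩

variable {Ω : Type*} [Fintype Ω] [MulAction H Ω] (hΩ : Fintype.card Ω = 275) {a c : Ω}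
  {R : Ω → Ω → Prop} (hs : Srg R 30 56) (hR : ∀ (g : H) x y, R (g • x) (g • y) ↔ R x y)
  (ha : ∀ h : H, h • a = a) (hc : c ≠ a ∧ ¬ R a c) {δ : X → Ω}
  (d1 : ∀ x : X, x.val < 112 → R a (δ x))
  (d4 : ∀ x y : X, x.val < 112 → y.val < 112 → (R (δ x) (δ y) ↔ ad x y))
include hΩ hs hR ha hc d1 d4

theorem Four.hemi (h2 : (orbit H c).ncard = 162)
    (d2 : ∀ (h : H) (x : X), x.val < 112 → δ (ρ 0 h x) = h • δ x) :
    ∃ i < 4, ∃ u : H, ∀ x : X, x.val < 112 → (R (u • c) (δ x) ↔ ad 112 (pP i x)) := by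
  classical
  have : Finite H := Nat.finite_of_card_ne_zero (by rw [F.card]; norm_num)
  have s1 : ∀ x : X, x.val < 112 → (ρ 0 (ev g ws) x).val = 7 * (x / 7) + (x + 1) % 7 := fun x hx => by
    rw [map_ev (F.gen 0 (by norm_num)), ev_val (by norm_num) ws (by decide +kernel)]
    exact nbeq_iff.1 (allLt_iff.1 k9 x hx)
  haveI : Fact (Nat.Prime 7) := ⟨by norm_num⟩
  obtain ⟨u, hu⟩ := conj7 F.card (K := stabilizer H c) (by
    have h := Nat.card_congr (orbitProdStabilizerEquivGroup H c)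
    rw [Nat.card_prod, Nat.card_coe_set_eq, h2, F.card] at h
    omega) (orderOf_eq_prime F.sev fun e => by
      have := s1 0 (by decide)
      rw [e, map_one] at this
      exact absurd this (by decide))
  have y1 : ev g ws • u • c = u • c := by
    have : (u⁻¹ * ev g ws * u) • c = c := hu
    rwa [mul_smul, mul_smul, inv_smul_eq_iff] at this
  have y2 : u • c ≠ a := fun e => hc.1 (MulAction.injective u (e.trans (ha u).symm))
  have y3 : ¬ R a (u • c) := fun h => hc.2 ((hR u _ _).1 (by rwa [ha]))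
  have s2 : ∀ n, ∀ x : X, x.val = n → n < 112 → (R (u • c) (δ x) ↔ R (u • c) (δ (C.pt (7 * (n / 7))))) := by
    intro n
    induction n with
    | zero => intro x hx _; rw [show x = C.pt (7 * (0 / 7)) from Fin.ext hx]
    | succ n ih =>
      intro x hx hn
      by_cases h7 : (n + 1) % 7 = 0
      · rw [show x = C.pt (7 * ((n + 1) / 7)) from
          Fin.ext (Eq.trans (by omega) (C.idx_pt _ (show _ < 275 by omega)).symm)]
      · have e := s1 ⟨n, by omega⟩ (by show n < 112; omega)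
        rw [show x = ρ 0 (ev g ws) ⟨n, by omega⟩ from Fin.ext (by rw [e]; simp only; omega),
          d2 _ _ (by show n < 112; omega), show (n + 1) / 7 = n / 7 by omega,
          ← ih ⟨n, by omega⟩ rfl (by omega)]
        nth_rw 1 [← y1]
        exact hR _ _ _
  let t := Nat.ofBits fun k : Fin 16 => decide (R (u • c) (δ (C.pt (7 * k))))
  have t1 : ∀ x : X, x.val < 112 → (t.testBit (x / 7) = true ↔ R (u • c) (δ x)) := fun x hx => by
    rw [Nat.testBit_ofBits_lt _ _ (by omega), s2 _ x rfl hx, decide_eq_true_iff]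
  have t2 : ∀ x : X, x.val < 112 → (bitN t (x / 7) : ℤ) = if R (δ x) (u • c) then 1 else 0 :=
    fun x hx => by
      rw [bitN_eq]
      split_ifs with h
      · rw [(t1 x hx).2 (hs.sy _ _ h)]; rfl
      · rw [Bool.eq_false_iff.2 fun e => h (hs.sy _ _ ((t1 x hx).1 e))]; rfl
  rcases bor_iff.1 (allLt2_iff.1 kA t (Nat.ofBits_lt_two_pow _)) with h | h
  · refine absurd (allL_iff.2 fun q hq => nbeq_iff.2 ?_) (bnot_iff.1 h)
    obtain ⟨p, q, r, s⟩ := q
    obtain ⟨b1, b2, b3, b4, b5, b6, b7, b8, b9, b0⟩ := kB _ hq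
    simp only [tb_eq] at b1 b2 b3 b4 b5 b6 b7 b8 b9 b0
    lift p to X using by omega
    lift q to X using by omega
    lift r to X using by omega
    lift s to X using by omega
    have c1 := d1 p b1; have c2 := d1 q b2; have c3 := d1 r b3; have c4 := d1 s b4
    have c5 := (d4 p q b1 b2).2 b5; have c6 := (d4 p r b1 b3).2 b6; have c7 := (d4 p s b1 b4).2 b7
    have c8 := (d4 q r b2 b3).2 b8; have c9 := (d4 q s b2 b4).2 b9; have c0 := (d4 r s b3 b4).2 b0
    have := hs.hoff hΩ ![a, δ p, δ q, δ r, δ s] (fun i j hij => by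
      fin_cases i <;> fin_cases j <;>
        first | exact absurd rfl hij | assumption | exact hs.sy _ _ (by assumption)) (y := u • c)
      (fun i => by
        fin_cases i
        exacts [y2, fun e => y3 (e ▸ c1), fun e => y3 (e ▸ c2), fun e => y3 (e ▸ c3),
          fun e => y3 (e ▸ c4)])
    rw [Fin.sum_univ_five] at this
    have h5 : (if R a (u • c) then 1 else 0 : ℤ) + (if R (δ p) (u • c) then 1 else 0) +
      (if R (δ q) (u • c) then 1 else 0) + (if R (δ r) (u • c) then 1 else 0) +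
      (if R (δ s) (u • c) then 1 else 0) = 2 := by convert this <;> rfl
    rw [if_neg y3, ← t2 p b1, ← t2 q b2, ← t2 r b3, ← t2 s b4] at h5
    simp only
    omega
  · obtain ⟨i, hi, e⟩ := anyLt_iff.1 h
    exact ⟨i, hi, u, fun x hx => by rw [← t1 x hx, nbeq_iff.1 e]; exact (pP_spec hi).2.2.1 x hx⟩

theorem Four.glue {i : ℕ} (hi : i < 4) (d2 : ∀ (h : H) (x : X), x.val < 112 → δ (ρ i h x) = h • δ x)
    (d3 : ∀ x y : X, x.val < 112 → y.val < 112 → δ x = δ y → x = y)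
    (d5 : ∀ x : X, x.val < 112 → (R c (δ x) ↔ ad 112 x)) :
    ∃ Φ : X ≃ Ω, ∀ x y, R (Φ x) (Φ y) ↔ ad x y := by
  classical
  have k := band_iff.1 (allLt_iff.1 k8 i hi)
  have o1 : ∀ e : X, 112 ≤ e.val ∧ e.val < 274 → ∃ k, ρ i k 112 = e := fun e he =>
    let ⟨k, _, e⟩ := orb_spec (p := 274) (c := 112) hi (F.gen i hi) k.1 e ((tE _).2 he); ⟨k, e⟩
  have o2 : ∀ e ∈ M2, ∃ k, ρ i k 112 = 112 ∧ ρ i k 113 = e := fun e he =>
    orb_spec (p := 112) (c := 113) hi (F.gen i hi) k.2 e ((tM2 _).2 he)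
  have o3 : ∀ k, 112 ≤ (ρ i k 112).val ∧ (ρ i k 112).val < 274 := fun k => F.hE hi k (by decide)
  let Φ : X → Ω := fun x => if x.val < 112 then δ x else
    if h : ∃ k, ρ i k 112 = x then h.choose • c else a
  have tri : ∀ x : X, (x.val < 112 ∧ Φ x = δ x) ∨ (∃ k, ρ i k 112 = x ∧ Φ x = k • c) ∨
      (x = 274 ∧ Φ x = a) := fun x => by
    by_cases h1 : x.val < 112
    · exact Or.inl ⟨h1, if_pos h1⟩
    · by_cases h2 : ∃ k, ρ i k 112 = x
      · exact Or.inr (Or.inl ⟨_, h2.choose_spec, (if_neg h1).trans (dif_pos h2)⟩)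
      · refine Or.inr (Or.inr ⟨Fin.ext ?_, (if_neg h1).trans (dif_neg h2)⟩)
        by_contra hc
        exact h2 (o1 x ⟨by omega, by have := x.2; change ¬ _ = 274 at hc; omega⟩)
  have y2 : ∀ u : H, u • c ≠ a := fun u e => hc.1 (MulAction.injective u (e.trans (ha u).symm))
  have y3 : ∀ u : H, ¬ R a (u • c) := fun u h => hc.2 ((hR u _ _).1 (by rwa [ha]))
  have p3 : ∀ (k : H) (x : X), x.val < 112 → (R (k • c) (δ x) ↔ ad (ρ i k 112) x) := fun k x hx => by
    obtain ⟨x, rfl⟩ := (ρ i k).surjective x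
    rw [F.hD hi] at hx
    rw [d2 k x hx, hR, d5 x hx, (F.aut hi k).1]
  have p4 : ∀ k l : H, k • c = l • c → ρ i k 112 = ρ i l 112 := fun k l e =>
    rowinj (o3 k) (o3 l) fun x hx => by rw [← p3 k x hx, ← p3 l x hx, e]
  have inj : Function.Injective Φ := fun x y e => by
    rcases tri x with ⟨a1, a2⟩ | ⟨k, a1, a2⟩ | ⟨a1, a2⟩ <;>
      rcases tri y with ⟨b1, b2⟩ | ⟨l, b1, b2⟩ | ⟨b1, b2⟩ <;> rw [a2, b2] at e
    · exact d3 x y a1 b1 e
    · exact absurd (e ▸ d1 x a1) (y3 l)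
    · exact absurd (e ▸ d1 x a1) (hs.ir a)
    · exact absurd (e ▸ d1 y b1) (y3 k)
    · rw [← a1, ← b1, p4 k l e]
    · exact absurd e (y2 k)
    · exact absurd (e ▸ d1 y b1) (hs.ir _)
    · exact absurd e.symm (y2 l)
    · rw [a1, b1]
  have bij : Function.Bijective Φ := inj.bijective_of_nat_card_le (by simp [hΩ])
  have p5 : ∀ k : H, Φ (ρ i k 112) = k • c := fun k => by
    obtain ⟨z, e⟩ := bij.2 (k • c)
    rcases tri z with ⟨a1, a2⟩ | ⟨l, a1, a2⟩ | ⟨a1, a2⟩
    · exact absurd (e ▸ a2 ▸ d1 z a1) (y3 k)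
    · rw [← p4 l k (a2.symm.trans e), a1, e]
    · exact absurd (e.symm.trans a2) (y2 k)
  have p6 : ∀ k : H, ρ i k 112 = 112 → k • c = c := fun k e => by
    rw [← p5, e, ← one_smul H c, ← p5]; simp
  have p7 : ∀ l : H, R c (l • c) → ad 112 (ρ i l 112) := fun l h => by
    by_contra hn
    obtain ⟨k, e1, e2⟩ := o2 _ ⟨o3 l, fun e => hs.ir c (by rwa [p6 l e] at h), hn⟩
    have := Set.ncard_le_ncard (s := Φ '' (M2 ∪ {y : X | y.val < 112 ∧ ad 112 y}))
      (t := {y | R c y}) (by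
        rintro _ ⟨z, hz | hz, rfl⟩
        · obtain ⟨m, f1, f2⟩ := o2 z hz
          have : z = ρ i (m * k⁻¹ * l) 112 := by simp [← e2, f2]
          rw [this, p5, mul_smul]
          have := (hR (m * k⁻¹) _ _).2 h
          rwa [mul_smul m k⁻¹ c, inv_smul_eq_iff.2 (p6 k e1).symm, p6 m f1] at this
        · show R c (if z.val < 112 then _ else _)
          rw [if_pos hz.1]; exact (d5 z hz.1).2 hz.2)
    rw [Set.ncard_image_of_injective _ inj, cM2, hs.val] at this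
    omega
  have p8 : ∀ x y, R (Φ x) (Φ y) → ad x y := fun x y e => by
    rcases tri x with ⟨a1, a2⟩ | ⟨k, a1, a2⟩ | ⟨a1, a2⟩ <;>
      rcases tri y with ⟨b1, b2⟩ | ⟨l, b1, b2⟩ | ⟨b1, b2⟩ <;> rw [a2, b2] at e
    · exact (d4 x y a1 b1).1 e
    · exact (k5' y).2.2 x (b1 ▸ (p3 l x a1).1 (hs.sy _ _ e))
    · exact (k5' y).2.2 x (b1 ▸ (adD x).2 a1)
    · exact a1 ▸ (p3 k y b1).1 e
    · have := p7 (k⁻¹ * l) (by rw [← hR k, mul_smul, smul_inv_smul]; exact e)
      rw [← (F.aut hi k).1, a1] at this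
      simpa [b1] using this
    · exact absurd (hs.sy _ _ e) (y3 k)
    · exact a1 ▸ (adD y).2 b1
    · exact absurd e (y3 l)
    · exact absurd e (hs.ir a)
  refine ⟨Equiv.ofBijective Φ bij, fun x y => ⟨p8 x y, fun h => ?_⟩⟩
  have : {y | R (Φ x) (Φ y)} = {y | ad x y} := Set.eq_of_subset_of_ncard_le (p8 x) (by
    rw [ad_val, ← hs.val (Φ x)]
    exact (Set.ncard_preimage_of_injective_subset_range (s := {y | R (Φ x) y}) inj
      (by rw [bij.2.range_eq]; exact Set.subset_univ _)).ge)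
  exact this.ge h

end Cfsg.Agent.H7.Mc
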