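import Mathlib
import Cfsg.Agent.H7.Mc5
import Cfsg.Agent.S1582
import Cfsg.Agent.H17.LeO

/-!
Rank three groups of degree 275 with point stabiliser `U₄(3)` act on the McLaughlin graph.
-/

set_option autoImplicit false
set_option maxRecDepth 100000

namespace Cfsg.Agent.H7.Mc

open Cfsg.Agent.H14 MulAction

theorem embed {G Ω : Type*} [Group G] [Fintype Ω] [MulAction G Ω] [IsPretransitive G Ω]
    (hΩ : Fintype.card Ω = 275) {a b c : Ω} (hb : (orbit (stabilizer G a) b).ncard = 112)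
    (hc : (orbit (stabilizer G a) c).ncard = 162) {K : Type} [Field K] [Fintype K]
    (hK : Fintype.card K = 9) (e : stabilizer G a ≃* PSU 4 K 3) :
    ∃ f : G →* Aut0, ∀ g, f g = 1 → ∀ x : Ω, g • x = x := by
  obtain ⟨R, l, m, hs, hR, ha, hc'⟩ := rank3 hΩ a b c hb hc
  obtain ⟨g, ρ, F⟩ := four hK e
  have hR' : ∀ (g : stabilizer G a) x y, R (g • x) (g • y) ↔ R x y := fun g => hR g.1
  have hf : ∀ h : stabilizer G a, h • a = a := fun h => h.2
  obtain ⟨hs, δ, d1, d2, d3, d4⟩ := @Act.first _ _ (MulAction.compHom X (ρ 0)) F.act Ω _ _ hΩ a b R l m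
    hs hR' ha
  obtain ⟨i, hi, u, hu⟩ := F.hemi hΩ hs hR' hf hc' d1 d4 hc d2
  obtain ⟨q1, q2, -, -⟩ := pP_spec hi
  have q3 : ∀ x : X, x.val < 112 → ((pP i)⁻¹ x).val < 112 := fun x hx => (q1 _).1 (by simpa using hx)
  obtain ⟨Φ, hΦ⟩ := F.glue hΩ hs hR' hf (c := u • c) (δ := fun x => δ ((pP i)⁻¹ x))
    ⟨fun e => hc'.1 (MulAction.injective u (e.trans (hf u).symm)),
      fun h => hc'.2 ((hR' u _ _).1 (by rwa [hf]))⟩ (fun x hx => d1 _ (q3 x hx))
    (fun x y hx hy => by rw [d4 _ _ (q3 x hx) (q3 y hy), ← q2 _ _ (q3 x hx) (q3 y hy)]; simp) hi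
    (fun h x hx => by
      have := F.cp hi h _ (q3 x hx)
      rw [show (pP i)⁻¹ (ρ i h x) = ρ 0 h ((pP i)⁻¹ x) from
        Equiv.Perm.inv_eq_iff_eq.2 (by simpa using this)]
      exact d2 h _ (q3 x hx))
    (fun x y hx hy e => (pP i)⁻¹.injective (d3 _ _ (q3 x hx) (q3 y hy) e))
    (fun x hx => by rw [hu _ (q3 x hx)]; simp)
  refine ⟨((Equiv.permCongrHom Φ.symm).toMonoidHom.comp (toPermHom G Ω)).codRestrict Aut0
    fun g x y => ?_, fun g h x => ?_⟩
  · rw [← hΦ, ← hΦ, ← hR g (Φ x)]; simp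
  · simpa using congrArg Φ (Equiv.congr_fun (congrArg Subtype.val h) (Φ.symm x))

open H25 H25.Leech H17.LeO in
theorem embed_McL {K : Type} [Field K] [Fintype K] (hK : Fintype.card K = 9) :
    ∃ f : Spor.McL →* Aut0, Function.Injective f := by
  let Y : SubMulAction Leech.Mc L := ⟨Cl fun a _ c => a = 16 ∧ c = -24, fun k _ h =>
    ⟨(g_sq k.1 _).trans h.1, (dt_fix k.2.1 _).trans h.2.1, (dt_fix k.2.2 _).trans h.2.2⟩⟩
  have cY : Nat.card Y = 275 := (Nat.card_coe_set_eq _).trans 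
    (cnt (fun a _ c => a = 16 ∧ c = -24) (n := 275) (by decide +kernel))
  have : Finite Y := Nat.finite_of_card_ne_zero (by omega)
  let _ := Fintype.ofFinite Y
  have : IsPretransitive Leech.Mc Y := ⟨fun x y =>
    let ⟨k, hk, e⟩ := trn K1_Mc fMc (fun a _ c => a = 16 ∧ c = -24) 11 (by decide +kernel)
      x.1 x.2 y.1 y.2
    ⟨⟨k, hk⟩, Subtype.ext e⟩⟩
  have m0 : R 65 ∈ Cl fun a _ c => a = 16 ∧ c = -24 := R_mem (by decide) (by decide +kernel)
  obtain ⟨m1, m2, m3⟩ := mcl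
  let a : Y := ⟨R 65, m0⟩
  have key : ∀ b : Y, b.1 ≠ R 65 → (orbit (stabilizer Leech.Mc a) b).ncard =
      {y | y ∈ Cl (fun a _ c => a = 16 ∧ c = -24) ∧ y ≠ R 65 ∧ dt (R 65) y = dt (R 65) b}.ncard :=
    fun b hb => by
      rw [← Set.ncard_image_of_injective _ Subtype.val_injective]
      congr 1; ext y
      constructor
      · rintro ⟨_, ⟨⟨k, hk⟩, rfl⟩, rfl⟩
        have hk' : k.1 • R 65 = R 65 := congrArg Subtype.val hk
        exact ⟨(k • b).2, fun e => hb (MulAction.injective k.1 (e.trans hk'.symm)), dt_fix hk' _⟩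
      · rintro ⟨h1, h2, h3⟩
        obtain ⟨k, hk, e⟩ := m3 b.1 b.2 y h1 hb h2 h3.symm
        exact ⟨⟨y, h1⟩, ⟨⟨⟨k, hk.1⟩, Subtype.ext hk.2⟩, Subtype.ext e⟩, rfl⟩
  have ne8 : ∀ y, dt (R 65) y = 8 → y ≠ R 65 := fun y h e => by
    rw [e] at h
    have : dt (R 65) (R 65) = 32 := by
      rw [← m0.1]; simp only [dt, dotInt, sqNorm, sq]
    omega
  obtain ⟨b, b1, b2⟩ := Set.nonempty_of_ncard_ne_zero (m1.trans_ne (by norm_num))
  obtain ⟨c, c1, c2, c3⟩ := Set.nonempty_of_ncard_ne_zero (m2.trans_ne (by norm_num))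
  have hu : sqNorm (-W).1 = 48 := by decide +kernel
  obtain ⟨e⟩ := S1582.result (-W) U (R 65) hu (by decide +kernel)
    ⟨m0.1, (sq_sub_iff hu m0.1).2 (by rw [dt_neg, m0.2.2]; rfl), m0.2.1⟩ K hK
  let e0 : stabilizer Leech.Mc a ≃* ↥(St (-W) ⊓ St U ⊓ St (R 65)) :=
    ⟨⟨fun k => ⟨k.1.1, ⟨(g_neg _ _).trans (congrArg Neg.neg k.1.2.2), k.1.2.1⟩,
        congrArg Subtype.val k.2⟩,
      fun k => ⟨⟨k.1, k.2.1.2, neg_injective ((g_neg _ _).symm.trans k.2.1.1)⟩, Subtype.ext k.2.2⟩,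
      fun _ => rfl, fun _ => rfl⟩, fun _ _ => rfl⟩
  obtain ⟨f, hf⟩ := embed (G := Leech.Mc) (Ω := Y) (a := a) (b := ⟨b, b1⟩) (c := ⟨c, c1⟩)
    (Nat.card_eq_fintype_card.symm.trans cY)
    (by rw [key _ (ne8 b b2), ← m1, b2]; congr 1; ext y
        exact and_congr_right fun _ => ⟨fun h => h.2, fun h => ⟨ne8 y h, h⟩⟩)
    (by rw [key _ c2, ← m2, c3]) hK (e0.trans e)
  have := simple_Mc
  refine ⟨f.comp eqMc.symm.toMonoidHom,
    Function.Injective.comp (g := f) ?_ eqMc.symm.injective⟩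
  rcases f.normal_ker.eq_bot_or_eq_top with h | h
  · exact (MonoidHom.ker_eq_bot_iff f).1 h
  · obtain ⟨k, hk⟩ := exists_smul_eq Leech.Mc a ⟨c, c1⟩
    rw [hf k (show k ∈ f.ker from h ▸ Subgroup.mem_top k)] at hk
    exact absurd (congrArg Subtype.val hk).symm c2

theorem eq_small {A : Type*} [Group A] [Finite A] {G H : Subgroup A} [IsSimpleGroup H]
    (hG : Nat.card G = 898128000) (hH : Nat.card H = 898128000) (hA : Nat.card A ≤ 1796256000) :
    G = H := by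
  have h1 := G.card_mul_index
  have h2 : G.index ≤ 2 := by rw [hG] at h1; omega
  have h0 : G.index ≠ 0 := Subgroup.index_ne_zero_of_finite
  have hn : G.Normal := by
    rcases (by omega : G.index = 1 ∨ G.index = 2) with h | h
    · rw [Subgroup.index_eq_one.1 h]; infer_instance
    · exact Subgroup.normal_of_index_eq_two h
  refine (Subgroup.eq_of_le_of_card_ge ?_ (by omega)).symm
  rcases IsSimpleGroup.eq_bot_or_eq_top_of_normal (G.subgroupOf H) inferInstance with h | h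
  · have h3 : (G.subgroupOf H).index ∣ G.index := Subgroup.relIndex_dvd_index_of_normal G H
    rw [h, Subgroup.index_bot] at h3
    have := Nat.le_of_dvd (by omega) h3
    omega
  · exact Subgroup.subgroupOf_eq_top.1 h

end Cfsg.Agent.H7.Mc
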