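import Mathlib
import Cfsg.Prelude.Def_Characters
import Cfsg.Agent.H7.MGroup

/-!
More on primitive characters; groups with abelian Sylow subgroups.
-/

namespace Cfsg.Agent.H7
open Cfsg
open scoped ComplexConjugate commutatorElement

universe u

section AbSyl
variable {G : Type*} [Group G]

/-- All `p`-subgroups are abelian. -/
def AbSyl (G : Type*) [Group G] : Prop :=
  ∀ (p : ℕ), p.Prime → ∀ P : Subgroup G, IsPGroup p P → ∀ a ∈ P, ∀ b ∈ P, a * b = b * a

theorem abSyl_of_sylow
    (h : ∀ (p : ℕ) [Fact p.Prime] (P : Sylow p G), ∀ a ∈ P, ∀ b ∈ P, a * b = b * a) :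
    AbSyl G := fun p hp P hP a ha b hb => by
  have := Fact.mk hp
  obtain ⟨S, hS⟩ := hP.exists_le_sylow
  exact h p S a (hS ha) b (hS hb)

theorem AbSyl.of_injective (h : AbSyl G) {H : Type*} [Group H] (f : H →* G)
    (hf : Function.Injective f) : AbSyl H := fun p hp P hP a ha b hb =>
  hf (by rw [map_mul, map_mul]; exact h p hp _ (hP.map f) _ ⟨a, ha, rfl⟩ _ ⟨b, hb, rfl⟩)

theorem AbSyl.of_surjective [Finite G] (h : AbSyl G) {H : Type*} [Group H] (f : G →* H)
    (hf : Function.Surjective f) : AbSyl H := by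
  have := Finite.of_surjective f hf
  refine abSyl_of_sylow fun p _ P a ha b hb => ?_
  obtain ⟨S, rfl⟩ := Sylow.mapSurjective_surjective hf p P
  obtain ⟨a, ha', rfl⟩ := ha
  obtain ⟨b, hb', rfl⟩ := hb
  rw [← map_mul, ← map_mul, h p Fact.out S S.isPGroup' a ha' b hb']

theorem AbSyl.comm_of_nilpotent [Finite G] (h : AbSyl G) [hG : Group.IsNilpotent G] (a b : G) :
    a * b = b * a := by
  obtain ⟨ϕ⟩ := ((Group.isNilpotent_of_finite_tfae (G := G)).out 0 4).mp hG
  obtain ⟨a, rfl⟩ := ϕ.surjective a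
  obtain ⟨b, rfl⟩ := ϕ.surjective b
  rw [← map_mul, ← map_mul]
  congr 1
  funext p P
  exact Subtype.ext (h p (Nat.prime_of_mem_primeFactors p.2) P P.isPGroup' _ (a p P).2 _ (b p P).2)

end AbSyl

variable {G : Type u} [Group G] [Finite G]

/-- If an induced character restricts irreducibly to `K`, then `G = KU`. -/
theorem exists_mul_of_res_ind_irr {U K : Type*} [Group U] [Finite U] [Group K] [Finite K]
    {ι : U →* G} (hι : Function.Injective ι) {k : K →* G} (hk : IsNE k) {θ : U → ℂ}
    (hθ : IsCharacter U θ) (h : IsIrrCharacter K (fun x => ind ι θ (k x))) (g : G) :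
    ∃ u x, g = k x * ι u := by
  have := hk.normal
  let T : Subgroup G := k.range ⊔ ι.range
  have hT1 : ∀ u, ι u ∈ T := fun u => Subgroup.mem_sup_right ⟨u, rfl⟩
  have hT2 : ∀ x, k x ∈ T := fun x => Subgroup.mem_sup_left ⟨x, rfl⟩
  have e : ind T.subtype (ind (ι.codRestrict T hT1) θ) = ind ι θ := by rw [ind_ind]; rfl
  have hψ : IsIrrCharacter G (ind ι θ) := irr_of_irr_comp k (char_ind ι hθ) h
  have hη := irr_of_irr_ind T.subtype_injective (char_ind (ι.codRestrict T hT1) hθ) (e ▸ hψ)
  set η := ind (ι.codRestrict T hT1) θ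
  obtain ⟨φ, hφ, h1⟩ := exists_irr_under (k.codRestrict T hT2) hη
  have h2 : ip (fun x : T => ind ι θ (T.subtype x)) η ≠ 0 := by
    rw [← ip_ind_right _ _ (ind_cf _ _), e, ip_irr_self hψ]; exact one_ne_zero
  have h3 := irr_eq_of_ip_ne_zero h hφ
    (ip_comp_comp_ne_zero T.subtype (k.codRestrict T hT2) (irr_char hψ) hη (irr_char hφ) h2 h1)
  obtain ⟨m, hm⟩ := ip_char_nat (char_comp (k.codRestrict T hT2) (irr_char hη)) (irr_char hφ)
  obtain ⟨a, ha0, ha⟩ := irr_one_pos hη
  obtain ⟨b, hb0, hb⟩ := irr_one_pos hφ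
  have h4 := degree_le_of_ip (char_comp (k.codRestrict T hT2) (irr_char hη)) hφ hm
    (a := a) (by rw [map_one]; exact ha) hb
  have h5 := ind_apply_one T.subtype_injective η
  rw [e, Subgroup.range_subtype, ha] at h5
  have h6 := congrFun h3 1
  simp only [map_one] at h6
  rw [h6, hb, ← Nat.cast_mul, Nat.cast_inj] at h5
  have hm0 : 0 < m := Nat.pos_of_ne_zero (by rintro rfl; exact h1 (by simpa using hm))
  have h7 : T.index = 1 := by
    have := T.index_ne_zero_of_finite
    have : T.index * a ≤ 1 * a := by nlinarith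
    have := Nat.le_of_mul_le_mul_right this ha0
    omega
  have hg : g ∈ T := by rw [Subgroup.index_eq_one.mp h7]; trivial
  rw [← SetLike.mem_coe, Subgroup.normal_mul] at hg
  obtain ⟨_, ⟨x, rfl⟩, _, ⟨u, rfl⟩, rfl⟩ := hg
  exact ⟨u, x, rfl⟩

/-- A solvable normal subgroup with abelian Sylow subgroups of a group with a faithful primitive
character is central. -/
theorem IsPrim.le_center_of_abSyl {χ : G → ℂ} (hp : IsPrim χ) (hχ : IsIrrCharacter G χ)
    (hf : H6.charKer χ = ⊥) (M : Subgroup G) [M.Normal] [Group.IsSolvable M] (hM : AbSyl M) :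
    M ≤ Subgroup.center G := by
  have := H2.fittingSubgroup_map_subtype_normal M
  have := H2.fittingSubgroup_isNilpotent (G := M)
  have h1 := hp.le_center hχ hf ((fittingSubgroup M).map M.subtype) (by
    rintro _ ⟨a, ha, rfl⟩ _ ⟨b, hb, rfl⟩
    have := (hM.of_injective _ (fittingSubgroup M).subtype_injective).comm_of_nilpotent
      ⟨a, ha⟩ ⟨b, hb⟩
    exact congrArg (fun x : fittingSubgroup M => ((x : M) : G)) this)
  intro m hm
  refine h1 ⟨⟨m, hm⟩, H2.centralizer_fittingSubgroup_le fun x hx => Subtype.ext ?_, rfl⟩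
  exact (Subgroup.mem_center_iff.mp (h1 ⟨x, hx, rfl⟩) m).symm

/-- A primitive character restricting irreducibly to a solvable normal subgroup with abelian Sylow
subgroups is linear. -/
theorem IsPrim.one_eq_one_of_abSyl {χ : G → ℂ} (hp : IsPrim χ) (hχ : IsIrrCharacter G χ)
    {M : Type*} [Group M] [Finite M] [Group.IsSolvable M] (hM : AbSyl M) {k : M →* G}
    [k.range.Normal] (h : IsIrrCharacter M (fun x => χ (k x))) : χ 1 = 1 := by
  obtain ⟨_, β, hβ, h1, h2⟩ := exists_faithful_deflate hχ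
  set π := QuotientGroup.mk' (H6.charKer χ)
  have hπ : Function.Surjective π := QuotientGroup.mk'_surjective _
  have hp' : IsPrim β := IsPrim.of_comp hπ (h1 ▸ hp)
  have hn : (π.comp k).range.Normal := by
    rw [MonoidHom.range_comp]; exact Subgroup.Normal.map inferInstance π hπ
  have hs := (π.comp k).rangeRestrict_surjective
  have : Group.IsSolvable (π.comp k).range := Group.isSolvable_of_surjective hs
  have h3 := hp'.le_center_of_abSyl hβ h2 (π.comp k).range (hM.of_surjective _ hs)
  have h4 : IsIrrCharacter (π.comp k).range (fun x => β x) :=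
    irr_of_irr_comp (π.comp k).rangeRestrict (char_comp (Subgroup.subtype _) (irr_char hβ))
      (by rw [h1] at h; exact h)
  have := irr_one_eq_one_of_comm
    (fun a b => Subtype.ext (Subgroup.mem_center_iff.mp (h3 b.2) a)) h4
  rw [h1]; simpa using this

end Cfsg.Agent.H7
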