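import Mathlib
import Cfsg.Agent.H7.Rv0
import Cfsg.Agent.H25.RuOA

/-! The Rudvalis graph: computations. -/

set_option autoImplicit false
set_option maxRecDepth 100000

namespace Cfsg.Agent.H7.Rv

open Cfsg.Agent.H14

theorem v0 : val 0 16 H25.RuO.T = true := by decide +kernel
theorem v1 : val 16 16 H25.RuO.T = true := by decide +kernel
theorem v2 : val 32 15 H25.RuO.T = true := by decide +kernel
theorem v3 : val 47 15 H25.RuO.T = true := by decide +kernel
theorem ksw : H25.allRange (fun x => band (small (sw 3 x)) (Nat.beq (tr (sw 3 x) x) 1831)) 0 4060 = true := by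
  decide +kernel
theorem kps : go ws finB ps 13 = true := by decide +kernel

end Cfsg.Agent.H7.Rv
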