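import Mathlib
import Cfsg.Agent.H7.Rv0


/-! The Rudvalis graph: computations. -/

set_option autoImplicit false
set_option maxRecDepth 100000

namespace Cfsg.Agent.H7.Rv

open Cfsg.Agent.H14

theorem kpt : go wt finB pt 192 = true := by decide +kernel
theorem kca : allL (LC ++ LC.map (· ++ ii)) caseOK = true := by decide +kernel

end Cfsg.Agent.H7.Rv
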