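import Mathlib
import Cfsg.Agent.H7.Rv0


/-! The Rudvalis graph: computations. -/

set_option autoImplicit false
set_option maxRecDepth 100000

namespace Cfsg.Agent.H7.Rv

open Cfsg.Agent.H14

theorem kpa : go [] (fun Fx => allL sepL fun p => mem p Fx) pa 35942400 = true := by decide +kernel
theorem ksep : key sepL (fun h => injRun h 4060 0) = true := by decide +kernel

end Cfsg.Agent.H7.Rv
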