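import Mathlib
import Cfsg.Agent.H7.Rv0

/-! The Rudvalis graph: small computations. -/

set_option autoImplicit false
set_option maxRecDepth 100000

namespace Cfsg.Agent.H7.Rv

open Cfsg.Agent.H14
open Cfsg.Agent.H25 (forceL)

noncomputable def un (n : ℕ) (M : ℕ → ℕ) (b : ℕ) : ℕ :=
  Nat.rec (motive := fun _ => ℕ) 0 (fun j ih => Bool.rec ih (Nat.lor (M j) ih) (tb b j)) n
noncomputable def exOK (n : ℕ) (M : ℕ → ℕ) (q : ℕ → Bool) : Bool :=
  allLt (two n) fun b => force (un n M b) fun U =>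
    bor (bnot (q U)) (allLt n fun i => bor (bnot (tb b i)) (Nat.beq U (M i)))
noncomputable def dv (N U : ℕ) : Bool := Nat.beq (Nat.mod N (popc 4060 U)) 0
noncomputable def ptn (n : ℕ) (M r : ℕ → ℕ) (W : List (List ℕ)) (T f : ℕ) : Bool :=
  band (Nat.beq (Nat.lor T (two f)) (Nat.lor (un n M (Nat.sub (two n) 1)) (two f)))
    (allLt n fun i => band (band (tb T (r i)) (band (bnot (Nat.beq (r i) f)) (Nat.ble (r i) 4059)))
      (band (tb (M i) (r i)) (orbW W (r i) fun S _ => Nat.beq S (M i))))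
noncomputable def mH (i : ℕ) : ℕ := nth [mD, mE] i
noncomputable def rH (i : ℕ) : ℕ := nth [803, 476] i
noncomputable def nd (l : List ℕ) : Bool :=
  List.rec (motive := fun _ => Bool) true (fun a l ih => band (bnot (mem a l)) ih) l
noncomputable def ky (f : ℕ → ℕ) : ℕ :=
  Nat.add (f 409) (Nat.mul 4096 (Nat.add (f 569) (Nat.mul 4096 (Nat.add (f 3029) (Nat.mul 4096 (f 803))))))

theorem cH : fixW gH [1831] = true ∧ ptn 2 mH rH gH (Nat.sub (two 4060) 1) 1831 = true ∧
    exOK 2 mH (dv 35942400) = true := by decide +kernel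
theorem cP : fixW gP [1831, 803] = true ∧ ptn 4 mP rP gP mD 803 = true ∧ exOK 4 mP (dv 20480) = true ∧
    ptn 2 (fun i => mP (4 + i)) (fun i => rP (4 + i)) gP mE 803 = true ∧
    exOK 2 (fun i => mP (4 + i)) (dv 20480) = true := by decide +kernel
theorem cK : fixW gK [1831, 476] = true ∧ ptn 5 mK rK gK mE 476 = true ∧
    exOK 5 mK (fun U => band (dv 15600 U) (bor (bnot (tb U 1216)) (Nat.ble (popc 4060 U) 300))) = true := by
  decide +kernel
theorem cN : popc 4060 mD = 1755 ∧ popc 4060 mE = 2304 ∧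
    (∀ i < 6, popc 4060 (mP i) = [10, 80, 640, 1024, 1024, 1280].getD i 0) ∧
    (∀ i < 5, popc 4060 (mK i) = [78, 300, 300, 650, 975].getD i 0) ∧ tb (mK 2) (rK 1) = false ∧
    tb mE 476 = true ∧ tb mE 1216 = true ∧ tb mE 1560 = true ∧ tb mD 1831 = false ∧ tb mE 1831 = false ∧
    tb mE 803 = false := by
  decide +kernel
theorem cT : fixW [tq, io, ii] [1831] = true ∧ tr tq 45 = 803 ∧
    allLt 4060 (fun x => bor (bnot (tb (mP 0) x)) (bor (bnot (tb (mP 0) (tr tq x))) (Nat.beq x 1129))) = true ∧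
    fixW [ws, wt] [1831, 476, 1216, 1560] = true ∧ eqW (pw ws 13) [] = true ∧ eqW ws [] = false ∧
    eqW (pw wt 4) [] = true ∧ eqW (pw wt 2) [] = false ∧ eqW (ws ++ wt) (wt ++ pw ws 5) = true ∧
    eqW (wt ++ io) (io ++ pw wt 3) = true ∧ eqW (io ++ ii) [] = true := by decide +kernel
theorem cL : fixW LC [1831] = true ∧ allL LC (fun w => eqW (wt ++ w) (w ++ wt)) = true ∧ LC.length = 192 ∧
    forceL (LC.map fun w => ky (tr w)) nd = true ∧ allL sepL (fun p => Nat.ble p 4059) = true := by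
  decide +kernel

end Cfsg.Agent.H7.Rv
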