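import Mathlib
import Cfsg.Agent.H7.Rv4
import Cfsg.Agent.H7.Rv5

/-! The Rudvalis graph: words as group elements, orbits. -/

set_option autoImplicit false
set_option maxRecDepth 100000

namespace Cfsg.Agent.H7.Rv

open Cfsg.Agent.H14 MulAction
open Cfsg.Agent.H25 (forceL forceL_eq)

abbrev X := Fin 4060
def ms (m : ℕ) : Set X := {x | m.testBit x.val = true}

theorem ncard_ms (m : ℕ) : (ms m).ncard = popc 4060 m := by
  rw [popc_eq, ← Set.ncard_coe_finset, ← Set.ncard_image_of_injective _ Fin.val_injective]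
  congr 1; ext i
  simp only [Set.mem_image, Finset.coe_filter, Finset.mem_range, Set.mem_ofPred_eq]
  exact ⟨fun ⟨x, h, e⟩ => e ▸ ⟨x.2, h⟩, fun h => ⟨⟨i, h.1⟩, h.2, rfl⟩⟩

theorem tr_cons (a : ℕ) (w : List ℕ) (i : ℕ) : tr (a :: w) i = tr w (get 12 (tab a) i) := force_eq _ _
theorem tr_append (u v : List ℕ) : ∀ i, tr (u ++ v) i = tr v (tr u i) := by
  induction u with
  | nil => intro i; rfl
  | cons a u ih => intro i; rw [List.cons_append, tr_cons, tr_cons, ih]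
theorem wL_eq (W : List (List ℕ)) : ∀ k, wL W k = k (W.map tr) := by
  induction W with
  | nil => intro k; rfl
  | cons w W ih => intro k; exact (forceL_eq _ _).trans (ih _)
theorem mem_iff {x : ℕ} {l : List ℕ} : mem x l = true ↔ x ∈ l := by
  rw [mem, anyL_iff]
  exact ⟨fun ⟨a, h, e⟩ => nbeq_iff.1 e ▸ h, fun h => ⟨x, h, nbeq_iff.2 rfl⟩⟩
theorem nd_sound {l : List ℕ} (h : nd l = true) : l.Nodup := by
  induction l with
  | nil => exact List.nodup_nil
  | cons a l ih =>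
    have := band_iff.1 h
    exact List.nodup_cons.2 ⟨fun e => by simpa [mem_iff.2 e] using bnot_iff.1 this.1, ih this.2⟩
theorem fixW_iff {W : List (List ℕ)} {ps : List ℕ} (h : fixW W ps = true) {w : List ℕ} (hw : w ∈ W) :
    small w = true ∧ ∀ p ∈ ps, tr w p = p :=
  let k := band_iff.1 (allL_iff.1 h w hw)
  ⟨k.1, fun p hp => nbeq_iff.1 (allL_iff.1 k.2 p hp)⟩
theorem un_iff {M : ℕ → ℕ} {b y : ℕ} (n : ℕ) :
    (un n M b).testBit y = true ↔ ∃ j < n, b.testBit j = true ∧ (M j).testBit y = true := by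
  induction n with
  | zero => simp [un]
  | succ n ih =>
    have e : un (n + 1) M b = Bool.rec (un n M b) (M n ||| un n M b) (tb b n) := rfl
    rw [e, tb_eq]
    cases h : b.testBit n
    · rw [ih]
      exact ⟨fun ⟨j, a, c⟩ => ⟨j, by omega, c⟩, fun ⟨j, a, c⟩ => ⟨j, by
        by_contra; obtain rfl : j = n := by omega
        simp [h] at c, c⟩⟩
    · rw [Nat.testBit_or, Bool.or_eq_true, ih]
      exact ⟨fun o => o.elim (fun c => ⟨n, by omega, h, c⟩) fun ⟨j, a, c⟩ => ⟨j, by omega, c⟩,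
        fun ⟨j, a, c⟩ => by
          by_cases e : j = n
          · exact Or.inl (e ▸ c.2)
          · exact Or.inr ⟨j, by omega, c⟩⟩

section
variable {H : Type*} [Group H] [MulAction H X]

def Rep (a : H) (w : List ℕ) : Prop := ∀ x : X, (a⁻¹ • x).val = tr w x.val

theorem Rep.one : Rep (1 : H) [] := fun x => by simp; rfl
theorem Rep.mul {a b : H} {u v : List ℕ} (h : Rep a u) (k : Rep b v) : Rep (a * b) (u ++ v) :=
  fun x => by rw [mul_inv_rev, mul_smul, k, h, tr_append]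
theorem Rep.pow {a : H} {u : List ℕ} (h : Rep a u) : ∀ n, Rep (a ^ n) (pw u n)
  | 0 => by rw [pow_zero]; exact Rep.one
  | n + 1 => by rw [pow_succ']; exact h.mul (h.pow n)
theorem Rep.fix {a : H} {u : List ℕ} (h : Rep a u) {x : X} (e : tr u x.val = x.val) : a • x = x :=
  (inv_smul_eq_iff.1 (Fin.ext ((h x).trans e))).symm
theorem Rep.eqW {a : H} {u v : List ℕ} (h : Rep a u) (k : Rep a v) : eqW u v = true :=
  allL_iff.2 fun b hb => nbeq_iff.2 (by
    have : b < 4060 := by simp [BB] at hb; omega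
    exact (h ⟨b, this⟩).symm.trans (k ⟨b, this⟩))
theorem Rep.eq (hB : ∀ y : H, (∀ x : X, x.val ∈ BB → y • x = x) → y = 1) {a b : H} {u v : List ℕ}
    (h : Rep a u) (k : Rep b v) (e : Rv.eqW u v = true) : a = b :=
  (eq_of_mul_inv_eq_one (hB (b * a⁻¹) fun x hx => by
    rw [mul_smul, show a⁻¹ • x = b⁻¹ • x from
      Fin.ext ((h x).trans ((nbeq_iff.1 (allL_iff.1 e _ hx)).trans (k x).symm)), smul_inv_smul])).symm

theorem orbW_sound (s : Set H) {W : List (List ℕ)} (h1 : ∀ w ∈ W, ∃ a ∈ s, Rep a w)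
    (h2 : ∀ a ∈ s, ∃ w ∈ W, Rep a w) (c : X) {k : ℕ → ℕ → Bool} (h : orbW W c.val k = true) :
    ∃ S, orbit (Subgroup.closure s) c = ms S ∧ k S (ms S).ncard = true := by
  rw [orbW, wL_eq] at h
  obtain ⟨L, S, a1, a2, a3, a4, a5, a6⟩ := orbRun_list h
    (fun n => ∃ x ∈ orbit (Subgroup.closure s) c, x.val = n) ⟨c, mem_orbit_self c, rfl⟩ (by
      rintro _ ⟨x, hx, rfl⟩ f hf
      obtain ⟨w, hw, rfl⟩ := List.mem_map.1 hf
      obtain ⟨a, ha, r⟩ := h1 w hw
      obtain ⟨g, hg, rfl⟩ := mem_orbit_sub.1 hx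
      exact ⟨_, mem_orbit_sub.2 ⟨a⁻¹ * g, mul_mem (inv_mem (Subgroup.subset_closure ha)) hg,
        mul_smul _ _ _⟩, r _⟩)
  simp only [List.map_id'] at a2 a3 a5
  refine ⟨S, Set.Subset.antisymm ?_ fun y hy => ?_, ?_⟩
  · rintro _ ⟨⟨g, hg⟩, rfl⟩
    rw [← Subgroup.closure_inv] at hg
    refine smul_mem_of_closed (Set.toFinite (ms S)) (fun g hg x hx => ?_) hg c ((a3 _).2 a1)
    obtain ⟨w, hw, r⟩ := h2 g⁻¹ hg
    have := r x
    rw [inv_inv] at this
    exact (a3 _).2 (this ▸ a5 _ ((a3 _).1 hx) _ (List.mem_map_of_mem hw))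
  · obtain ⟨x, hx, e⟩ := a4 _ ((a3 _).1 hy)
    exact Fin.ext e ▸ hx
  · rw [← Set.ncard_image_of_injective _ Fin.val_injective, show Fin.val '' ms S = ↑L.toFinset from ?_,
      Set.ncard_coe_finset, List.toFinset_card_of_nodup a2]
    · exact a6
    ext i
    simp only [Set.mem_image, List.coe_toFinset, Set.mem_ofPred_eq]
    exact ⟨fun ⟨x, h, e⟩ => e ▸ (a3 _).1 h, fun h => let ⟨x, _, e⟩ := a4 i h;
      ⟨x, (a3 _).2 (e ▸ h), e⟩⟩

def px (n : ℕ) : X := ⟨n % 4060, Nat.mod_lt _ (by norm_num)⟩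

theorem exact {n T : ℕ} {M r : ℕ → ℕ} {W : List (List ℕ)} {q : ℕ → Bool} {f : X}
    (h1 : ∀ w ∈ W, ∃ a : H, Rep a w) (hp : ptn n M r W T f.val = true) (hc : exOK n M q = true)
    (hf : ∀ g : H, g • f = f) (hT : ∀ g : H, ∀ x ∈ ms T, g • x ∈ ms T)
    (hq : ∀ (x : X) U, orbit H x = ms U → q U = true) :
    (∀ y ∈ ms T, y = f ∨ ∃ i < n, y ∈ orbit H (px (r i))) ∧
      ∀ i < n, px (r i) ∈ ms T ∧ orbit H (px (r i)) = ms (M i) := by
  classical
  obtain ⟨p1, p2⟩ := band_iff.1 hp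
  have p3 : ∀ i < n, px (r i) ∈ ms T ∧ px (r i) ≠ f ∧ px (r i) ∈ ms (M i) ∧
      ms (M i) ⊆ orbit H (px (r i)) := fun i hi => by
    have := allLt_iff.1 p2 i hi
    simp only [band_iff, tb_eq, bnot_iff, nble_iff] at this
    obtain ⟨⟨b1, b2, b3⟩, b4, b5⟩ := this
    have e : (px (r i)).val = r i := Nat.mod_eq_of_lt (by omega)
    refine ⟨by rw [ms, Set.mem_ofPred_eq, e]; exact b1, fun h => ?_,
      by rw [ms, Set.mem_ofPred_eq, e]; exact b4, ?_⟩
    · rw [← h, e, nbeq_iff.2 rfl] at b2; exact absurd b2 (by simp)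
    · obtain ⟨S, c1, c2⟩ := orbW_sound {a : H | ∃ w ∈ W, Rep a w}
        (fun w hw => let ⟨a, h⟩ := h1 w hw; ⟨a, ⟨w, hw, h⟩, h⟩) (fun a h => h) (px (r i)) (e.symm ▸ b5)
      rw [← nbeq_iff.1 c2, ← c1]
      rintro _ ⟨g, rfl⟩
      exact ⟨g.1, rfl⟩
  have p4 : ∀ y ∈ ms T, y = f ∨ ∃ i < n, y ∈ ms (M i) := fun y hy => by
    have := congrArg (fun m => Nat.testBit m y.val) (nbeq_iff.1 p1)
    change Nat.testBit (_ ||| _) _ = Nat.testBit (_ ||| _) _ at this
    rw [Nat.testBit_or, Nat.testBit_or, show T.testBit y.val = true from hy, Bool.true_or, eq_comm,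
      Bool.or_eq_true, un_iff, testBit_two, decide_eq_true_iff] at this
    exact this.symm.imp (fun e => Fin.ext e.symm) fun ⟨j, a, _, c⟩ => ⟨j, a, c⟩
  refine ⟨fun y hy => (p4 y hy).imp id fun ⟨i, a, c⟩ => ⟨i, a, (p3 i a).2.2.2 c⟩,
    fun i hi => ⟨(p3 i hi).1, ?_⟩⟩
  let b := Nat.ofBits fun j : Fin n => decide (px (r j) ∈ orbit H (px (r i)))
  have b1 : ∀ j < n, (b.testBit j = true ↔ px (r j) ∈ orbit H (px (r i))) := fun j hj => by
    rw [Nat.testBit_ofBits_lt _ _ hj, decide_eq_true_iff]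
  have b2 : orbit H (px (r i)) = ms (un n M b) := Set.ext fun y => by
    rw [ms, Set.mem_ofPred_eq, un_iff]
    constructor
    · rintro ⟨g, rfl⟩
      rcases p4 _ (hT g _ (p3 i hi).1) with e | ⟨j, a, c⟩
      · exact absurd (MulAction.injective g (Eq.trans e (hf g).symm)) (p3 i hi).2.1
      · refine ⟨j, a, (b1 j a).2 ?_, c⟩
        rw [← orbit_smul g, orbit_eq_iff.2 ((p3 j a).2.2.2 c)]
        exact mem_orbit_self _
    · rintro ⟨j, a, c, d⟩
      rw [← orbit_eq_iff.2 ((b1 j a).1 c)]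
      exact (p3 j a).2.2.2 d
  have b3 := allLt_iff.1 hc b (by rw [two_eq]; exact Nat.ofBits_lt_two_pow _)
  rw [force_eq, bor_iff, bnot_iff, hq _ _ b2] at b3
  have b4 := allLt_iff.1 (b3.resolve_left (by simp)) i hi
  rw [bor_iff, bnot_iff, tb_eq, (b1 i hi).2 (mem_orbit_self _)] at b4
  rw [b2, nbeq_iff.1 (b4.resolve_left (by simp))]

theorem dv_of {N U : ℕ} (hN : Nat.card H = N) {x : X} (h : orbit H x = ms U) : dv N U = true := by
  refine nbeq_iff.2 (Nat.mod_eq_zero_of_dvd ?_)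
  rw [← ncard_ms, ← h, ← hN, ← Nat.card_congr (orbitProdStabilizerEquivGroup H x), Nat.card_prod,
    Nat.card_coe_set_eq]
  exact dvd_mul_right _ _

theorem card_stab {H Ω : Type*} [Group H] [MulAction H Ω] {N n k : ℕ} (hN : Nat.card H = N) {x : Ω} (h : (orbit H x).ncard = n)
    (hn : 0 < n) (e : n * k = N) : Nat.card (stabilizer H x) = k := by
  have := Nat.card_congr (orbitProdStabilizerEquivGroup H x)
  rw [Nat.card_prod, Nat.card_coe_set_eq, h, hN, ← e] at this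
  exact Nat.eq_of_mul_eq_mul_left hn this

end

end Cfsg.Agent.H7.Rv
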