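import Mathlib
import Cfsg.Agent.H7.Rv1
import Cfsg.Agent.H7.Rv2
import Cfsg.Agent.H7.Rv6
import Cfsg.Agent.H9.RvGo
import Cfsg.Agent.H21.RvB
import Cfsg.Agent.H10.RvK
import Cfsg.Agent.H15.RvU
import Cfsg.Agent.H9.R3c

/-! The Rudvalis graph: the two point stabilisers and uniqueness of the graph. -/

set_option autoImplicit false
set_option maxRecDepth 100000

namespace Cfsg.Agent.H7.Rv

open Cfsg.Agent.H14 MulAction
open Cfsg.Agent.H25 (forceL forceL_eq)

structure Mod0 (H : Type*) [Group H] [MulAction H X] : Prop where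
  ex : ∀ w, small w = true → tr w 1831 = 1831 → ∃ a : H, Rep a w
  base : ∀ y : H, (∀ x : X, x.val ∈ BB → y • x = x) → y = 1
  fix : ∀ y : H, y • px 1831 = px 1831
  card : Nat.card H = 35942400

theorem ad0 (y : X) : ad 1831 y.val = 1 ↔ y ∈ ms mD := by
  have : sw 3 1831 = [] := by decide +kernel
  rw [ad, this, bitN_eq]
  change (mD.testBit y.val).toNat = 1 ↔ mD.testBit y.val = true
  cases mD.testBit y.val <;> simp

theorem tb_ms {m p : ℕ} (hp : p < 4060) : px p ∈ ms m ↔ tb m p = true := by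
  rw [tb_eq]
  change m.testBit (p % 4060) = true ↔ _
  rw [Nat.mod_eq_of_lt hp]

theorem stab_swap {H Ω Y : Type*} [Group H] [MulAction H Ω] [MulAction H Y] {b : Ω} {x : Y} {u : H}
    (h : stabilizer H b = stabilizer H (u • x)) : stabilizer H x = stabilizer H (u⁻¹ • b) := by
  ext g
  have := SetLike.ext_iff.1 h (u * g * u⁻¹)
  simp only [mem_stabilizer_iff, mul_smul, inv_smul_smul, smul_left_cancel_iff] at this ⊢
  rw [← this, smul_eq_iff_eq_inv_smul u]

variable {H : Type*} [Group H] [MulAction H X] (A : Mod0 H)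
include A

theorem Mod0.fin : Finite H := Nat.finite_of_card_ne_zero (by rw [A.card]; norm_num)

theorem Mod0.rep {W : List (List ℕ)} {ps : List ℕ} (h : fixW W (1831 :: ps) = true) {w : List ℕ}
    (hw : w ∈ W) : ∃ a : H, Rep a w ∧ ∀ p ∈ ps, p < 4060 → a • px p = px p :=
  let k := fixW_iff h hw
  let ⟨a, r⟩ := A.ex w k.1 (k.2 _ (by simp))
  ⟨a, r, fun p hp e => r.fix (by
    rw [show (px p).val = p from Nat.mod_eq_of_lt e]; exact k.2 p (by simp [hp]))⟩

theorem Mod0.oH : orbit H (px 803) = ms mD ∧ orbit H (px 476) = ms mE ∧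
    ∀ y, y = px 1831 ∨ y ∈ orbit H (px 803) ∨ y ∈ orbit H (px 476) := by
  have a : ∀ x : X, x ∈ ms (Nat.sub (two 4060) 1) := fun x => by
    change Nat.testBit (two 4060 - 1) _ = true
    rw [two_eq, Nat.testBit_two_pow_sub_one, decide_eq_true_iff]; exact x.2
  obtain ⟨h1, h2⟩ := exact (H := H) (f := px 1831) (fun w hw => (A.rep cH.1 hw).imp fun _ h => h.1)
    cH.2.1 cH.2.2 A.fix (fun g x _ => a _) fun x U h => dv_of A.card h
  refine ⟨(h2 0 (by norm_num)).2, (h2 1 (by norm_num)).2, fun y => (h1 y (a y)).imp id ?_⟩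
  rintro ⟨i, hi, h⟩
  interval_cases i
  exacts [Or.inl h, Or.inr h]

theorem Mod0.cD : (orbit H (px 803)).ncard = 1755 := by rw [A.oH.1, ncard_ms, cN.1]
theorem Mod0.cE : (orbit H (px 476)).ncard = 2304 := by rw [A.oH.2.1, ncard_ms, cN.2.1]
theorem Mod0.iD (g : H) : ∀ x ∈ ms mD, g • x ∈ ms mD := by
  rw [← A.oH.1]; rintro _ ⟨k, rfl⟩; exact ⟨g * k, mul_smul _ _ _⟩
theorem Mod0.iE (g : H) : ∀ x ∈ ms mE, g • x ∈ ms mE := by
  rw [← A.oH.2.1]; rintro _ ⟨k, rfl⟩; exact ⟨g * k, mul_smul _ _ _⟩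
theorem Mod0.sE {e : X} (he : e ∈ ms mE) : Nat.card (stabilizer H e) = 15600 :=
  card_stab A.card (n := 2304) (by rw [orbit_eq_iff.2 (A.oH.2.1.ge he), A.cE]) (by norm_num) (by norm_num)

theorem Mod0.oP : ((∀ y ∈ ms mD, y = px 803 ∨ ∃ i < 4, y ∈ orbit (stabilizer H (px 803)) (px (rP i))) ∧
      ∀ i < 4, px (rP i) ∈ ms mD ∧ orbit (stabilizer H (px 803)) (px (rP i)) = ms (mP i)) ∧
    (∀ y ∈ ms mE, y = px 803 ∨ ∃ i < 2, y ∈ orbit (stabilizer H (px 803)) (px (rP (4 + i)))) ∧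
      ∀ i < 2, px (rP (4 + i)) ∈ ms mE ∧
        orbit (stabilizer H (px 803)) (px (rP (4 + i))) = ms (mP (4 + i)) := by
  have c : Nat.card (stabilizer H (px 803)) = 20480 := card_stab A.card A.cD (by norm_num) (by norm_num)
  have r : ∀ w ∈ gP, ∃ a : stabilizer H (px 803), Rep a w := fun w hw =>
    let ⟨a, r, e⟩ := A.rep cP.1 hw; ⟨⟨a, e 803 (by simp) (by norm_num)⟩, r⟩
  exact ⟨exact (f := px 803) r cP.2.1 cP.2.2.1 (fun g => g.2) (fun g => A.iD g.1) fun x U h => dv_of c h,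
    exact (f := px 803) r cP.2.2.2.1 cP.2.2.2.2 (fun g => g.2) (fun g => A.iE g.1) fun x U h => dv_of c h⟩

theorem Mod0.el : ∃ s t i j : H, Rep s ws ∧ Rep t wt ∧ Rep j ii ∧ orderOf s = 13 ∧ orderOf t = 4 ∧
    s * t = t * s ^ 5 ∧ t * i = i * t ^ 3 ∧ i * j = 1 ∧
    ∀ p ∈ [476, 1216, 1560], s • px p = px p ∧ t • px p = px p := by
  obtain ⟨c1, -, -, c2, c3, c4, c5, c6, c7, c8, c9⟩ := cT
  obtain ⟨s, rs, es⟩ := A.rep c2 (w := ws) (by simp)
  obtain ⟨t, rt, et⟩ := A.rep c2 (w := wt) (by simp)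
  obtain ⟨i, ri, -⟩ := A.rep c1 (w := io) (by simp)
  obtain ⟨j, rj, -⟩ := A.rep c1 (w := ii) (by simp)
  have : Fact (Nat.Prime 13) := ⟨by norm_num⟩
  refine ⟨s, t, i, j, rs, rt, rj, orderOf_eq_prime ((rs.pow 13).eq A.base Rep.one c3) fun e => ?_,
    orderOf_eq_prime_pow (p := 2) (n := 1) (fun e => ?_) ((rt.pow 4).eq A.base Rep.one c5),
    (rs.mul rt).eq A.base (rt.mul (rs.pow 5)) c7, (rt.mul ri).eq A.base (ri.mul (rt.pow 3)) c8,
    (ri.mul rj).eq A.base Rep.one c9, fun p hp => ?_⟩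
  · rw [rs.eqW (e ▸ Rep.one)] at c4; exact absurd c4 (by simp)
  · rw [(rt.pow 2).eqW ((show t ^ 2 = 1 from e) ▸ Rep.one)] at c6; exact absurd c6 (by simp)
  · have : p < 4060 := by simp at hp; omega
    exact ⟨es p hp this, et p hp this⟩

theorem Mod0.oK : (∀ y ∈ ms mE, y = px 476 ∨ ∃ i < 5, y ∈ orbit (stabilizer H (px 476)) (px (rK i))) ∧
      ∀ i < 5, px (rK i) ∈ ms mE ∧ orbit (stabilizer H (px 476)) (px (rK i)) = ms (mK i) := by
  have := A.fin
  have c : Nat.card (stabilizer H (px 476)) = 15600 := card_stab A.card A.cE (by norm_num) (by norm_num)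
  refine exact (f := px 476) (fun w hw => let ⟨a, r, e⟩ := A.rep cK.1 hw
    ⟨⟨a, e 476 (by simp) (by norm_num)⟩, r⟩) cK.2.1 cK.2.2 (fun g => g.2) (fun g => A.iE g.1)
    fun x U h => band_iff.2 ⟨dv_of c h, bor_iff.2 ?_⟩
  cases e : tb U 1216
  · exact Or.inl rfl
  refine Or.inr (nble_iff.2 ?_)
  obtain ⟨s, t, i, j, -, -, -, os, ot, -, -, -, f⟩ := A.el
  have h1 := Nat.card_congr (orbitProdStabilizerEquivGroup (stabilizer H (px 476)) (px 1216))
  rw [Nat.card_prod, Nat.card_coe_set_eq, c, orbit_eq_iff.2 (h.ge ((tb_ms (by norm_num)).2 e)), h,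
    ncard_ms] at h1
  have h2 := orderOf_dvd_natCard (G := stabilizer (stabilizer H (px 476)) (px 1216))
    ⟨⟨s, (f 476 (by simp)).1⟩, (f 1216 (by simp)).1⟩
  have h3 := orderOf_dvd_natCard (G := stabilizer (stabilizer H (px 476)) (px 1216))
    ⟨⟨t, (f 476 (by simp)).2⟩, (f 1216 (by simp)).2⟩
  rw [← Subgroup.orderOf_coe, ← Subgroup.orderOf_coe] at h2 h3
  rw [os] at h2; rw [ot] at h3
  have h4 := Nat.le_of_dvd Nat.card_pos ((by norm_num : Nat.Coprime 13 4).mul_dvd_of_dvd_of_dvd h2 h3)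
  have := Nat.mul_le_mul_left (popc 4060 U) h4
  omega

theorem Mod0.stab1 {K : Subgroup H} (hK : Nat.card K = 20480) : ∃ u : H, K = stabilizer H (u • px 803) := by
  have := A.fin
  obtain ⟨⟨p1, p2⟩, -⟩ := A.oP
  have c : ∀ i < 4, (orbit (stabilizer H (px 803)) (px (rP i))).ncard =
      [10, 80, 640, 1024, 1024, 1280].getD i 0 := fun i hi => by
    rw [(p2 i hi).2, ncard_ms, cN.2.2.1 i (by omega)]
  obtain ⟨q, rq, -⟩ := A.rep cT.1 (w := tq) (by simp)
  refine stabB A.card _ A.cD (fun i => px (rP i)) (A.oH.1 ▸ p1) (c 0 (by norm_num)) (c 1 (by norm_num))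
    (c 2 (by norm_num)) (c 3 (by norm_num)) q⁻¹ (Fin.ext ((rq _).trans cT.2.1)) (px 1129) ?_ hK
  rw [(p2 0 (by norm_num)).2]
  intro y h1 h2
  have := allLt_iff.1 cT.2.2.1 y y.2
  rw [bor_iff, bor_iff, bnot_iff, bnot_iff, tb_eq, tb_eq, ← rq, show Nat.testBit _ _ = true from h1,
    show Nat.testBit _ _ = true from h2] at this
  exact Fin.ext (show y.val = 1129 from nbeq_iff.1 (by simpa using this))

variable (hA : ∀ (g : H) (x y : X), ad (g • x).val (g • y).val = ad x.val y.val)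
include hA

theorem Mod0.cent {a : H} {w : List ℕ} (r : Rep a w) {prog : List (ℕ × ℕ × ℕ × ℕ)} {m : ℕ}
    (h : go w finB prog m = true) : Nat.card (Subgroup.centralizer ({a} : Set H)) ≤ m := by
  have := A.fin
  refine go_sound (A := Subgroup.centralizer ({a} : Set H)) (fun g => hA g.1) w (fun x => a⁻¹ • x) r
    (fun g x => ?_) (fun g x e => ?_) finB (fun Fx hF g h => Subtype.ext (A.base g.1 fun x hx =>
      h x (mem_iff.1 (allL_iff.1 hF _ hx)))) prog m h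
  · have : Commute g.1 a := Subgroup.mem_centralizer_singleton_iff.1 g.2
    change g.1 • a⁻¹ • x = a⁻¹ • g.1 • x
    rw [← mul_smul, this.inv_right.eq, mul_smul]
  · obtain rfl : x = px 1831 := Fin.ext e
    exact A.fix g.1

theorem Mod0.list {t : H} (rt : Rep t wt) {c : H} (hc : t * c = c * t) : ∃ w ∈ LC, Rep c w := by
  have := A.fin
  obtain ⟨c1, c2, c3, c4, -⟩ := cL
  have h : ∀ i : Fin LC.length, ∃ a : Subgroup.centralizer ({t} : Set H), Rep a.1 LC[i] := fun i =>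
    let ⟨a, r, _⟩ := A.rep c1 (List.getElem_mem i.2)
    ⟨⟨a, Subgroup.mem_centralizer_singleton_iff.2
      ((rt.mul r).eq A.base (r.mul rt) (allL_iff.1 c2 _ (List.getElem_mem i.2))).symm⟩, r⟩
  choose φ hφ using h
  rw [forceL_eq] at c4
  have inj : Function.Injective φ := fun i j e => by
    have k : ∀ p, p < 4060 → tr LC[i] p = tr LC[j] p := fun p hp =>
      (hφ i ⟨p, hp⟩).symm.trans (e ▸ hφ j ⟨p, hp⟩)
    have := (List.nodup_iff_injective_getElem.1 (nd_sound c4))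
      (a₁ := ⟨i, by simp⟩) (a₂ := ⟨j, by simp⟩) (by
        simp only [List.getElem_map, ky]
        change Nat.add (tr LC[i] 409) (Nat.mul 4096 (Nat.add (tr LC[i] 569) (Nat.mul 4096
          (Nat.add (tr LC[i] 3029) (Nat.mul 4096 (tr LC[i] 803)))))) = _
        rw [k 409 (by norm_num), k 569 (by norm_num), k 3029 (by norm_num), k 803 (by norm_num)]
        rfl)
    exact Fin.ext (congrArg Fin.val this)
  obtain ⟨i, e⟩ := (inj.bijective_of_nat_card_le (by
    rw [Nat.card_fin, c3]; exact A.cent hA rt kpt)).2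
    ⟨c, Subgroup.mem_centralizer_singleton_iff.2 hc.symm⟩
  exact ⟨_, List.getElem_mem i.2, by simpa [e] using hφ i⟩

theorem Mod0.stab2 {K : Subgroup H} (hK : Nat.card K = 15600) : ∃ u : H, K = stabilizer H (u • px 476) := by
  classical
  have := A.fin
  obtain ⟨s, t, i, j, rs, rt, rj, os, ot, h1, h2, h3, f⟩ := A.el
  obtain ⟨u, k1, k2, w, k3, k4, k5, k6⟩ := kpart A.card os ot h1 h2 (A.cent hA rs kps) hK
  obtain ⟨v, hv, rw'⟩ : ∃ v ∈ LC ++ LC.map (· ++ ii), Rep w v := by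
    rcases k6 with e | e
    · obtain ⟨v, hv, r⟩ := A.list hA rt e
      exact ⟨v, List.mem_append_left _ hv, r⟩
    · obtain ⟨v, hv, r⟩ := A.list hA rt e
      exact ⟨_, List.mem_append_right _ (List.mem_map_of_mem hv), by
        have := r.mul rj
        rwa [mul_assoc, h3, mul_one] at this⟩
  let K' := K.comap (MulAut.conj u⁻¹).toMonoidHom
  have cK : Nat.card K' = 15600 := by
    rw [← hK]
    exact Nat.card_congr ((MulAut.conj u⁻¹).toEquiv.subtypeEquiv fun _ => Iff.rfl)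
  have mK : ∀ x, u⁻¹ * x * u ∈ K → x ∈ K' := fun x h => by simpa [K'] using h
  have o : ∀ (c : X) (n : ℕ), (orbW [ws, wt, v] c.val fun _ m => Nat.beq m n) = true →
      (orbit (Subgroup.closure ({s, t, w} : Set H)) c).ncard = n := fun c n h => by
    obtain ⟨S, e1, e2⟩ := orbW_sound ({s, t, w} : Set H) (by
      simp only [List.forall_mem_cons]
      exact ⟨⟨s, by simp, rs⟩, ⟨t, by simp, rt⟩, ⟨w, by simp, rw'⟩, by simp⟩) (by
      rintro a (rfl | rfl | rfl)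
      exacts [⟨_, by simp, rs⟩, ⟨_, by simp, rt⟩, ⟨_, by simp, rw'⟩]) c h
    rw [e1, nbeq_iff.1 e2]
  have k := allL_iff.1 kca v hv
  rw [caseOK, bor_iff, bor_iff, bor_iff, anyLt_iff, allLt_iff, anyL_iff] at k
  rcases k with ⟨n, -, e⟩ | e | ⟨p, hp, e⟩ | e
  · exact absurd (rw'.eq A.base (rt.pow n) e ▸ Subgroup.npow_mem_zpowers t n) k4
  · obtain ⟨n, hn, e'⟩ := Finset.mem_image.1 (mem_zpowers_iff_mem_range_orderOf.1 k5)
    have := bnot_iff.1 (e n (by rw [← ot]; exact Finset.mem_range.1 hn))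
    rw [(rw'.mul rw').eqW (e' ▸ rt.pow n)] at this
    exact absurd this (by simp)
  · obtain ⟨e1, e2⟩ := band_iff.1 e
    have q : p.1 ∈ [476, 1216, 1560] ∧ p.2 ∈ [476, 1216, 1560] ∧ p.1 < 4060 ∧ p.2 < 4060 ∧
        tb mE p.1 = true := by
      simp only [List.mem_cons, List.not_mem_nil, or_false] at hp
      obtain ⟨-, -, -, -, -, a, b, c, -⟩ := cN
      rcases hp with rfl | rfl | rfl <;> simp [a, b, c]
    obtain ⟨q1, q2, q3, q4, q5⟩ := q
    have v1 : (px p.1).val = p.1 := Nat.mod_eq_of_lt q3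
    have v2 : (px p.2).val = p.2 := Nat.mod_eq_of_lt q4
    have hE := (tb_ms q3).2 q5
    have e3 := kfin cK os ot (mK _ k1) (mK _ k2) (mK _ k3) (A.sE hE) (f _ q1).1 (f _ q1).2
      (rw'.fix (by rw [v1]; exact nbeq_iff.1 e1)) (f _ q2).1 (f _ q2).2 (o _ _ (v2.symm ▸ e2))
    obtain ⟨z, hz⟩ := A.oH.2.1.ge hE
    refine ⟨u⁻¹ * z, Subgroup.ext fun x => ?_⟩
    have := SetLike.ext_iff.1 e3 (u * x * u⁻¹)
    simp only [K', Subgroup.mem_comap, mem_stabilizer_iff, mul_smul] at this ⊢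
    rw [show z • px 476 = px p.1 from hz, ← smul_left_cancel_iff u, smul_inv_smul, ← this]
    simp [mul_assoc]
  · have a1 := card_eq_orbit_mul_inf (Subgroup.closure ({s, t, w} : Set H)) (px 803)
    rw [o (px 803) _ e] at a1
    have a2 := Subgroup.card_dvd_of_le ((Subgroup.closure_le K').2 (show ({s, t, w} : Set H) ⊆ K' from by
      rintro a (rfl | rfl | rfl)
      exacts [mK _ k1, mK _ k2, mK _ k3]))
    rw [a1, cK] at a2
    exact absurd ((dvd_mul_right _ _).trans a2) (by norm_num)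

theorem Mod0.iso {l' m' : ℕ} (hs' : Srg (fun x y : X => ad x.val y.val = 1) l' m') {Ω : Type*}
    [Fintype Ω] [MulAction H Ω] (hΩ : Fintype.card Ω = 4060) {a b c : Ω} (ha : ∀ h : H, h • a = a)
    (hb : (orbit H b).ncard = 1755) (hc : (orbit H c).ncard = 2304) {R : Ω → Ω → Prop} {l m : ℕ}
    (hs : Srg R l m) (hR : ∀ (g : H) x y, R (g • x) (g • y) ↔ R x y)
    (hab : ∀ y, R a y ↔ y ∈ orbit H b) :
    ∃ β : X ≃ Ω, ∀ x y, R (β x) (β y) ↔ ad x.val y.val = 1 := by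
  obtain ⟨u, hu⟩ := A.stab1 (card_stab A.card hb (by norm_num) (by norm_num))
  obtain ⟨v, hv⟩ := A.stab2 hA (card_stab A.card hc (by norm_num) (by norm_num))
  have hu := stab_swap hu
  have hv := stab_swap hv
  rw [← orbit_smul u⁻¹ b] at hb hab
  rw [← orbit_smul v⁻¹ c] at hc
  generalize u⁻¹ • b = b at hu hb hab
  generalize v⁻¹ • c = c at hv hc
  have d1 : ∀ z : Ω, (orbit H z).ncard ≠ 1 → a ∉ orbit H z := fun z h h' => h (by
    rw [← orbit_eq_iff.mpr h', Set.ncard_eq_one]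
    exact ⟨a, Set.eq_singleton_iff_unique_mem.mpr ⟨mem_orbit_self a, by
      rintro _ ⟨g, rfl⟩; exact ha g⟩⟩)
  have d3 : b ∉ orbit H c := fun h => by rw [orbit_eq_iff.2 h] at hb; omega
  have d4 : insert a (orbit H b ∪ orbit H c) = Set.univ :=
    Set.eq_of_subset_of_ncard_le (Set.subset_univ _) (by
      rw [Set.ncard_univ, Nat.card_eq_fintype_card, hΩ, Set.ncard_insert_of_notMem
        (fun h => h.elim (d1 b (by omega)) (d1 c (by omega))), Set.ncard_union_eq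
        (Set.disjoint_left.2 fun z h1 h2 => d3 (by
          rw [← orbit_eq_iff.2 h2, orbit_eq_iff.2 h1]; exact mem_orbit_self b)), hb, hc])
  obtain ⟨o1, o2, o3⟩ := A.oH
  obtain ⟨-, -, n1, n2, n3, -, -, -, n4, n5, n6⟩ := cN
  have nt : ∀ {m p : ℕ}, p < 4060 → tb m p = false → px p ∉ ms m := fun hp h e => by
    rw [(tb_ms hp).1 e] at h; exact absurd h (by simp)
  obtain ⟨β, b0, b1, b2, b3⟩ := H9.R3.glue (H := H) (px 1831) (px 803) (px 476) a b c A.fix ha hu hv o3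
    (fun y => d4.ge (Set.mem_univ y)) ⟨o1 ▸ nt (by norm_num) n4, o2 ▸ nt (by norm_num) n5,
      o2 ▸ nt (by norm_num) n6⟩ ⟨d1 b (by omega), d1 c (by omega), d3⟩
  have t : ∀ P : Ω → Prop, {y | P (β y)}.ncard = {y | P y}.ncard := fun P =>
    Set.ncard_preimage_of_injective_subset_range (s := {y | P y}) β.injective
      (by rw [β.surjective.range_eq]; exact Set.subset_univ _)
  obtain ⟨⟨p1, p2⟩, p3, p4⟩ := A.oP
  obtain ⟨k1, k2⟩ := A.oK
  refine ⟨β, uniq (H := H) (R := fun x y => R (β x) (β y)) (l := l) (m := m) (Fintype.card_fin _)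
    (px 1831) (px 803) (px 476) A.fix o3 A.cD A.cE (fun i => px (rP i)) (fun i => px (rK i)) (o1 ▸ p1)
    (fun y hy => ?_) (fun i hi => ?_) (o2 ▸ k1) (fun i hi => by rw [(k2 i hi).2, ncard_ms, n2 i hi])
    (fun i hi => o1 ▸ (p2 i hi).1) ⟨o2 ▸ (p4 0 (by norm_num)).1, o2 ▸ (p4 1 (by norm_num)).1⟩
    (fun i hi => o2 ▸ (k2 i hi).1) ((k2 2 (by norm_num)).2 ▸ nt (by decide +kernel) n3)
    ⟨fun x y => hs.sy _ _, fun x => hs.ir _, fun x => (t (R (β x))).trans (hs.val _),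
      fun x y h => (t fun z => R (β x) z ∧ R (β y) z).trans (hs.la _ _ h),
      fun x y h h' => (t fun z => R (β x) z ∧ R (β y) z).trans (hs.mu _ _ (β.injective.ne h) h')⟩ hs'
    (fun g x y => by rw [b3, b3, hR]) (fun g x y => by rw [hA]) (fun y => ?_)
    (fun y => o1 ▸ ad0 y)⟩
  · rw [o2] at hy
    rcases p3 y hy with rfl | ⟨i, hi, h⟩
    · exact absurd hy (nt (by norm_num) n6)
    · interval_cases i
      exacts [Or.inl h, Or.inr h]
  · rw [← n1 i hi, ← ncard_ms]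
    by_cases h : i < 4
    · rw [(p2 i h).2]
    · obtain ⟨j, rfl⟩ := Nat.exists_eq_add_of_le (not_lt.1 h)
      rw [(p4 j (by omega)).2]
  · rw [b0, hab]
    exact ⟨fun ⟨g, e⟩ => ⟨g, β.injective (by rw [← e, ← b1]; exact b3 g _)⟩,
      fun ⟨g, e⟩ => ⟨g, by rw [← e, ← b1]; exact (b3 g _).symm⟩⟩

end Cfsg.Agent.H7.Rv
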