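import Mathlib
import Cfsg.Agent.H7.Ti3
import Cfsg.Agent.H7.Rv7

/-! The point stabiliser of the Rudvalis graph is `²F₄(2)`. -/

set_option autoImplicit false
set_option maxRecDepth 100000

namespace Cfsg.Agent.H7.Rv

section
open Cfsg.Agent.H25 Cfsg.Agent.H28 Cfsg.Agent.H7.Ti

theorem topT : Lc (nat_lit 63) gT = ⊤ :=
  (base_of_chain hT.am hT.inj hch1 (hT.card.trans_le (by decide +kernel))).1
theorem chkT : ∀ w, chk w = true → ev gT w = 1 := hT.am.chk hBT
theorem le0 : Nat.card (Lc (nat_lit 63) gT) ≤ 1600 * Nat.card (Lc (nat_lit 31) gT) :=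
  card_step' chkT til0_ok til0_tab til0_hP ⟨rfl, rfl, rfl⟩
theorem le1 : Nat.card (Lc (nat_lit 31) gT) ≤ 26 * Nat.card (Lc (nat_lit 15) gT) :=
  card_step' chkT til1_ok til1_tab til1_hP ⟨rfl, rfl, rfl⟩
theorem le2 : Nat.card (Lc (nat_lit 15) gT) ≤ 9 * Nat.card (Lc (nat_lit 7) gT) :=
  card_step' chkT til2_ok til2_tab til2_hP ⟨rfl, rfl, rfl⟩
theorem le3 : Nat.card (Lc (nat_lit 7) gT) ≤ 8 * Nat.card (Lc (nat_lit 3) gT) :=
  card_step' chkT til3_ok til3_tab til3_hP ⟨rfl, rfl, rfl⟩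
theorem le4 : Nat.card (Lc (nat_lit 3) gT) ≤ 3 * Nat.card (Lc (nat_lit 1) gT) :=
  card_step' chkT til4_ok til4_tab til4_hP ⟨rfl, rfl, rfl⟩
theorem le5 : Nat.card (Lc (nat_lit 1) gT) ≤ 2 * Nat.card (Lc (nat_lit 0) gT) :=
  card_step' chkT til5_ok til5_tab til5_hP ⟨rfl, rfl, rfl⟩
theorem u6 : Nat.card (Lc (nat_lit 0) gT) ≤ 1 := card_Lc_zero gT
theorem u5 : Nat.card (Lc (nat_lit 1) gT) ≤ 2 := chain_up (n := 1) le5 u6
theorem u4 : Nat.card (Lc (nat_lit 3) gT) ≤ 6 := chain_up (n := 2) le4 u5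
theorem u3 : Nat.card (Lc (nat_lit 7) gT) ≤ 48 := chain_up (n := 6) le3 u4
theorem u2 : Nat.card (Lc (nat_lit 15) gT) ≤ 432 := chain_up (n := 48) le2 u3
theorem u1 : Nat.card (Lc (nat_lit 31) gT) ≤ 11232 := chain_up (n := 432) le1 u2
theorem l0 : 17971200 ≤ Nat.card (Lc (nat_lit 63) gT) := by rw [topT, Subgroup.card_top, card_TG]
theorem l1 : 11232 ≤ Nat.card (Lc (nat_lit 31) gT) := chain_down (N := 1600) le0 l0 (by norm_num)
theorem r0 : Rel gT til0_P (nat_lit 31) (nat_lit 63) :=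
  rel_step' (N := 1600) chkT til0_ok til0_tab til0_hP ⟨rfl, rfl, rfl⟩ rfl (chain_eq u1 l0)
theorem l2 : 432 ≤ Nat.card (Lc (nat_lit 15) gT) := chain_down (N := 26) le1 l1 (by norm_num)
theorem r1 : Rel gT til1_P (nat_lit 15) (nat_lit 31) :=
  rel_step' (N := 26) chkT til1_ok til1_tab til1_hP ⟨rfl, rfl, rfl⟩ rfl (chain_eq u2 l1)
theorem l3 : 48 ≤ Nat.card (Lc (nat_lit 7) gT) := chain_down (N := 9) le2 l2 (by norm_num)
theorem r2 : Rel gT til2_P (nat_lit 7) (nat_lit 15) :=
  rel_step' (N := 9) chkT til2_ok til2_tab til2_hP ⟨rfl, rfl, rfl⟩ rfl (chain_eq u3 l2)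
theorem l4 : 6 ≤ Nat.card (Lc (nat_lit 3) gT) := chain_down (N := 8) le3 l3 (by norm_num)
theorem r3 : Rel gT til3_P (nat_lit 3) (nat_lit 7) :=
  rel_step' (N := 8) chkT til3_ok til3_tab til3_hP ⟨rfl, rfl, rfl⟩ rfl (chain_eq u4 l3)
theorem l5 : 2 ≤ Nat.card (Lc (nat_lit 1) gT) := chain_down (N := 3) le4 l4 (by norm_num)
theorem r4 : Rel gT til4_P (nat_lit 1) (nat_lit 3) :=
  rel_step' (N := 3) chkT til4_ok til4_tab til4_hP ⟨rfl, rfl, rfl⟩ rfl (chain_eq u5 l4)
theorem r5 : Rel gT til5_P (nat_lit 0) (nat_lit 1) :=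
  rel_step' (N := 2) chkT til5_ok til5_tab til5_hP ⟨rfl, rfl, rfl⟩ rfl (chain_eq u6 l5)
def PT : List (List ℕ) := til5_P ++ til4_P ++ til3_P ++ til2_P ++ til1_P ++ til0_P
theorem relT : Rel gT PT 0 (nat_lit 63) := ((((r5.trans r4).trans r3).trans r2).trans r1).trans r0
theorem kT1 : allL chk PT = true := by decide +kernel
theorem kT2 : allLin (fun a => T0.chk2 B (4 :: expand df [a]) (app (expand df (gd [] CW a)) [4])) 0 6 = true ∧
    T0.chk2 B [4, 4] (expand df X2) = true := by decide +kernel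
theorem kT3 : fixW (y4 :: Y) [1831] = true ∧ allL (fun w => eqW (expand Y w) []) PT = true ∧
    allLin (fun a => eqW (y4 ++ gd [] Y a) (expand Y (gd [] CW a) ++ y4)) 0 6 = true ∧
    eqW (y4 ++ y4) (expand Y X2) = true ∧ eqW (gd [] Y 0) [] = false ∧
    Y.length = 6 := by decide +kernel
theorem kT4 : allLin (fun a => T0.chk B [a, a]) 0 4 = true := by decide +kernel

theorem coe_ev (w : List ℕ) : (ev gT w).1 = ev g w := map_ev (commutator GG).subtype gT w

theorem Mod0.psi {H : Type} [Group H] [MulAction H X] (A : Mod0 H) : Nonempty (GG ≃* H) := by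
  have := A.fin
  obtain ⟨c1, c2, c3, c4, c5, c7⟩ := kT3
  have h : ∀ a, ∃ c : H, Rep c (gd [] Y a) ∧ (6 ≤ a → c = 1) := fun a => by
    rw [gd_eq]
    by_cases ha : a < 6
    · obtain ⟨c, r, -⟩ := A.rep c1 (w := Y.getD a []) (List.mem_cons_of_mem _ (by
        rw [List.getD_eq_getElem _ _ (by omega)]; exact List.getElem_mem _))
      exact ⟨c, r, fun h => by omega⟩
    · exact ⟨1, by rw [List.getD_eq_default _ _ (by omega)]; exact Rep.one, fun _ => rfl⟩
  choose c hc hc' using h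
  obtain ⟨y, ry, -⟩ := A.rep c1 (w := y4) (by simp)
  have re : ∀ w, Rep (ev c w) (expand Y w) := fun w => by
    induction w with
    | nil => exact Rep.one
    | cons a w ih =>
      have := (hc a).mul ih
      rwa [← app_eq, ← ev_cons] at this
  obtain ⟨φ, hφ⟩ := exists_hom relT topT c
    (fun w hw => ⟨chkT w (allL_sound kT1 w hw), (re w).eq A.base Rep.one (allL_sound c2 w hw)⟩)
    (fun a ha => by
      have : 6 ≤ a := by
        by_contra h
        exact absurd (ha.symm.trans ((testBit_mask (L := 6) (a := a)).2 (by omega))) (by simp)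
      exact ⟨hT.one a this, hc' a this⟩)
  have me : ∀ w, φ (ev gT w) = ev c w := fun w => by rw [map_ev]; simp only [hφ]
  have x2 : g0 4 * g0 4 = (ev gT X2).1 := by
    have := h0.am.chk2 hB _ _ kT2.2
    rw [ev_expand] at this
    rw [coe_ev]; simpa [g] using this
  have y2 : y * y = ev c X2 := (ry.mul ry).eq A.base (re _) c4
  have hn := Subgroup.normal_of_index_eq_two index_C
  have hx : g0 4 ∉ commutator GG := fun h => by
    have := (Lc_le (K := commutator GG) (X := nat_lit 31) (x := g0)).2 (fun a ha => by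
      have ha := (testBit_mask (L := 5)).1 ha
      by_cases e : a = 4
      · exact e ▸ h
      · exact invol_mem _ (by
          simpa using h0.am.chk hB _ (allLin_sound kT4 a (Nat.zero_le _) (by omega))))
    rw [(base_of_chain h0.am h0.inj hch0 (h0.card.trans_le (by decide +kernel))).1, top_le_iff] at this
    have i := index_C
    rw [this, Subgroup.index_top] at i
    omega
  let f : TG →* TG := (MulAut.conjNormal (H := commutator GG) (g0 4)).toMonoidHom
  have key : (MulAut.conj y).toMonoidHom.comp φ = φ.comp f :=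
    MonoidHom.eq_of_eqOn_dense topT (by
      rintro _ ⟨a, ha, rfl⟩
      have ha := (testBit_mask (L := 6)).1 ha
      have e1 := h0.am.chk2 hB _ _ (allLin_sound kT2.1 a (Nat.zero_le _) (by omega))
      rw [app_eq, ev_cons, ev_append, ev_expand, ev_expand] at e1
      have e2 : f (gT a) = ev gT (gd [] CW a) := Subtype.ext (by
        rw [coe_ev]
        change g0 4 * g a * (g0 4)⁻¹ = _
        rw [mul_inv_eq_iff_eq_mul]; simpa [g] using e1)
      have e3 := (ry.mul (hc a)).eq A.base ((re _).mul ry) (allLin_sound c3 a (Nat.zero_le _) (by omega))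
      change y * φ (gT a) * y⁻¹ = φ (f (gT a))
      rw [e2, me, hφ, e3, mul_inv_cancel_right])
  obtain ⟨ψ, h1, h2⟩ := ext2 index_C φ hx (y := y) (fun a d e => by
    have : d = f a := Subtype.ext (eq_mul_inv_of_mul_eq e.symm)
    rw [this, ← mul_inv_eq_iff_eq_mul]
    exact DFunLike.congr_fun key a) (fun a e => by
    rw [show a = ev gT X2 from Subtype.ext (e.symm.trans x2), me, y2])
  have := simple_TG
  have i1 : φ.ker = ⊥ := φ.normal_ker.eq_bot_or_eq_top.resolve_right fun h => by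
    have : φ (gT 0) = 1 := show gT 0 ∈ φ.ker from h ▸ Subgroup.mem_top _
    rw [hφ] at this
    rw [(hc 0).eqW (this ▸ Rep.one)] at c5
    exact absurd c5 (by simp)
  have i2 : ∀ z ∈ commutator GG, ψ z = 1 → z = 1 := fun z hz e =>
    congrArg Subtype.val (show (⟨z, hz⟩ : TG) = 1 from Subgroup.mem_bot.1 (i1 ▸
      (show φ ⟨z, hz⟩ = 1 from (h1 ⟨z, hz⟩).symm.trans e)))
  have inj : Function.Injective ψ := (injective_iff_map_eq_one ψ).2 fun z e =>
    i2 z (invol_mem z (i2 _ ((Subgroup.mul_mem_iff_of_index_two index_C).2 Iff.rfl)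
      (by rw [map_mul, e, one_mul]))) e
  exact ⟨MulEquiv.ofBijective ψ (inj.bijective_of_nat_card_le (by rw [A.card, card_GG]))⟩

end

end Cfsg.Agent.H7.Rv
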