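import Mathlib
import Cfsg.Agent.H25.RuO
import Cfsg.Agent.H7.Rv3
import Cfsg.Agent.H7.Rv8
import Cfsg.Agent.H11.RvSep

/-! Rank three groups of degree 4060 with point stabiliser `²F₄(2)` act on the Rudvalis graph. -/

set_option autoImplicit false
set_option maxRecDepth 100000

namespace Cfsg.Agent.H7.Rv

open Cfsg.Agent.H14 MulAction
open Cfsg.Agent.H25 (ev ev_cons allRange_sound)
open Cfsg.Agent.H25.Ru (ptq orb_q hinj0)
open Cfsg.Agent.H25.RuO (G0 hAM hB hcard)

noncomputable def sm (y : G0) (x : X) : X := ⟨(orb_q y x.2).choose, (orb_q y x.2).choose_spec.1⟩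
theorem sm_spec (y : G0) (x : X) : y • ptq x.val = ptq (sm y x).val := (orb_q y x.2).choose_spec.2

noncomputable instance actX : MulAction G0 X where
  smul := sm
  one_smul x := Fin.ext (hinj0 _ (sm 1 x).2 _ x.2 (by rw [← sm_spec, one_smul]))
  mul_smul a b x := Fin.ext (hinj0 _ (sm (a * b) x).2 _ (sm a (sm b x)).2 
    ((sm_spec (a * b) x).symm.trans ((mul_smul a b _).trans
      ((congrArg (a • ·) (sm_spec b x)).trans (sm_spec a (sm b x))))))

theorem val_sound {lo n : ℕ} (h : val lo n H25.RuO.T = true) {a : ℕ} (h1 : lo ≤ a) (h2 : a < lo + n)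
    {i : ℕ} (hi : i < 4060) : get 12 (tab a) i = H25.RuO.T.tgt i a := by
  obtain ⟨a, rfl⟩ := Nat.exists_eq_add_of_le h1
  have := allLt_iff.1 h a (by omega)
  rw [force_eq, force_eq] at this
  exact nbeq_iff.1 (allRange_sound this i (Nat.zero_le _) hi)

theorem rep0 {w : List ℕ} (h : small w = true) : Rep (ev H25.RuO.g w) w := by
  induction w with
  | nil => exact Rep.one
  | cons a w ih =>
    have h := allL_iff.1 h
    have ha := nble_iff.1 (h a (by simp))
    rw [ev_cons]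
    refine Rep.mul (u := [a]) (fun x => ?_) (ih (allL_iff.2 fun b hb => h b (by simp [hb])))
    obtain ⟨e1, e2⟩ := hAM x.val x.2 a (show a < 62 by omega)
    refine (hinj0 _ (sm _ x).2 _ e1 ((sm_spec _ x).symm.trans e2)).trans (Eq.symm ?_)
    refine (tr_cons a [] x).trans ?_
    by_cases a1 : a < 16
    · exact val_sound v0 (by omega) (by omega) x.2
    by_cases a2 : a < 32
    · exact val_sound v1 (by omega) (by omega) x.2
    by_cases a3 : a < 47
    · exact val_sound v2 (by omega) (by omega) x.2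
    · exact val_sound v3 (by omega) (by omega) x.2

theorem base0 (y : G0) (h : ∀ x : X, x.val ∈ BB → y • x = x) : y = 1 := by
  refine hB.2 y fun b hb => ?_
  have e : H25.RuO.B = BB := by decide +kernel
  rw [e] at hb
  have hb' : b < 4060 := by simp [BB] at hb; omega
  have h1 := sm_spec y ⟨b, hb'⟩
  have h2 : sm y ⟨b, hb'⟩ = ⟨b, hb'⟩ := h ⟨b, hb'⟩ hb
  rw [h2] at h1
  exact h1

theorem trans0 (x : X) : ∃ s : G0, Rep s (sw 3 x.val) ∧ s⁻¹ • x = px 1831 := by
  have := band_iff.1 (allRange_sound ksw x.val (Nat.zero_le _) x.2)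
  exact ⟨_, rep0 this.1, Fin.ext ((rep0 this.1 x).trans (nbeq_iff.1 this.2))⟩

instance : IsPretransitive G0 X := ⟨fun x y =>
  let ⟨s, _, a⟩ := trans0 x
  let ⟨t, _, b⟩ := trans0 y
  ⟨t * s⁻¹, by rw [mul_smul, a, ← b, smul_inv_smul]⟩⟩

theorem mod0 : Mod0 (stabilizer G0 (px 1831)) :=
  ⟨fun _ h e => ⟨⟨_, (rep0 h).fix (x := px 1831) e⟩, rep0 h⟩, fun y h => Subtype.ext (base0 y.1 h),
    fun y => y.2, card_stab hcard (n := 4060) (by rw [orbit_eq_univ, Set.ncard_univ, Nat.card_fin])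
      (by norm_num) (by norm_num)⟩

theorem ad_ext {a b c d : ℕ} (h : ad a b = 1 ↔ ad c d = 1) : ad a b = ad c d := by
  rw [ad, ad, bitN_eq, bitN_eq] at h ⊢
  generalize Nat.testBit _ _ = p at h ⊢
  generalize Nat.testBit _ _ = q at h ⊢
  cases p <;> cases q <;> simp_all

theorem srg0 : ∃ l m, Srg (fun x y : X => ad x.val y.val = 1) l m ∧
    ∀ (g : G0) (x y : X), ad (g • x).val (g • y).val = ad x.val y.val := by
  obtain ⟨R, l, m, hs, hR, ha, -⟩ := rank3 (H := G0) (Fintype.card_fin _) (px 1831) (px 803) (px 476)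
    mod0.cD mod0.cE
  have e : ∀ x y : X, ad x.val y.val = 1 ↔ R x y := fun x y => by
    obtain ⟨s, r, a⟩ := trans0 x
    rw [← hR s⁻¹, a, ha, mod0.oH.1, ad, ← r, bitN_eq]
    change _ ↔ mD.testBit (s⁻¹ • y).val = true
    cases mD.testBit (s⁻¹ • y).val <;> simp
  refine ⟨l, m, ?_, fun g x y => ad_ext (by rw [e, e, hR])⟩
  rwa [show (fun x y : X => ad x.val y.val = 1) = R from funext fun x => funext fun y => propext (e x y)]

def Aut0 : Subgroup (Equiv.Perm X) where
  carrier := {g | ∀ x y, ad (g x).val (g y).val = ad x.val y.val}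
  one_mem' _ _ := rfl
  mul_mem' {a b} ha hb x y := (ha (b x) (b y)).trans (hb x y)
  inv_mem' {a} ha x y := by simpa using (ha (a⁻¹ x) (a⁻¹ y)).symm

theorem card_Aut0 : Nat.card Aut0 ≤ 145926144000 := by
  have h1 := go_sound (A := stabilizer Aut0 (px 1831)) (fun g => g.1.2) [] id (fun _ => rfl)
    (fun _ _ => rfl) (fun g x e => by
      obtain rfl : x = px 1831 := Fin.ext e
      exact g.2) (fun Fx => allL sepL fun p => mem p Fx) (fun Fx hF g h => by
      have k := sep_sound sepL (fun p hp => Nat.lt_succ_of_le (nble_iff.1 (allL_iff.1 cL.2.2.2.2 p hp)))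
        ksep g.1.1 g.1.2 fun x hx => h x (mem_iff.1 (allL_iff.1 hF x.val hx))
      exact Subtype.ext (Subtype.ext (Equiv.ext k))) pa 35942400 kpa
  have h2 := Set.ncard_le_card (orbit Aut0 (px 1831))
  rw [Nat.card_fin] at h2
  rw [← Nat.card_congr (orbitProdStabilizerEquivGroup Aut0 (px 1831)), Nat.card_prod, Nat.card_coe_set_eq]
  exact (Nat.mul_le_mul h2 h1).trans (by norm_num)

theorem embed {G Ω : Type*} [Group G] [Fintype Ω] [MulAction G Ω] [IsPretransitive G Ω]
    (hΩ : Fintype.card Ω = 4060) {a b c : Ω} (hb : (orbit (stabilizer G a) b).ncard = 1755)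
    (hc : (orbit (stabilizer G a) c).ncard = 2304) (e : stabilizer G a ≃* Ti.GG) :
    ∃ f : G →* Aut0, ∀ g, f g = 1 → ∀ x : Ω, g • x = x := by
  obtain ⟨R, l, m, hs, hR, ha, -⟩ := rank3 hΩ a b c hb hc
  obtain ⟨ψ⟩ := mod0.psi
  obtain ⟨l', m', hs', hA⟩ := srg0
  let ε := e.trans ψ
  let _ : MulAction (stabilizer G a) X := MulAction.compHom X ε.toMonoidHom
  have A : Mod0 (stabilizer G a) := ⟨fun w h k => let ⟨z, r⟩ := mod0.ex w h k
      ⟨ε.symm z, fun x => by
        change (ε (ε.symm z)⁻¹ • x).val = _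
        rw [map_inv, ε.apply_symm_apply]; exact r x⟩,
    fun y h => ε.injective ((mod0.base (ε y) h).trans (map_one ε).symm), fun y => mod0.fix (ε y),
    (Nat.card_congr ε.toEquiv).trans mod0.card⟩
  obtain ⟨Φ, hΦ⟩ := A.iso (fun g => hA (ε g).1) hs' hΩ (fun h => h.2) hb hc hs (fun g => hR g.1) ha
  refine ⟨((Equiv.permCongrHom Φ.symm).toMonoidHom.comp (toPermHom G Ω)).codRestrict Aut0
    fun g x y => ad_ext ?_, fun g h x => ?_⟩
  · rw [← hΦ, ← hΦ, ← hR g (Φ x)]; simp
  · simpa using congrArg Φ (Equiv.congr_fun (congrArg Subtype.val h) (Φ.symm x))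

theorem embed_Ru : Nonempty (G0 ≃* Aut0) := by
  obtain ⟨-, -, -, hA⟩ := srg0
  let f : G0 →* Aut0 := (toPermHom G0 X).codRestrict Aut0 hA
  have : Function.Injective f := (injective_iff_map_eq_one f).2 fun g h =>
    base0 g fun x _ => Equiv.congr_fun (congrArg Subtype.val h) x
  exact ⟨MulEquiv.ofBijective f (this.bijective_of_nat_card_le (hcard ▸ card_Aut0))⟩

end Cfsg.Agent.H7.Rv
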